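import Mathlib
import Cfsg.Agent.Char.Kernel
import Cfsg.Agent.Char.Linear
import Cfsg.Agent.CharExt.Gallagher
import Cfsg.Agent.CharInd.Clifford

/-!
# Degree bound from an abelian subgroup with centralisers meeting few conjugates
-/

set_option autoImplicit false
set_option linter.style.haveILetI false

noncomputable section

namespace Cfsg.Agent.CharDeep

open scoped ComplexConjugate

universe u

variable {G : Type u} [Group G] [Fintype G]

theorem avgN_avgN (H : Subgroup G) [Fintype H] (f : G → ℂ) :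
    CharExt.avgN H (CharExt.avgN H f) = CharExt.avgN H f :=
  CharExt.avgN_of_inv H _ fun n g => CharExt.avgN_mul H f n g

/-- The part of a character with the normal subgroup outside the kernel is a character. -/
theorem isCharacter_sub_avgN (H : Subgroup G) [H.Normal] [Fintype H] {χ : G → ℂ}
    (hχ : Cfsg.IsCharacter G χ) : Cfsg.IsCharacter G (χ - CharExt.avgN H χ) := by
  classical
  obtain ⟨m, hm, -⟩ := Char.isCharacter_exists_coeff hχ
  have hlin : CharExt.avgN H χ =
      ∑ β : Cfsg.IrrCharacter G, m β • CharExt.avgN H (β : G → ℂ) := by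
    conv_lhs => rw [hm]
    funext g
    simp only [CharExt.avgN, Finset.sum_apply, nsmul_eq_mul, Pi.mul_apply, Pi.natCast_apply,
      Finset.mul_sum]
    rw [Finset.sum_comm]
    exact Finset.sum_congr rfl fun β _ => Finset.sum_congr rfl fun x _ => by ring
  rw [hlin]
  conv => arg 2; arg 1; rw [hm]
  rw [← Finset.sum_sub_distrib]
  refine Char.isCharacter_sum _ fun β _ => ?_
  rw [← smul_sub]
  refine Char.isCharacter_nsmul ?_ _
  have h1 := CharExt.avgN_irr H β.2
  set t := CharExt.avgN H (β : G → ℂ) 1 / (β : G → ℂ) 1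
  have h2 : t * t = t := by
    have h3 := avgN_avgN H (β : G → ℂ)
    rw [h1] at h3
    have h4 : CharExt.avgN H (t • (β : G → ℂ)) = t • CharExt.avgN H (β : G → ℂ) := by
      funext g
      simp only [CharExt.avgN, Pi.smul_apply, smul_eq_mul, Finset.mul_sum]
      exact Finset.sum_congr rfl fun x _ => by ring
    rw [h4, h1, smul_smul] at h3
    have h5 := congrFun h3 1
    simp only [Pi.smul_apply, smul_eq_mul] at h5
    exact mul_right_cancel₀ (Char.irr_one_ne_zero β.2) h5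
  rcases mul_eq_zero.1 (show t * (t - 1) = 0 by linear_combination h2) with h | h
  · rw [h1, h, zero_smul, sub_zero]; exact Char.isCharacter_of_irr β.2
  · rw [h1, sub_eq_zero.1 h, one_smul, sub_self]; exact Char.isCharacter_zero

/-- A nonzero character has norm at least one. -/
theorem one_le_norm_character {χ : G → ℂ} (hχ : Cfsg.IsCharacter G χ) (h0 : χ ≠ 0) :
    (Nat.card G : ℝ) ≤ ∑ g : G, ‖χ g‖ ^ 2 := by
  classical
  obtain ⟨m, hm, hm'⟩ := Char.isCharacter_exists_coeff hχ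
  have h1 : Cfsg.classInner χ χ = ((∑ β, m β * m β : ℕ) : ℂ) := by
    conv_lhs => arg 1; rw [hm]
    rw [Char.classInner_sum_left]
    push_cast
    refine Finset.sum_congr rfl fun β _ => ?_
    rw [← Nat.cast_smul_eq_nsmul ℂ, Char.classInner_smul_left, ← CharInd.classInner_swap, hm',
      Complex.conj_natCast]
  have hpos : 1 ≤ ∑ β, m β * m β := by
    by_contra hlt
    have hz : ∀ β, m β = 0 := fun β => mul_self_eq_zero.1
      ((Finset.sum_eq_zero_iff.1 (by omega : ∑ β, m β * m β = 0)) β (Finset.mem_univ _))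
    exact h0 (by rw [hm]; simp [hz])
  have h2 : ((∑ g : G, ‖χ g‖ ^ 2 : ℝ) : ℂ) =
      (((Nat.card G * ∑ β, m β * m β : ℕ) : ℝ) : ℂ) := by
    rw [Complex.ofReal_natCast, Nat.cast_mul, ← h1, CharInd.classInner_congr_card]
    push_cast
    exact Finset.sum_congr rfl fun g _ => (Complex.mul_conj' _).symm
  rw [Complex.ofReal_inj.1 h2]
  exact_mod_cast Nat.le_mul_of_pos_right _ hpos

theorem classInner_one_eq (H : Subgroup G) [Fintype H] (χ : G → ℂ) :
    Cfsg.classInner (fun h : H => χ h) (fun _ => 1) = CharExt.avgN H χ 1 := by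
  simp [Cfsg.classInner, CharExt.avgN]

/-- Centralisers of non-central elements meet at most one conjugate of `H`. -/
def MeetsOne (H : Subgroup G) : Prop :=
  ∀ g : G, g ∉ Subgroup.center G → ∀ a b : G,
    Subgroup.centralizer ({g} : Set G) ⊓ H.map (MulAut.conj a).toMonoidHom ≠ ⊥ →
    Subgroup.centralizer ({g} : Set G) ⊓ H.map (MulAut.conj b).toMonoidHom ≠ ⊥ →
    H.map (MulAut.conj a).toMonoidHom = H.map (MulAut.conj b).toMonoidHom

theorem mem_normalizer_of_map_conj {H : Subgroup G} {g : G}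
    (h : H.map (MulAut.conj g).toMonoidHom = H) : g ∈ Subgroup.normalizer (H : Set G) := by
  rw [Subgroup.mem_normalizer_iff]
  intro y
  conv_rhs => rw [← h]
  refine ⟨fun hy => ⟨y, hy, by simp⟩, fun hy => ?_⟩
  obtain ⟨z, hz, e⟩ := hy
  simp only [MulEquiv.toMonoidHom_eq_coe, MonoidHom.coe_coe, MulAut.conj_apply] at e
  rwa [mul_left_cancel (mul_right_cancel e)] at hz

/-- The degree bound. -/
theorem abelian_degree_bound (H : Subgroup G) [Fintype H]
    (hab : ∀ a ∈ H, ∀ b ∈ H, a * b = b * a) (hZ : H ⊓ Subgroup.center G = ⊥)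
    (hone : MeetsOne H) {χ : G → ℂ} (hχ : Cfsg.IsIrrCharacter G χ)
    (hker : ∃ h ∈ H, χ h ≠ χ 1) :
    (χ 1).re ^ 2 > (Nat.card H : ℝ) *
      (Cfsg.classInner (fun h : H => χ h) (fun _ => 1)).re ^ 2 := by
  classical
  obtain ⟨h₀, hh₀, hh₀ne⟩ := hker
  have hh₀1 : h₀ ≠ 1 := fun h => hh₀ne (by rw [h])
  obtain ⟨d, hd0, hd⟩ := Char.irr_one_pos hχ
  set Nn := Subgroup.normalizer (H : Set G) with hNn
  have hHN : H ≤ Nn := Subgroup.le_normalizer
  let HN : Subgroup Nn := H.subgroupOf Nn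
  haveI : HN.Normal := Subgroup.normal_in_normalizer
  haveI : Fintype HN := Fintype.ofFinite _
  let ψ : Nn → ℂ := CharExt.avgN HN (fun x : Nn => χ x)
  let ξ : Nn → ℂ := (fun x : Nn => χ x) - ψ
  have hξc : Cfsg.IsCharacter Nn ξ :=
    isCharacter_sub_avgN HN (CharInd.isCharacter_res Nn (Char.isCharacter_of_irr hχ))
  have hξ0 : ξ ≠ 0 := by
    intro h0
    rw [sub_eq_zero] at h0
    have h1 := CharExt.avgN_mul HN (fun x : Nn => χ x) ⟨⟨h₀, hHN hh₀⟩, hh₀⟩ 1
    rw [mul_one] at h1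
    apply hh₀ne
    have h2 := congrFun h0 ⟨h₀, hHN hh₀⟩
    have h3 := congrFun h0 1
    simp only at h2 h3
    rw [h2, show χ 1 = χ ((1 : Nn) : G) from rfl, h3]
    exact h1
  -- elements of the normaliser centralising a non-identity element of `H`
  let P : Nn → Prop := fun x => ∃ u ∈ H, u ≠ 1 ∧ u * (x : G) = x * u
  have hoff : ∀ x : Nn, ¬ P x → ξ x = 0 := by
    intro x hx
    have hconst : ∀ k : HN, χ (((k : Nn) * x : Nn) : G) = χ x := by
      let F : H → H := fun u => ⟨(u : G) * x * (u : G)⁻¹ * (x : G)⁻¹, by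
        rw [show (u : G) * x * (u : G)⁻¹ * (x : G)⁻¹ = u * ((x : G) * (u : G)⁻¹ * (x : G)⁻¹) by group]
        exact H.mul_mem u.2 ((Subgroup.mem_normalizer_iff.1 x.2 _).1 (H.inv_mem u.2))⟩
      have hF : Function.Injective F := by
        intro u v e
        by_contra hne
        apply hx
        refine ⟨(v : G)⁻¹ * u, H.mul_mem (H.inv_mem v.2) u.2,
          fun h => hne (Subtype.ext (inv_mul_eq_one.1 h).symm), ?_⟩
        have e' : (u : G) * x * (u : G)⁻¹ = v * x * (v : G)⁻¹ :=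
          mul_right_cancel (congrArg Subtype.val e)
        calc (v : G)⁻¹ * u * x = (v : G)⁻¹ * (u * x * (u : G)⁻¹) * u := by group
          _ = x * ((v : G)⁻¹ * u) := by rw [e']; group
      intro k
      obtain ⟨u, hu⟩ := (Finite.injective_iff_surjective.1 hF) ⟨((k : Nn) : G), k.2⟩
      have e : ((k : Nn) : G) = (u : G) * x * (u : G)⁻¹ * (x : G)⁻¹ :=
        (congrArg Subtype.val hu).symm
      rw [Subgroup.coe_mul, e, inv_mul_cancel_right]
      exact Char.irr_isClassFunction hχ x u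
    have h1 : ψ x = χ x := by
      simp only [ψ, CharExt.avgN, hconst, Finset.sum_const, Finset.card_univ, nsmul_eq_mul,
        ← Nat.card_eq_fintype_card]
      exact inv_mul_cancel_left₀ (Nat.cast_ne_zero.2 Nat.card_pos.ne') _
    simp [ξ, h1]
  -- orthogonality
  have hcross : ∑ x : Nn, ψ x * conj (ξ x) = 0 := by
    have h1 : Cfsg.classInner ψ ξ = 0 := by
      rw [show Cfsg.classInner ψ ξ = Cfsg.classInner ψ (fun x : Nn => χ x) - Cfsg.classInner ψ ψ from
        Char.classInner_sub_right _ _ _]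
      have h2 : Cfsg.classInner ψ ψ = Cfsg.classInner ψ (fun x : Nn => χ x) := by
        show Cfsg.classInner ψ (CharExt.avgN HN _) = _
        rw [← CharExt.classInner_avgN, avgN_avgN]
      rw [h2, sub_self]
    rw [← CharInd.classInner_congr_card, h1, mul_zero]
  set S := Finset.univ.filter P
  have hcrossS : ∑ x ∈ S, ψ x * conj (ξ x) = 0 := by
    rw [← hcross]
    exact Finset.sum_subset (Finset.subset_univ _) fun x _ hx => by
      rw [hoff x (fun h => hx (Finset.mem_filter.2 ⟨Finset.mem_univ _, h⟩)), map_zero, mul_zero]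
  have hsplit : ∑ x ∈ S, ‖χ (x : G)‖ ^ 2 = ∑ x ∈ S, ‖ψ x‖ ^ 2 + ∑ x ∈ S, ‖ξ x‖ ^ 2 := by
    have hpt : ∀ x : Nn, ‖χ (x : G)‖ ^ 2 =
        ‖ψ x‖ ^ 2 + ‖ξ x‖ ^ 2 + 2 * (ψ x * conj (ξ x)).re := by
      intro x
      rw [show χ (x : G) = ψ x + ξ x by simp [ξ]]
      simp only [← Complex.normSq_eq_norm_sq, Complex.normSq_add]
    rw [Finset.sum_congr rfl fun x _ => hpt x, Finset.sum_add_distrib, Finset.sum_add_distrib,
      ← Finset.mul_sum, ← Complex.re_sum, hcrossS]
    simp
  have hξn : (Nat.card Nn : ℝ) ≤ ∑ x ∈ S, ‖ξ x‖ ^ 2 := by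
    refine (one_le_norm_character hξc hξ0).trans (le_of_eq ?_)
    exact (Finset.sum_subset (Finset.subset_univ _) fun x _ hx => by
      rw [hoff x (fun h => hx (Finset.mem_filter.2 ⟨Finset.mem_univ _, h⟩))]; simp).symm
  -- the central part
  let Zc := Finset.univ.filter fun g : G => g ∈ Subgroup.center G
  have hZN : ∀ z ∈ Subgroup.center G, z ∈ Nn := fun z hz => by
    rw [Subgroup.mem_normalizer_iff]
    intro y
    rw [← Subgroup.mem_center_iff.1 hz y, mul_inv_cancel_right]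
  set c := Cfsg.classInner (fun h : H => χ h) (fun _ => 1) with hcdef
  have hc : c = CharExt.avgN H χ 1 := classInner_one_eq H χ
  have hψZ : ∀ (z : G) (hz : z ∈ Subgroup.center G) (k : HN),
      ‖ψ ((k : Nn) * ⟨z, hZN z hz⟩)‖ = ‖c‖ := by
    intro z hz k
    obtain ⟨ω, hω, -, hω'⟩ := Char.irr_mul_center hχ hz
    show ‖CharExt.avgN HN _ _‖ = _
    rw [CharExt.avgN_mul]
    have h1 : CharExt.avgN HN (fun x : Nn => χ x) ⟨z, hZN z hz⟩ = ω * c := by
      rw [hc]
      simp only [CharExt.avgN, Subgroup.coe_mul, mul_one]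
      rw [Nat.card_congr (Subgroup.subgroupOfEquivOfLe hHN).toEquiv, ← mul_assoc, mul_comm ω,
        mul_assoc, Finset.mul_sum (Finset.univ : Finset H) (fun h : H => χ h) ω]
      congr 1
      refine Fintype.sum_equiv (Subgroup.subgroupOfEquivOfLe hHN).toEquiv _ _ fun y => ?_
      rw [show ((y : Nn) : G) * z = z * ((y : Nn) : G) from
        Subgroup.mem_center_iff.1 hz _, hω']
      rfl
    rw [h1, norm_mul, Complex.norm_eq_one_of_pow_eq_one hω (orderOf_pos z).ne', one_mul]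
  have hψS : (Nat.card H : ℝ) * Zc.card * ‖c‖ ^ 2 ≤ ∑ x ∈ S, ‖ψ x‖ ^ 2 := by
    let f : HN × {g // g ∈ Zc} → Nn := fun q =>
      (q.1 : Nn) * ⟨(q.2 : G), hZN _ (Finset.mem_filter.1 q.2.2).2⟩
    have hf : Function.Injective f := by
      rintro ⟨k, ⟨z, hz⟩⟩ ⟨k', ⟨z', hz'⟩⟩ e
      have e' : ((k : Nn) : G) * z = ((k' : Nn) : G) * z' := congrArg Subtype.val e
      have hzC := (Finset.mem_filter.1 hz).2
      have hzC' := (Finset.mem_filter.1 hz').2
      have hmem : ((k' : Nn) : G)⁻¹ * k ∈ H ⊓ Subgroup.center G := by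
        refine ⟨H.mul_mem (H.inv_mem k'.2) k.2, ?_⟩
        rw [show ((k' : Nn) : G)⁻¹ * k = z' * z⁻¹ by
          rw [eq_mul_inv_iff_mul_eq, mul_assoc, e', inv_mul_cancel_left]]
        exact Subgroup.mul_mem _ hzC' (Subgroup.inv_mem _ hzC)
      rw [hZ, Subgroup.mem_bot, inv_mul_eq_one] at hmem
      have hk : k = k' := Subtype.ext (Subtype.ext hmem.symm)
      subst hk
      exact Prod.ext rfl (Subtype.ext (mul_left_cancel e'))
    have hsub : Finset.univ.image f ⊆ S := by
      intro x hx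
      obtain ⟨⟨k, ⟨z, hz⟩⟩, -, rfl⟩ := Finset.mem_image.1 hx
      refine Finset.mem_filter.2 ⟨Finset.mem_univ _, h₀, hh₀, hh₀1, ?_⟩
      show h₀ * (((k : Nn) : G) * z) = ((k : Nn) : G) * z * h₀
      rw [← mul_assoc, show h₀ * ((k : Nn) : G) = ((k : Nn) : G) * h₀ from hab h₀ hh₀ _ k.2,
        mul_assoc, mul_assoc,
        Subgroup.mem_center_iff.1 (Finset.mem_filter.1 hz).2 h₀]
    refine le_trans (le_of_eq ?_) (Finset.sum_le_sum_of_subset_of_nonneg hsub fun _ _ _ => by positivity)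
    rw [Finset.sum_image fun a _ b _ e => hf e,
      Finset.sum_congr rfl fun q _ => show ‖ψ (f q)‖ ^ 2 = ‖c‖ ^ 2 by
        rw [hψZ _ (Finset.mem_filter.1 q.2.2).2 q.1], Finset.sum_const,
      Finset.card_univ, Fintype.card_prod, Fintype.card_coe, nsmul_eq_mul,
      ← Nat.card_eq_fintype_card, Nat.card_congr (Subgroup.subgroupOfEquivOfLe hHN).toEquiv,
      Nat.cast_mul]
  have hZχ : ∀ z ∈ Zc, ‖χ z‖ ^ 2 = (d : ℝ) ^ 2 := fun z hz => by
    obtain ⟨ω, hω, hω1, -⟩ := Char.irr_mul_center hχ (Finset.mem_filter.1 hz).2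
    rw [hω1, norm_mul, Complex.norm_eq_one_of_pow_eq_one hω (orderOf_pos z).ne', one_mul, hd,
      RCLike.norm_natCast]
  set S₁ := S.filter fun x : Nn => (x : G) ∉ Subgroup.center G
  have hS : ∑ x ∈ S, ‖χ (x : G)‖ ^ 2 =
      ∑ x ∈ S₁, ‖χ (x : G)‖ ^ 2 + Zc.card * (d : ℝ) ^ 2 := by
    rw [← Finset.sum_filter_add_sum_filter_not S fun x : Nn => (x : G) ∉ Subgroup.center G]
    congr 1
    rw [← nsmul_eq_mul, ← Finset.sum_const ((d : ℝ) ^ 2), ← Finset.sum_congr rfl hZχ]
    refine Finset.sum_bij (fun (x : Nn) _ => (x : G)) ?_ (fun a _ b _ e => Subtype.ext e) ?_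
      fun _ _ => rfl
    · intro x hx
      have h1 := (Finset.mem_filter.1 hx).2
      rw [not_not] at h1
      exact Finset.mem_filter.2 ⟨Finset.mem_univ _, h1⟩
    · intro z hz
      have hzC := (Finset.mem_filter.1 hz).2
      exact ⟨⟨z, hZN z hzC⟩, Finset.mem_filter.2 ⟨Finset.mem_filter.2 ⟨Finset.mem_univ _, h₀, hh₀,
        hh₀1, Subgroup.mem_center_iff.1 hzC h₀⟩, not_not.2 hzC⟩, rfl⟩
  -- the conjugates of `S₁` are disjoint
  have hAll : ∑ g : G, ‖χ g‖ ^ 2 = (Nat.card G : ℝ) := by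
    have h1 := CharInd.classInner_congr_card (φ := χ) (ψ := χ)
    rw [Char.classInner_irr_self hχ, mul_one] at h1
    apply Complex.ofReal_injective
    rw [Complex.ofReal_natCast, h1]
    push_cast
    exact Finset.sum_congr rfl fun g _ => (Complex.mul_conj' _).symm
  set T := Finset.univ.filter fun g : G => g ∉ Subgroup.center G
  have hT : ∑ g ∈ T, ‖χ g‖ ^ 2 + Zc.card * (d : ℝ) ^ 2 = Nat.card G := by
    rw [← hAll, ← Finset.sum_filter_add_sum_filter_not Finset.univ fun g : G => g ∉ Subgroup.center G]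
    congr 1
    rw [← nsmul_eq_mul, ← Finset.sum_const ((d : ℝ) ^ 2), ← Finset.sum_congr rfl hZχ]
    exact Finset.sum_congr (Finset.filter_congr fun g _ => not_not.symm) fun _ _ => rfl
  have hdisj : (Nat.card G : ℝ) * ∑ x ∈ S₁, ‖χ (x : G)‖ ^ 2 ≤
      (Nat.card Nn : ℝ) * ∑ g ∈ T, ‖χ g‖ ^ 2 := by
    let f : G × Nn → G := fun q => q.1 * (q.2 : G) * q.1⁻¹
    have h1 : (Nat.card G : ℝ) * ∑ x ∈ S₁, ‖χ (x : G)‖ ^ 2 =
        ∑ q ∈ (Finset.univ : Finset G) ×ˢ S₁, ‖χ (f q)‖ ^ 2 := by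
      rw [Finset.sum_product, Finset.sum_congr rfl fun y _ => Finset.sum_congr rfl
          fun (x : Nn) _ => show ‖χ (f (y, x))‖ ^ 2 = ‖χ (x : G)‖ ^ 2 by
            rw [show χ (f (y, x)) = χ (x : G) from Char.irr_isClassFunction hχ (x : G) y],
        Finset.sum_const, Finset.card_univ, nsmul_eq_mul, Nat.card_eq_fintype_card]
    have hmaps : ∀ q ∈ (Finset.univ : Finset G) ×ˢ S₁, f q ∈ T := by
      rintro ⟨y, x⟩ hq
      obtain ⟨-, hx⟩ := Finset.mem_product.1 hq
      refine Finset.mem_filter.2 ⟨Finset.mem_univ _, fun h => (Finset.mem_filter.1 hx).2 ?_⟩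
      have := (inferInstance : (Subgroup.center G).Normal).conj_mem _ h y⁻¹
      simpa [f, mul_assoc] using this
    have hfib : ∀ g ∈ T, (((Finset.univ : Finset G) ×ˢ S₁).filter fun q => f q = g).card ≤
        Nat.card Nn := by
      intro g hg
      have hgC := (Finset.mem_filter.1 hg).2
      set B := ((Finset.univ : Finset G) ×ˢ S₁).filter fun q => f q = g
      rcases B.eq_empty_or_nonempty with h | ⟨⟨y₀, x₀⟩, h0⟩
      · rw [h]; simp
      have hmeet : ∀ q ∈ B, Subgroup.centralizer ({g} : Set G) ⊓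
          H.map (MulAut.conj q.1).toMonoidHom ≠ ⊥ := by
        rintro ⟨y, x⟩ hq hbot
        obtain ⟨hq', hfq⟩ := Finset.mem_filter.1 hq
        obtain ⟨-, u, hu, hu1, hcom⟩ :=
          Finset.mem_filter.1 (Finset.mem_filter.1 (Finset.mem_product.1 hq').2).1
        apply hu1
        have hmem : y * u * y⁻¹ ∈ Subgroup.centralizer ({g} : Set G) ⊓
            H.map (MulAut.conj y).toMonoidHom := by
          refine ⟨Subgroup.mem_centralizer_singleton_iff.2 ?_, ⟨u, hu, by simp⟩⟩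
          rw [← hfq]
          show y * u * y⁻¹ * (y * x * y⁻¹) = y * x * y⁻¹ * (y * u * y⁻¹)
          calc y * u * y⁻¹ * (y * x * y⁻¹) = y * (u * x) * y⁻¹ := by group
            _ = y * (x * u) * y⁻¹ := by rw [hcom]
            _ = _ := by group
        rw [hbot, Subgroup.mem_bot, conj_eq_one_iff] at hmem
        exact hmem
      have hin : ∀ q ∈ B, y₀⁻¹ * q.1 ∈ Nn := by
        intro q hq
        have e := hone g hgC q.1 y₀ (hmeet q hq) (hmeet _ h0)
        refine mem_normalizer_of_map_conj ?_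
        rw [show (MulAut.conj (y₀⁻¹ * q.1)).toMonoidHom =
          (MulAut.conj y₀⁻¹).toMonoidHom.comp (MulAut.conj q.1).toMonoidHom by ext z; simp [mul_assoc],
          ← Subgroup.map_map, e, Subgroup.map_map]
        rw [show (MulAut.conj y₀⁻¹).toMonoidHom.comp (MulAut.conj y₀).toMonoidHom =
          MonoidHom.id G by ext z; simp [mul_assoc], Subgroup.map_id]
      rw [Nat.card_eq_fintype_card, ← Finset.card_univ]
      refine Finset.card_le_card_of_injOn
        (fun q => if h : y₀⁻¹ * q.1 ∈ Nn then (⟨_, h⟩ : Nn) else 1) (fun _ _ => Finset.mem_univ _) ?_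
      intro q hq q' hq' e
      simp only [dif_pos (hin q hq), dif_pos (hin q' hq')] at e
      have e1 : q.1 = q'.1 := mul_left_cancel (congrArg Subtype.val e)
      refine Prod.ext e1 (Subtype.ext ?_)
      have e2 : f q = f q' := (Finset.mem_filter.1 hq).2.trans (Finset.mem_filter.1 hq').2.symm
      simp only [f, e1] at e2
      exact mul_left_cancel (mul_right_cancel e2)
    rw [h1, ← Finset.sum_fiberwise_of_maps_to hmaps, Finset.mul_sum]
    refine Finset.sum_le_sum fun g hg => ?_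
    rw [Finset.sum_congr rfl fun q hq => show ‖χ (f q)‖ ^ 2 = ‖χ g‖ ^ 2 by
      rw [(Finset.mem_filter.1 hq).2], Finset.sum_const, nsmul_eq_mul]
    exact mul_le_mul_of_nonneg_right (by exact_mod_cast hfib g hg) (by positivity)
  have hG0 : (0 : ℝ) < Nat.card G := Nat.cast_pos.2 Nat.card_pos
  have hN0 : (0 : ℝ) < Nat.card Nn := Nat.cast_pos.2 Nat.card_pos
  have hH0 : (0 : ℝ) ≤ Nat.card H := Nat.cast_nonneg _
  have hZ0 : (0 : ℝ) < Zc.card := Nat.cast_pos.2 (Finset.card_pos.2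
    ⟨1, Finset.mem_filter.2 ⟨Finset.mem_univ _, Subgroup.one_mem _⟩⟩)
  have hd2 : (0 : ℝ) < (d : ℝ) ^ 2 := by positivity
  set X := ∑ x ∈ S₁, ‖χ (x : G)‖ ^ 2
  have h5 : (Nat.card H : ℝ) * Zc.card * ‖c‖ ^ 2 + Nat.card Nn ≤ X + Zc.card * (d : ℝ) ^ 2 := by
    rw [← hS, hsplit]; exact add_le_add hψS hξn
  have h6 : (Nat.card H : ℝ) * ‖c‖ ^ 2 < (d : ℝ) ^ 2 := by
    by_contra hle
    push Not at hle
    have h7 : (Nat.card Nn : ℝ) ≤ X := by nlinarith
    have h8 : (0 : ℝ) < Nat.card Nn * (Zc.card * (d : ℝ) ^ 2) := by positivity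
    have h9 : (Nat.card G : ℝ) * X ≤ Nat.card Nn * (Nat.card G - Zc.card * (d : ℝ) ^ 2) := by
      rw [← hT] at hdisj ⊢
      simpa using hdisj
    nlinarith
  rw [hd, Complex.natCast_re]
  refine lt_of_le_of_lt ?_ h6
  refine mul_le_mul_of_nonneg_left ?_ hH0
  rw [sq_le_sq, abs_norm]
  exact Complex.abs_re_le_norm c

/-- The second bound. -/
theorem abelian_degree_bound' (H : Subgroup G) [Fintype H]
    (hab : ∀ a ∈ H, ∀ b ∈ H, a * b = b * a) (hZ : H ⊓ Subgroup.center G = ⊥)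
    (hone : MeetsOne H) {χ : G → ℂ} (hχ : Cfsg.IsIrrCharacter G χ) (hχ1 : χ 1 ≠ 1)
    (hnorm : ∀ M : Subgroup G, M.Normal → H ≤ M → M = ⊤) :
    (1 + (χ 1).re) ^ 2 > (Nat.card H : ℝ) := by
  classical
  obtain ⟨d, hd0, hd⟩ := Char.irr_one_pos hχ
  have hd2 : 2 ≤ d := by
    by_contra hlt
    exact hχ1 (by rw [hd, show d = 1 by omega, Nat.cast_one])
  let β : G → ℂ := χ * fun g => conj (χ g)
  have hβ : Cfsg.IsCharacter G β := Char.isCharacter_mul (Char.isCharacter_of_irr hχ)
    (Char.isCharacter_conjFun (Char.isCharacter_of_irr hχ))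
  obtain ⟨m, hm, hm'⟩ := Char.isCharacter_exists_coeff hβ
  choose c hc using fun ψ : Cfsg.IrrCharacter G => Char.isCharacter_classInner_nat
    (CharInd.isCharacter_res H (Char.isCharacter_of_irr ψ.2)) (Char.trivialIrr H)
  choose δ hδ0 hδ using fun ψ : Cfsg.IrrCharacter G => Char.irr_one_pos ψ.2
  set one : Cfsg.IrrCharacter G := Char.trivialIrr G
  have hm1 : m one = 1 := by
    have h1 := hm' one
    have h2 : Cfsg.classInner β (one : G → ℂ) = Cfsg.classInner χ χ := by
      unfold Cfsg.classInner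
      congr 1
      refine Finset.sum_congr rfl fun g _ => ?_
      show χ g * conj (χ g) * conj (1 : ℂ) = _
      rw [map_one, mul_one]
    rw [h2, Char.classInner_irr_self hχ] at h1
    exact_mod_cast h1.symm
  have hc1 : c one = 1 := by
    have h1 := hc one
    change Cfsg.classInner (fun _ : H => (1 : ℂ)) (fun _ : H => (1 : ℂ)) = (c one : ℂ) at h1
    rw [Char.classInner_irr_self Char.isIrrCharacter_const_one] at h1
    exact_mod_cast h1.symm
  have hδ1 : δ one = 1 := by
    have h1 := hδ one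
    change (1 : ℂ) = (δ one : ℂ) at h1
    exact_mod_cast h1.symm
  have hstrict : ∀ ψ : Cfsg.IrrCharacter G, ψ ≠ one →
      (c ψ : ℝ) * Real.sqrt (Nat.card H) < δ ψ := by
    intro ψ hψ
    have hk : ∃ h ∈ H, (ψ : G → ℂ) h ≠ (ψ : G → ℂ) 1 := by
      by_contra hall
      push Not at hall
      obtain ⟨K, hK, hKmem⟩ := Char.isCharacter_exists_kernel (Char.isCharacter_of_irr ψ.2)
      have htop := hnorm K hK fun h hh => (hKmem h).2 (hall h hh)
      have hconst : ∀ g, (ψ : G → ℂ) g = (ψ : G → ℂ) 1 := fun g =>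
        (hKmem g).1 (htop ▸ Subgroup.mem_top g)
      apply hψ
      apply Subtype.ext
      by_contra hne
      have h1 := Char.classInner_irr_ne ψ.2 one.2 hne
      rw [show (one : G → ℂ) = fun _ => 1 from rfl] at h1
      simp only [Cfsg.classInner, hconst, map_one, mul_one, Finset.sum_const, Finset.card_univ,
        nsmul_eq_mul, ← Nat.card_eq_fintype_card] at h1
      rw [inv_mul_cancel_left₀ (Nat.cast_ne_zero.2 Nat.card_pos.ne')] at h1
      exact Char.irr_one_ne_zero ψ.2 h1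
    have h1 := abelian_degree_bound H hab hZ hone ψ.2 hk
    rw [show Cfsg.classInner (fun h : H => (ψ : G → ℂ) h) (fun _ => 1) = (c ψ : ℂ) from hc ψ, hδ,
      Complex.natCast_re, Complex.natCast_re] at h1
    have hs := Real.sq_sqrt (Nat.cast_nonneg (Nat.card H) : (0 : ℝ) ≤ _)
    refine lt_of_pow_lt_pow_left₀ 2 (Nat.cast_nonneg _) ?_
    rw [mul_pow, hs]
    linarith
  -- the restriction of `β` to `H`
  have hcβ : d ≤ ∑ ψ, m ψ * c ψ := by
    have hres := CharInd.isCharacter_res H (Char.isCharacter_of_irr hχ)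
    obtain ⟨k, hk, hk'⟩ := Char.isCharacter_exists_coeff hres
    have hsum : ∑ l : Cfsg.IrrCharacter H, k l = d := by
      have h1 := congrFun hk 1
      simp only [OneMemClass.coe_one, hd, Finset.sum_apply, nsmul_eq_mul, Pi.mul_apply,
        Pi.natCast_apply] at h1
      rw [Finset.sum_congr rfl fun (l : Cfsg.IrrCharacter H) _ =>
        show (k l : ℂ) * (l : H → ℂ) 1 = (k l : ℂ) by
          rw [Char.irr_degree_one_of_comm (fun a b : H => Subtype.ext (hab a a.2 b b.2)) l.2,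
            mul_one]] at h1
      exact_mod_cast h1.symm
    have h2 : ((∑ ψ, m ψ * c ψ : ℕ) : ℂ) = ((∑ l : Cfsg.IrrCharacter H, k l * k l : ℕ) : ℂ) := by
      have hL : Cfsg.classInner (fun h : H => β h) (fun _ => 1) = ((∑ ψ, m ψ * c ψ : ℕ) : ℂ) := by
        rw [show (fun h : H => β h) = ∑ ψ, (m ψ : ℂ) • fun h : H => (ψ : G → ℂ) h by
          funext h; rw [hm]; simp [Finset.sum_apply],
          Char.classInner_sum_left]
        push_cast
        refine Finset.sum_congr rfl fun ψ _ => ?_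
        rw [Char.classInner_smul_left]
        exact congrArg _ (hc ψ)
      have hR : Cfsg.classInner (fun h : H => β h) (fun _ => 1) =
          ((∑ l : Cfsg.IrrCharacter H, k l * k l : ℕ) : ℂ) := by
        have h3 : Cfsg.classInner (fun h : H => β h) (fun _ => 1) =
            Cfsg.classInner (fun h : H => χ h) (fun h : H => χ h) := by
          unfold Cfsg.classInner
          congr 1
          refine Finset.sum_congr rfl fun h _ => ?_
          show χ h * conj (χ h) * conj (1 : ℂ) = _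
          rw [map_one, mul_one]
        rw [h3]
        conv_lhs => arg 1; rw [hk]
        rw [Char.classInner_sum_left]
        push_cast
        refine Finset.sum_congr rfl fun l _ => ?_
        rw [← Nat.cast_smul_eq_nsmul ℂ, Char.classInner_smul_left, ← CharInd.classInner_swap, hk',
          Complex.conj_natCast]
      rw [← hL, hR]
    rw [(Nat.cast_injective h2), ← hsum]
    exact Finset.sum_le_sum fun l _ => Nat.le_mul_self _
  have hdegβ : ∑ ψ, m ψ * δ ψ = d * d := by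
    have h1 := congrFun hm 1
    simp only [β, Pi.mul_apply, hd, Complex.conj_natCast, Finset.sum_apply,
      Pi.natCast_apply, nsmul_eq_mul, hδ] at h1
    exact_mod_cast h1.symm
  rw [← Finset.add_sum_erase _ _ (Finset.mem_univ one), hm1, hc1, one_mul] at hcβ
  rw [← Finset.add_sum_erase _ _ (Finset.mem_univ one), hm1, hδ1, one_mul] at hdegβ
  obtain ⟨ψ₀, hψ₀mem, hψ₀⟩ :
      ∃ ψ₀ ∈ Finset.univ.erase one, m ψ₀ * c ψ₀ ≠ 0 :=
    Finset.exists_ne_zero_of_sum_ne_zero (by omega)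
  have hlt : (∑ ψ ∈ Finset.univ.erase one, (m ψ : ℝ) * c ψ) * Real.sqrt (Nat.card H) <
      ∑ ψ ∈ Finset.univ.erase one, (m ψ : ℝ) * δ ψ := by
    rw [Finset.sum_mul]
    refine Finset.sum_lt_sum (fun ψ hψ => ?_) ⟨ψ₀, hψ₀mem, ?_⟩
    · rw [mul_assoc]
      exact mul_le_mul_of_nonneg_left (hstrict ψ (Finset.ne_of_mem_erase hψ)).le (Nat.cast_nonneg _)
    · rw [mul_assoc]
      exact mul_lt_mul_of_pos_left (hstrict ψ₀ (Finset.ne_of_mem_erase hψ₀mem))
        (Nat.cast_pos.2 (Nat.pos_of_ne_zero fun h => hψ₀ (by rw [h, zero_mul])))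
  have hcR : (d : ℝ) - 1 ≤ ∑ ψ ∈ Finset.univ.erase one, (m ψ : ℝ) * c ψ := by
    have : (d : ℝ) ≤ ((1 + ∑ ψ ∈ Finset.univ.erase one, m ψ * c ψ : ℕ) : ℝ) := by
      exact_mod_cast hcβ
    push_cast at this
    linarith
  have hdR : ∑ ψ ∈ Finset.univ.erase one, (m ψ : ℝ) * δ ψ = (d : ℝ) * d - 1 := by
    have : (((1 + ∑ ψ ∈ Finset.univ.erase one, m ψ * δ ψ) : ℕ) : ℝ) = ((d * d : ℕ) : ℝ) := by
      exact_mod_cast hdegβ
    push_cast at this
    linarith
  rw [hd, Complex.natCast_re]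
  have hd2' : (2 : ℝ) ≤ d := by exact_mod_cast hd2
  have hs0 := Real.sqrt_nonneg (Nat.card H : ℝ)
  have hs := Real.sq_sqrt (Nat.cast_nonneg (Nat.card H) : (0 : ℝ) ≤ _)
  have h9 : ((d : ℝ) - 1) * Real.sqrt (Nat.card H) < ((d : ℝ) - 1) * ((d : ℝ) + 1) := by
    nlinarith [mul_le_mul_of_nonneg_right hcR hs0]
  have h10 : Real.sqrt (Nat.card H) < (d : ℝ) + 1 := lt_of_mul_lt_mul_left h9 (by linarith)
  nlinarith

end Cfsg.Agent.CharDeep
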