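import Mathlib
import Cfsg.Agent.Lib.MinimalNormal
import Cfsg.Agent.Modules.Fixed

/-!
# A chief factor over the core of a maximal subgroup, and a subgroup of coprime order acting on it
-/

set_option autoImplicit false
set_option linter.style.haveILetI false

noncomputable section

namespace Cfsg.Agent.CharDeep

variable {Q : Type*} [Group Q]

/-- A subgroup of a core-free subgroup normalized by it and by a complement-like normal subgroup
is trivial. -/
theorem eq_bot_of_normalizer_sup {H M U : Subgroup Q} (hcore : H.normalCore = ⊥) (hUH : U ≤ H)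
    (hMH : M ⊔ H = ⊤) (hM : M ≤ Subgroup.normalizer (U : Set Q))
    (hH : H ≤ Subgroup.normalizer (U : Set Q)) : U = ⊥ := by
  haveI : U.Normal := Subgroup.normalizer_eq_top_iff.1 (top_le_iff.1 (hMH ▸ sup_le hM hH))
  exact le_bot_iff.1 (hcore ▸ Subgroup.normal_le_normalCore.2 hUH)

theorem le_normalizer_of_conj {H U : Subgroup Q}
    (h : ∀ a ∈ H, ∀ u ∈ U, a * u * a⁻¹ ∈ U) : H ≤ Subgroup.normalizer (U : Set Q) := by
  intro a ha
  rw [Subgroup.mem_normalizer_iff]
  refine fun u => ⟨fun hu => h a ha u hu, fun hu => ?_⟩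
  simpa [mul_assoc] using h a⁻¹ (H.inv_mem ha) _ hu

theorem exists_quot_pair [Finite Q] [Group.IsSolvable Q] (H : Subgroup Q) (hmax : IsCoatom H)
    (hcore : H.normalCore = ⊥) (hH : H ≠ ⊥) :
    ∃ (p : ℕ) (M U : Subgroup Q), p.Prime ∧ M.Normal ∧ M ⊓ H = ⊥ ∧ M ⊔ H = ⊤ ∧ M ≠ ⊥ ∧
      IsPGroup p M ∧ U ≤ H ∧ U ≠ ⊥ ∧ (∀ a ∈ H, ∀ u ∈ U, a * u * a⁻¹ ∈ U) ∧
      (Nat.card U).Coprime p := by
  classical
  haveI : Nontrivial H := (Subgroup.nontrivial_iff_ne_bot H).2 hH
  haveI : Nontrivial Q := Subtype.coe_injective.nontrivial (α := H)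
  obtain ⟨M, hMn, hM0, hMmin, hMc, p, hp, -, hMp⟩ :=
    MinNormal.exists_elementary_abelian (G := Q)
  haveI := hMn
  haveI := Fact.mk hp
  have hMH' : ¬ M ≤ H := fun h => hM0 (le_bot_iff.1 (hcore ▸ Subgroup.normal_le_normalCore.2 h))
  have hsup : M ⊔ H = ⊤ :=
    hmax.2 _ (lt_of_le_of_ne le_sup_right fun h => hMH' (le_sup_left.trans h.ge))
  have hcomm : ∀ a ∈ M, ∀ b ∈ M, a * b = b * a := fun a ha b hb =>
    congrArg Subtype.val (hMc.is_comm.comm (⟨a, ha⟩ : M) ⟨b, hb⟩)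
  have hinf : M ⊓ H = ⊥ := by
    refine eq_bot_of_normalizer_sup hcore inf_le_right hsup (le_normalizer_of_conj ?_)
      (le_normalizer_of_conj ?_)
    · intro a ha u hu
      rw [hcomm a ha u hu.1, mul_inv_cancel_right]
      exact hu
    · exact fun a ha u hu => ⟨hMn.conj_mem u hu.1 a, H.mul_mem (H.mul_mem ha hu.2) (H.inv_mem ha)⟩
  obtain ⟨U₀, hU₀n, hU₀0, -, -, q, hq, -, hU₀q⟩ :=
    MinNormal.exists_elementary_abelian (G := H)
  haveI := Fact.mk hq
  have hUH : U₀.map H.subtype ≤ H := Subgroup.map_subtype_le U₀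
  have hU0 : U₀.map H.subtype ≠ ⊥ := fun h =>
    hU₀0 ((Subgroup.map_eq_bot_iff_of_injective _ H.subtype_injective).1 h)
  have hUn : ∀ a ∈ H, ∀ u ∈ U₀.map H.subtype, a * u * a⁻¹ ∈ U₀.map H.subtype := by
    rintro a ha _ ⟨v, hv, rfl⟩
    exact ⟨⟨a, ha⟩ * v * ⟨a, ha⟩⁻¹, hU₀n.conj_mem v hv ⟨a, ha⟩, rfl⟩
  refine ⟨p, M, U₀.map H.subtype, hp, hMn, hinf, hsup, hM0, hMp, hUH, hU0, hUn, ?_⟩
  have hUq : IsPGroup q (U₀.map H.subtype) := hU₀q.map H.subtype
  obtain ⟨k, hk⟩ := IsPGroup.iff_card.1 hUq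
  rw [hk]
  refine Nat.Coprime.pow_left k ((Nat.coprime_primes hq hp).2 ?_)
  rintro rfl
  set U := U₀.map H.subtype with hU
  have hZ := Modules.inf_centralizer_ne_bot_of_isPGroup (A := U) hMp hM0
    (Subgroup.normalizer_eq_top_iff.2 hMn ▸ le_top) (fun a ha => by
      obtain ⟨j, hj⟩ := hUq ⟨a, ha⟩
      exact ⟨j, by
        have : a ^ q ^ j = 1 := congrArg Subtype.val hj
        rw [this]; exact Subgroup.one_mem _⟩)
  set Z := M ⊓ Subgroup.centralizer (U : Set Q)
  haveI : Z.Normal := by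
    refine Subgroup.normalizer_eq_top_iff.1 (top_le_iff.1 (hsup ▸ sup_le (le_normalizer_of_conj ?_)
      (le_normalizer_of_conj ?_)))
    · intro a ha u hu
      rw [hcomm a ha u hu.1, mul_inv_cancel_right]
      exact hu
    · intro a ha z hz
      refine ⟨hMn.conj_mem z hz.1 a, Subgroup.mem_centralizer_iff.2 fun u hu => ?_⟩
      have h1 : a⁻¹ * u * a ∈ U := by simpa using hUn a⁻¹ (H.inv_mem ha) u hu
      have h2 := Subgroup.mem_centralizer_iff.1 hz.2 _ h1
      calc u * (a * z * a⁻¹) = a * ((a⁻¹ * u * a) * z) * a⁻¹ := by group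
        _ = a * z * a⁻¹ * u := by rw [h2]; group
  have hZM : Z = M := (hMmin Z ‹_› inf_le_left).resolve_left hZ
  refine hU0 (eq_bot_of_normalizer_sup hcore hUH hsup (le_normalizer_of_conj ?_)
    (le_normalizer_of_conj hUn))
  intro a ha u hu
  have h3 : a ∈ Subgroup.centralizer (U : Set Q) := (hZM ▸ ha : a ∈ Z).2
  rw [← Subgroup.mem_centralizer_iff.1 h3 u hu, mul_inv_cancel_right]
  exact hu

/-- The same, pulled back along the quotient by the core. -/
theorem exists_chief_pair {G : Type*} [Group G] [Finite G] (L H : Subgroup G) [L.Normal]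
    (hLH : L ≤ H) (hmax : IsCoatom H) (hcore : H.normalCore ≤ L)
    (hsolv : Group.IsSolvable (G ⧸ L)) (hH : ¬ H.Normal) :
    ∃ (p : ℕ) (M U : Subgroup G) (k : ℕ), p.Prime ∧ M.Normal ∧ L ≤ M ∧ M ⊓ H = L ∧ M ⊔ H = ⊤ ∧
      L.relIndex M = p ^ k ∧ 0 < k ∧ L ≤ U ∧ U ≤ H ∧
      (∀ a ∈ H, ∀ u ∈ U, a * u * a⁻¹ ∈ U) ∧ ¬ M ≤ Subgroup.normalizer (U : Set G) ∧
      (L.relIndex U).Coprime p := by
  classical
  let π := QuotientGroup.mk' L
  have hπ : Function.Surjective π := QuotientGroup.mk'_surjective L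
  have hcm : (H.map π).comap π = H := by
    rw [Subgroup.comap_map_eq_self]; rwa [QuotientGroup.ker_mk']
  have hmax' : IsCoatom (H.map π) := by
    refine ⟨fun h => hmax.1 (by rw [← hcm, h, Subgroup.comap_top]), fun K hK => ?_⟩
    have h1 := hmax.2 (K.comap π) (by
      rw [← hcm]
      exact (Subgroup.comap_lt_comap_of_surjective hπ).2 hK)
    rw [← Subgroup.map_comap_eq_self_of_surjective hπ K, h1,
      Subgroup.map_top_of_surjective π hπ]
  have hcore' : (H.map π).normalCore = ⊥ := by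
    rw [eq_bot_iff]
    intro x hx
    obtain ⟨g, rfl⟩ := hπ x
    have hle : ((H.map π).normalCore).comap π ≤ H.normalCore := by
      refine Subgroup.normal_le_normalCore.2 ?_
      exact (Subgroup.comap_mono (Subgroup.normalCore_le _)).trans hcm.le
    rw [Subgroup.mem_bot]
    exact (QuotientGroup.eq_one_iff g).2 (hcore (hle hx))
  have hne : H.map π ≠ ⊥ := by
    intro h
    apply hH
    rw [← hcm, h]
    infer_instance
  haveI := hsolv
  obtain ⟨p, M, U, hp, hMn, hinf, hsup, hM0, hMp, hUH, hU0, hUn, hcop⟩ :=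
    exists_quot_pair (H.map π) hmax' hcore' hne
  haveI := Fact.mk hp
  obtain ⟨k, hk⟩ := IsPGroup.iff_card.1 hMp
  have hrel : ∀ W : Subgroup (G ⧸ L), L.relIndex (W.comap π) = Nat.card W := by
    intro W
    have h : ((⊥ : Subgroup (G ⧸ L)).comap π).relIndex (W.comap π) =
        (⊥ : Subgroup (G ⧸ L)).relIndex W := by
      rw [Subgroup.relIndex_comap, Subgroup.map_comap_eq_self_of_surjective hπ]
    rw [Subgroup.relIndex_bot_left, MonoidHom.comap_bot, QuotientGroup.ker_mk'] at h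
    exact h
  have hLle : ∀ W : Subgroup (G ⧸ L), L ≤ W.comap π := fun W => by
    conv_lhs => rw [← QuotientGroup.ker_mk' L, ← MonoidHom.comap_bot]
    exact Subgroup.comap_mono bot_le
  refine ⟨p, M.comap π, U.comap π, k, hp, hMn.comap π, hLle M, ?_, ?_, by rw [hrel, hk], ?_,
    hLle U, ?_, ?_, ?_, by rw [hrel]; exact hcop⟩
  · refine le_antisymm ?_ (le_inf (hLle M) hLH)
    conv_lhs => rw [← hcm, ← Subgroup.comap_inf, hinf, MonoidHom.comap_bot, QuotientGroup.ker_mk']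
  · conv_lhs => rw [← hcm, Subgroup.comap_sup_eq π _ _ hπ, hsup, Subgroup.comap_top]
  · rcases Nat.eq_zero_or_pos k with h | h
    · rw [h, pow_zero] at hk
      exact absurd (Subgroup.card_eq_one.1 hk) hM0
    · exact h
  · exact (Subgroup.comap_mono hUH).trans hcm.le
  · intro a ha u hu
    rw [Subgroup.mem_comap] at hu ⊢
    rw [map_mul, map_mul, map_inv]
    exact hUn _ (Subgroup.mem_map_of_mem π ha) _ hu
  · intro h
    apply hU0
    refine eq_bot_of_normalizer_sup hcore' hUH hsup ?_ (le_normalizer_of_conj hUn)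
    refine le_normalizer_of_conj fun a ha u hu => ?_
    obtain ⟨a, rfl⟩ := hπ a
    obtain ⟨u, rfl⟩ := hπ u
    have h1 := (Subgroup.mem_normalizer_iff.1 (h ha) u).1 hu
    rw [Subgroup.mem_comap, map_mul, map_mul, map_inv] at h1
    exact h1

end Cfsg.Agent.CharDeep
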