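import Mathlib
import Cfsg.Agent.CharDeep.Mult
import Cfsg.Agent.CharDeep.Cover
import Cfsg.Agent.CharDeep.ChiefPair
import Cfsg.Agent.CharExt.Inertia
import Cfsg.Agent.Char.Linear
import Cfsg.Agent.S0854

/-!
# Quasi-primitive characters of solvable groups are primitive (Berger)
-/

set_option autoImplicit false
set_option linter.style.haveILetI false

noncomputable section

namespace Cfsg.Agent.CharDeep

open scoped ComplexConjugate

universe u

/-- `indFun` from a proper normal subgroup never gives a homogeneous restriction. -/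
theorem not_homog_of_normal {G : Type u} [Group G] [Fintype G] (H : Subgroup G) [H.Normal]
    [Fintype H] (hH : H ≠ ⊤) {ψ : H → ℂ} (hψ : Cfsg.IsIrrCharacter H ψ)
    (hind : Cfsg.IsIrrCharacter G (Cfsg.indFun H ψ)) {φ : H → ℂ} {e : ℕ}
    (hφ : Cfsg.IsIrrCharacter H φ) :
    (fun h : H => Cfsg.indFun H ψ h) ≠ (e : ℂ) • φ := by
  classical
  intro he
  have hcl := Char.irr_isClassFunction hind
  have h1 : Cfsg.classInner (fun h : H => Cfsg.indFun H ψ h) ψ = 1 := by
    rw [← CharInd.classInner_swap, ← CharInd.classInner_indFun_left H ψ hcl,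
      Char.classInner_irr_self hind, map_one]
  have h2 : ∀ x : G, CharInd.conjChar H x ψ = φ := by
    intro x
    have h3 := CharInd.classInner_res_conjChar H hcl x ψ
    rw [h1, he, Char.classInner_smul_left] at h3
    by_contra hne
    rw [Char.classInner_irr_ne hφ (CharInd.conjChar_irr H x hψ) (Ne.symm hne), mul_zero] at h3
    exact zero_ne_one h3
  have hψφ : ψ = φ := by rw [← CharInd.conjChar_one H ψ, h2]
  have h4 := CharInd.card_mul_classInner_indFun_normal H ψ ψ
  rw [Char.classInner_irr_self hind, mul_one] at h4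
  simp only [h2] at h4
  rw [hψφ] at h4
  simp only [Char.classInner_irr_self hφ, Finset.sum_const, Finset.card_univ,
    nsmul_eq_mul, mul_one, ← Nat.card_eq_fintype_card] at h4
  exact hH (Subgroup.eq_top_of_card_eq H (by exact_mod_cast h4))

/-- Primitivity in degrees below `d`. -/
def BergerBelow (d : ℕ) : Prop :=
  ∀ (E : ℕ), E < d → ∀ (X : Type u) [Group X] [Fintype X] [Group.IsSolvable X] (β : X → ℂ),
    Cfsg.IsIrrCharacter X β → β 1 = E → QuasiPrim β → ∀ H : Subgroup X, H ≠ ⊤ →
      ∀ ψ : H → ℂ, Cfsg.IsCharacter H ψ → Cfsg.indFun H ψ ≠ β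

variable {G : Type u} [Group G] [Fintype G] [Group.IsSolvable G]

/-- A homogeneous constituent of the core is linear. -/
theorem berger_linear {d : ℕ} (ih : BergerBelow.{u} d) {χ : G → ℂ}
    (hχ : Cfsg.IsIrrCharacter G χ) (hd : χ 1 = d) (hqp : QuasiPrim χ) (H L : Subgroup G)
    [L.Normal] (hLH : L ≤ H) (hH : H ≠ ⊤) {ψ : H → ℂ} (hψ : Cfsg.IsIrrCharacter H ψ)
    (hind : Cfsg.indFun H ψ = χ) {θ : L → ℂ} (hθ : Cfsg.IsIrrCharacter L θ)
    (hinv : ∀ (g : G) (n : L), θ (CharExt.cj L g n) = θ n) {a : ℕ} (ha : a ≠ 0)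
    (hres : ∀ l : L, ψ ⟨l, hLH l.2⟩ = (a : ℂ) * θ l) : θ 1 = 1 := by
  classical
  obtain ⟨X, _, _, f, L', δ, hf, hL'n, hmap, hker, hinj, hδ, hδL, hval⟩ :=
    exists_cover L hθ hinv
  haveI := hL'n
  haveI := isSolvable_of_central_ker f hker
  haveI : Fintype L' := Fintype.ofFinite _
  let H' := H.comap f
  haveI : Fintype H' := Fintype.ofFinite _
  have hmem : ∀ x : L', f x ∈ L := fun x => hmap ▸ Subgroup.mem_map_of_mem f x.2
  have hL'H : L' ≤ H' := fun x hx => hLH (hmem ⟨x, hx⟩)
  let ψ' : H' → ℂ := fun h => ψ ⟨f h, h.2⟩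
  have hψ' : Cfsg.IsIrrCharacter H' ψ' :=
    CharInd.irr_comp_surjective (f.subgroupComap H)
      (MonoidHom.subgroupComap_surjective_of_surjective f H hf) hψ
  have hδH := irr_res_of_le (Char.isCharacter_of_irr hδ) L' H' hL'H hδL
  let L'' : Subgroup H' := L'.subgroupOf H'
  haveI : L''.Normal := Subgroup.normal_subgroupOf
  haveI : Fintype L'' := Fintype.ofFinite _
  have hδL'' : Cfsg.IsIrrCharacter L'' (fun r : L'' => δ ((r : H') : X)) :=
    CharInd.irr_comp_surjective (Subgroup.subgroupOfEquivOfLe hL'H).toMonoidHom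
      (Subgroup.subgroupOfEquivOfLe hL'H).surjective hδL
  have hc : (fun r : L'' => ψ' r) = (a : ℂ) • (fun r : L'' => δ ((r : H') : X)) := by
    funext r
    rw [Pi.smul_apply, smul_eq_mul, hval ⟨((r : H') : X), r.2⟩ (hmem ⟨_, r.2⟩)]
    exact hres ⟨_, hmem ⟨_, r.2⟩⟩
  obtain ⟨β₁, hβ₁, hconst, hfac⟩ := exists_factor L'' hδH hδL'' hψ' (by
    rw [hc, Char.classInner_smul_left, Char.classInner_irr_self hδL'', mul_one]
    exact Nat.cast_ne_zero.2 ha)
  let β := Cfsg.indFun H' β₁
  have hβc : ∀ (r : L') g, β ((r : X) * g) = β g := fun r g =>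
    indFun_mul_of_const H' L' hL'H (θ := β₁) (fun s hs h => hconst ⟨⟨s, hL'H hs⟩, hs⟩ h) r.2 g
  have hχ' : (fun x => χ (f x)) = β * δ := by
    rw [← CharInd.indFun_mul_res H' β₁ (Char.irr_isClassFunction hδ)]
    funext x
    rw [← hind, ← indFun_comap f hf H ψ x]
    refine congrFun (congrArg (Cfsg.indFun H') ?_) x
    exact hfac
  have hχ'irr : Cfsg.IsIrrCharacter X (fun x => χ (f x)) :=
    CharInd.irr_comp_surjective f hf hχ
  have hβ : Cfsg.IsIrrCharacter X β := by
    refine Char.isIrrCharacter_iff_classInner.2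
      ⟨CharInd.isCharacter_indFun H' (Char.isCharacter_of_irr hβ₁), ?_⟩
    rw [← CharExt.classInner_mul_mul L' δ hδ hδL β β hβc hβc, ← hχ']
    exact Char.classInner_irr_self hχ'irr
  have hqpβ : QuasiPrim β := quasiPrim_factor L' hβ hβc hδ hδL (hχ' ▸ quasiPrim_comap f hf hqp)
  obtain ⟨E, hE0, hE⟩ := Char.irr_one_pos hβ
  obtain ⟨t, ht0, ht⟩ := Char.irr_one_pos hθ
  have hδ1 : δ 1 = θ 1 := by
    exact (hval 1 (hmem 1)).trans (congrArg θ (Subtype.ext (map_one f)))
  have hdeq : d = E * t := by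
    have := congrFun hχ' 1
    simp only [map_one, hd, Pi.mul_apply, hE, hδ1, ht] at this
    exact_mod_cast this
  by_contra hne
  have ht2 : 2 ≤ t := by
    rcases Nat.lt_or_ge t 2 with h | h
    · exfalso
      apply hne
      rw [ht, show t = 1 by omega, Nat.cast_one]
    · exact h
  have hlt : E < d := by
    rw [hdeq]; exact lt_mul_of_one_lt_right hE0 ht2
  refine ih E hlt X β hβ hE hqpβ H' ?_ β₁ (Char.isCharacter_of_irr hβ₁) rfl
  intro h
  apply hH
  rw [← Subgroup.map_comap_eq_self_of_surjective hf H, show H.comap f = ⊤ from h,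
    Subgroup.map_top_of_surjective f hf]

/-- A character of a subgroup restricting irreducibly is the restriction of a constituent. -/
theorem exists_res_eq (T K : Subgroup G) [Fintype T] [Fintype K] (hTK : T ≤ K) (R : Subgroup G)
    (hsup : T.subgroupOf K ⊔ R.subgroupOf K = ⊤) {γ : G → ℂ} (hγ : Cfsg.IsIrrCharacter G γ)
    (hR : ∀ r ∈ R, γ r = γ 1) {μ : T → ℂ} (hμ : Cfsg.IsIrrCharacter T μ)
    (h0 : Cfsg.classInner (fun t : T => γ t) μ ≠ 0) :
    ∃ ν : K → ℂ, Cfsg.IsCharacter K ν ∧ (∀ t : T, ν ⟨t, hTK t.2⟩ = μ t) ∧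
      ∀ r : K, (r : G) ∈ R → ν r = ν 1 := by
  classical
  have hres := CharInd.isCharacter_res K (Char.isCharacter_of_irr hγ)
  obtain ⟨m, hm, hm'⟩ := Char.isCharacter_exists_coeff hres
  have hsplit : (fun t : T => γ t) =
      ∑ ξ : Cfsg.IrrCharacter K, (m ξ : ℂ) • fun t : T => (ξ : K → ℂ) ⟨t, hTK t.2⟩ := by
    funext t
    have := congrFun hm ⟨t, hTK t.2⟩
    simp only [Finset.sum_apply] at this
    rw [Finset.sum_apply]
    simpa using this
  rw [hsplit, Char.classInner_sum_left] at h0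
  obtain ⟨ξ, -, hξ⟩ := Finset.exists_ne_zero_of_sum_ne_zero h0
  rw [Char.classInner_smul_left, mul_ne_zero_iff, Nat.cast_ne_zero] at hξ
  have hk : ∀ r : K, (r : G) ∈ R → (ξ : K → ℂ) r = (ξ : K → ℂ) 1 := fun r hr => by
    refine eq_one_of_add_eq_one (Char.isCharacter_of_irr ξ.2)
      (Char.isCharacter_sub_constituent hres (Nat.pos_of_ne_zero hξ.1) (hm' ξ)) (g := r) ?_
    simp only [Pi.sub_apply, add_sub_cancel]
    simpa using hR r hr
  refine ⟨ξ, Char.isCharacter_of_irr ξ.2, fun t => ?_, hk⟩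
  have hirr := CharInd.irr_comp_surjective (Subgroup.subgroupOfEquivOfLe hTK).symm.toMonoidHom
    (MulEquiv.surjective _)
    (irr_res_of_sup ξ.2 (R.subgroupOf K) (T.subgroupOf K) (fun r hr => hk r hr) hsup)
  refine congrFun (?_ : (fun t : T => (ξ : K → ℂ) ⟨t, hTK t.2⟩) = μ) t
  by_contra hne
  exact hξ.2 (Char.classInner_irr_ne hirr hμ hne)

/-- The fully ramified situation is impossible. -/
theorem berger_ramified {d : ℕ} (ih : BergerBelow.{u} d) {χ : G → ℂ}
    (hχ : Cfsg.IsIrrCharacter G χ) (hd : χ 1 = d) (hqp : QuasiPrim χ) (H L : Subgroup G)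
    [hLn : L.Normal] (hLH : L ≤ H) (hmax : IsCoatom H) (hcore : H.normalCore ≤ L)
    (hHn : ¬ H.Normal) {ψ : H → ℂ} (hψ : Cfsg.IsIrrCharacter H ψ)
    (hind : Cfsg.indFun H ψ = χ) {θ : L → ℂ} (hθ : Cfsg.IsIrrCharacter L θ) (hθ1 : θ 1 = 1)
    {a : ℕ} (hres : ∀ l : L, ψ ⟨l, hLH l.2⟩ = (a : ℂ) * θ l) : False := by
  classical
  obtain ⟨p, M, U, k, hp, hMn, hLM, hMH, hsupMH, hk, hk0, hLU, hUH, hUn, hUnot, hcop⟩ :=
    exists_chief_pair L H hLH hmax hcore inferInstance hHn
  haveI := hMn
  haveI : Fintype M := Fintype.ofFinite _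
  haveI : Fintype H := Fintype.ofFinite _
  have hHM : ∀ x : G, ∃ m ∈ M, ∃ t ∈ H, x = m * t := fun x => by
    have hx : x ∈ M ⊔ H := hsupMH ▸ Subgroup.mem_top x
    obtain ⟨m, hm, t, ht, rfl⟩ := Subgroup.mem_sup_of_normal_left.1 hx
    exact ⟨m, hm, t, ht, rfl⟩
  -- the restriction to `M`
  obtain ⟨φ, E', hφ, hE'⟩ := hqp M hMn
  have hE'0 : (E' : ℂ) ≠ 0 := fun h0 => by
    have h1 := congrFun hE' 1
    rw [h0, zero_smul] at h1
    exact Char.irr_one_ne_zero hχ h1
  let L'' : Subgroup M := L.subgroupOf M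
  haveI : L''.Normal := Subgroup.normal_subgroupOf
  haveI : Fintype L'' := Fintype.ofFinite _
  let θ' : L'' → ℂ := fun x => θ ⟨((x : M) : G), x.2⟩
  have hθ' : Cfsg.IsIrrCharacter L'' θ' :=
    CharInd.irr_comp_surjective (Subgroup.subgroupOfEquivOfLe hLM).toMonoidHom
      (Subgroup.subgroupOfEquivOfLe hLM).surjective hθ
  have hθ'1 : θ' 1 = 1 := hθ1
  have hmack : (fun m : M => χ m) = (a : ℂ) • Cfsg.indFun L'' θ' := by
    rw [← hind, CharExt.indFun_res_of_mul_eq_top M H hHM (Char.irr_isClassFunction hψ),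
      ← CharInd.indFun_smul]
    refine CharExt.indFun_congr ?_ _ _ fun x hx hx' => hres ⟨(x : G), hx'⟩
    show _ = L.subgroupOf M
    rw [← hMH, Subgroup.inf_subgroupOf_left]
  obtain ⟨e, he0, he⟩ := Char.irr_one_pos hφ
  have hχ1 : χ 1 = (E' : ℂ) * e := by
    have := congrFun hE' 1
    simpa [he] using this
  have hψ1 : ψ 1 = (a : ℂ) := by
    have := hres 1
    rw [hθ1, mul_one] at this
    exact this
  have ha0 : (a : ℂ) ≠ 0 := hψ1 ▸ Char.irr_one_ne_zero hψ
  have hχL : ∀ l : L, χ l = χ 1 * θ l := by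
    intro l
    have h1 := congrFun hmack ⟨l, hLM l.2⟩
    have h2 := congrFun hmack 1
    simp only [Pi.smul_apply, smul_eq_mul, OneMemClass.coe_one] at h1 h2
    rw [h1, h2, CharInd.indFun_one_apply, hθ'1, mul_one]
    have h3 : Cfsg.indFun L'' θ' ⟨l, hLM l.2⟩ = (L''.index : ℂ) * θ l := by
      rw [show (⟨l, hLM l.2⟩ : M) = ((⟨⟨l, hLM l.2⟩, l.2⟩ : L'') : M) from rfl,
        CharInd.indFun_normal_mem]
      have hconj : ∀ x : M, ∀ h, θ' ⟨x * ((⟨⟨l, hLM l.2⟩, l.2⟩ : L'') : M) * x⁻¹, h⟩ = θ l := by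
        intro x h
        have h4 := Char.irr_isClassFunction hχ
        -- values of `θ` are invariant because `χ` restricted to `L` is a multiple of `θ`
        obtain ⟨ϑ, c, hϑ, hc⟩ := hqp L hLn
        have hθϑ : ϑ = θ := by
          by_contra hne
          have hz : Cfsg.classInner (fun n : L => χ n) θ = 0 := by
            rw [hc, Char.classInner_smul_left, Char.classInner_irr_ne hϑ hθ hne, mul_zero]
          have hpos : Cfsg.classInner (fun n : L => χ n) θ ≠ 0 := by
            have hH' := CharInd.isCharacter_res H (Char.isCharacter_of_irr hχ)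
            have hone : Cfsg.classInner (fun n : H => χ n) ψ = ((1 : ℕ) : ℂ) := by
              rw [Nat.cast_one, ← CharInd.classInner_swap,
                ← CharInd.classInner_indFun_left H ψ (Char.irr_isClassFunction hχ), hind,
                Char.classInner_irr_self hχ, map_one]
            have hR := Char.isCharacter_sub_constituent hH' (ψ := ⟨ψ, hψ⟩) Nat.one_pos hone
            obtain ⟨j, hj⟩ := Char.isCharacter_classInner_nat
              (Char.isCharacter_comp hR (Subgroup.inclusion hLH)) ⟨θ, hθ⟩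
            have hdec : (fun n : L => χ n) = (a : ℂ) • θ +
                (fun n : L => ((fun n : H => χ n) - ψ) (Subgroup.inclusion hLH n)) := by
              funext n
              simp only [Pi.add_apply, Pi.smul_apply, Pi.sub_apply, smul_eq_mul]
              rw [← hres n]
              exact (add_sub_cancel (ψ ⟨n, hLH n.2⟩) (χ n)).symm
            have hj' : Cfsg.classInner
                (fun n : L => ((fun n : H => χ n) - ψ) (Subgroup.inclusion hLH n)) θ = (j : ℂ) := hj
            rw [hdec, Char.classInner_add_left, Char.classInner_smul_left,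
              Char.classInner_irr_self hθ, mul_one, hj']
            intro h0
            have : a + j = 0 := by exact_mod_cast h0
            exact ha0 (by rw [show a = 0 by omega, Nat.cast_zero])
          exact hpos hz
        subst hθϑ
        have h5 := congrFun hc ⟨_, h⟩
        have h6 := congrFun hc l
        simp only [Pi.smul_apply, smul_eq_mul] at h5 h6
        refine mul_left_cancel₀ (show (c : ℂ) ≠ 0 from ?_) ?_
        · intro h0
          have h7 := congrFun hc 1
          rw [h0, zero_smul] at h7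
          exact Char.irr_one_ne_zero hχ h7
        · rw [← h6]
          refine h5.symm.trans ?_
          simpa using h4 l (x : G)
      simp only [hconj, Finset.sum_const, Finset.card_univ, nsmul_eq_mul,
        ← Nat.card_eq_fintype_card]
      rw [← L''.card_mul_index, Nat.cast_mul, ← mul_assoc, ← mul_assoc,
        inv_mul_cancel₀ (Nat.cast_ne_zero.2 Nat.card_pos.ne'), one_mul]
    rw [h3]; ring
  have hφL : ∀ x : L'', φ x = (e : ℂ) * θ' x := by
    intro x
    refine mul_left_cancel₀ hE'0 ?_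
    have h1 := congrFun hE' (x : M)
    simp only [Pi.smul_apply, smul_eq_mul] at h1
    rw [← h1, ← mul_assoc, ← hχ1]
    exact hχL ⟨_, x.2⟩
  have hindθ : Cfsg.indFun L'' θ' = (e : ℂ) • φ := by
    have h1 : Cfsg.indFun L'' θ' = ((E' : ℂ) / a) • φ := by
      rw [div_eq_inv_mul, mul_smul, ← hE', hmack, inv_smul_smul₀ ha0]
    have h2 : Cfsg.classInner (Cfsg.indFun L'' θ') φ = (e : ℂ) := by
      rw [CharInd.classInner_indFun_left L'' θ' (Char.irr_isClassFunction hφ),
        show (fun x : L'' => φ x) = (e : ℂ) • θ' from funext hφL,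
        Char.classInner_smul_right, Char.classInner_irr_self hθ', mul_one, Complex.conj_natCast]
    rw [h1, Char.classInner_smul_left, Char.classInner_irr_self hφ, mul_one] at h2
    rw [h1, h2]
  have he2 : e * e = p ^ k := by
    have h1 := congrFun hindθ 1
    rw [CharInd.indFun_one_apply, hθ'1, mul_one, Pi.smul_apply, smul_eq_mul, he,
      show L''.index = p ^ k from hk] at h1
    exact_mod_cast h1.symm
  have he1 : 1 < e := by
    by_contra hle
    have hle' : e ≤ 1 := Nat.not_lt.1 hle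
    have : e * e ≤ 1 := by nlinarith
    have h2 := Nat.one_lt_pow hk0.ne' hp.one_lt
    omega
  have hvan : ∀ m : M, (m : G) ∉ L → φ m = 0 := by
    intro m hm
    have h1 := congrFun hindθ m
    rw [CharInd.indFun_normal_notMem L'' θ' (g := m) (fun h => hm h), Pi.smul_apply, smul_eq_mul]
      at h1
    exact (mul_eq_zero.1 h1.symm).resolve_left (Nat.cast_ne_zero.2 he0.ne')
  have hφinv : ∀ (g : G) (n : M), φ (CharExt.cj M g n) = φ n := by
    intro g n
    refine mul_left_cancel₀ hE'0 ?_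
    have h1 := congrFun hE' (CharExt.cj M g n)
    have h2 := congrFun hE' n
    simp only [Pi.smul_apply, smul_eq_mul] at h1 h2
    rw [← h1, ← h2]
    exact Char.irr_isClassFunction hχ n g
  -- pass to a cover
  obtain ⟨X, _, _, f, M', δ, hf, hM'n, hmap, hker, hinj, hδ, hδM, hval⟩ :=
    exists_cover M hφ hφinv
  haveI := hM'n
  haveI := isSolvable_of_central_ker f hker
  haveI : Fintype M' := Fintype.ofFinite _
  have hmemM : ∀ x : M', f x ∈ M := fun x => hmap ▸ Subgroup.mem_map_of_mem f x.2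
  have hδ1 : δ 1 = (e : ℂ) := by
    rw [← he]
    exact (hval 1 (hmemM 1)).trans (congrArg φ (Subtype.ext (map_one f)))
  have hχ'irr : Cfsg.IsIrrCharacter X (fun x => χ (f x)) :=
    CharInd.irr_comp_surjective f hf hχ
  have hχ'M : (fun r : M' => χ (f r)) = (E' : ℂ) • fun r : M' => δ r := by
    funext r
    rw [Pi.smul_apply, smul_eq_mul, hval r (hmemM r)]
    exact congrFun hE' ⟨_, hmemM r⟩
  obtain ⟨γ, hγ, hγc, hfac⟩ := exists_factor M' hδ hδM hχ'irr (by
    rw [hχ'M, Char.classInner_smul_left, Char.classInner_irr_self hδM, mul_one]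
    exact hE'0)
  have hγM : ∀ r ∈ M', γ r = γ 1 := fun r hr => by simpa using hγc ⟨r, hr⟩ 1
  have hqpγ : QuasiPrim γ :=
    quasiPrim_factor M' hγ hγc hδ hδM (hfac ▸ quasiPrim_comap f hf hqp)
  obtain ⟨E, hE0, hE⟩ := Char.irr_one_pos hγ
  have hγ1 : γ 1 * (e : ℂ) = χ 1 := by
    have h1 := congrFun hfac 1
    simp only [map_one, Pi.mul_apply, hδ1] at h1
    exact h1.symm
  have hdE : d = E * e := by
    rw [hE, hd] at hγ1
    exact_mod_cast hγ1.symm
  let H' := H.comap f
  haveI : Fintype H' := Fintype.ofFinite _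
  let ψ' : H' → ℂ := fun h => ψ ⟨f h, h.2⟩
  have hψ' : Cfsg.IsIrrCharacter H' ψ' :=
    CharInd.irr_comp_surjective (f.subgroupComap H)
      (MonoidHom.subgroupComap_surjective_of_surjective f H hf) hψ
  have hsup' : H' ⊔ M' = ⊤ := by
    refine top_le_iff.1 fun x _ => ?_
    obtain ⟨m, hm, t, ht, hxe⟩ := hHM (f x)
    rw [← hmap] at hm
    obtain ⟨m', hm', rfl⟩ := hm
    have : m'⁻¹ * x ∈ H' := by
      rw [Subgroup.mem_comap, map_mul, map_inv, hxe, inv_mul_cancel_left]
      exact ht
    have h2 := mul_mem (Subgroup.mem_sup_right (S := H') hm') (Subgroup.mem_sup_left (T := M') this)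
    rwa [mul_inv_cancel_left] at h2
  have hγH : Cfsg.IsIrrCharacter H' (fun h : H' => γ h) := irr_res_of_sup hγ M' H' hγM hsup'
  have hδH'c : Cfsg.IsCharacter H' (fun h : H' => δ h) :=
    CharInd.isCharacter_res H' (Char.isCharacter_of_irr hδ)
  have hψ'1 : ψ' 1 = (a : ℂ) := by
    rw [← hψ1]
    exact congrArg ψ (Subtype.ext (map_one f))
  have hA : (fun h : H' => conj (δ h) * ψ' h) = fun h : H' => γ h := by
    refine eq_of_inner_of_degree
      (Char.isCharacter_mul (Char.isCharacter_conjFun hδH'c) (Char.isCharacter_of_irr hψ')) hγH ?_ ?_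
    · have h1 : Cfsg.classInner (fun h : H' => conj (δ h) * ψ' h) (fun h : H' => γ h) =
          Cfsg.classInner ψ' (fun h : H' => χ (f h)) := by
        unfold Cfsg.classInner
        congr 1
        refine Finset.sum_congr rfl fun h _ => ?_
        show conj (δ h) * ψ' h * conj (γ h) = ψ' h * conj (χ (f h))
        rw [show χ (f h) = γ h * δ h from congrFun hfac h, map_mul]
        ring
      rw [h1, ← CharInd.classInner_indFun_left H' ψ' (Char.irr_isClassFunction hχ'irr),
        show Cfsg.indFun H' ψ' = fun x => χ (f x) from funext fun x => by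
          rw [← hind]; exact indFun_comap f hf H ψ x, Char.classInner_irr_self hχ'irr]
      exact one_ne_zero
    · have hee : (e : ℂ) ≠ 0 := Nat.cast_ne_zero.2 he0.ne'
      have hχ1' : χ 1 = (a : ℂ) * e * e := by
        have h1 := congrFun hmack 1
        rw [Pi.smul_apply, hindθ, Pi.smul_apply, he] at h1
        simpa [mul_assoc] using h1
      show conj (δ ((1 : H') : X)) * ψ' 1 = γ ((1 : H') : X)
      rw [OneMemClass.coe_one, hδ1, Complex.conj_natCast, hψ'1]
      refine mul_right_cancel₀ hee ?_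
      rw [hγ1, hχ1']; ring
  have hδH : Cfsg.IsIrrCharacter H' (fun h : H' => δ h) := by
    have h1 : Cfsg.IsIrrCharacter H' (fun h : H' => conj (δ h)) :=
      irr_of_mul_irr (Char.isCharacter_conjFun hδH'c) (Char.isCharacter_of_irr hψ')
        (by rw [show (fun h : H' => conj (δ h)) * ψ' = fun h : H' => γ h from hA]; exact hγH)
    simpa using Char.isIrrCharacter_conjFun h1
  let U'' : Subgroup H' := (U.comap f).subgroupOf H'
  haveI : U''.Normal := ⟨fun x hx g => by
    show f ((g : X) * (x : X) * (g : X)⁻¹) ∈ U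
    rw [map_mul, map_mul, map_inv]
    exact hUn _ g.2 _ hx⟩
  haveI : Fintype U'' := Fintype.ofFinite _
  have hresU : Cfsg.IsCharacter U'' (fun u : U'' => δ ((u : H') : X)) :=
    CharInd.isCharacter_res U'' hδH'c
  obtain ⟨π, n, hn, hn'⟩ := Char.exists_irr_constituent hresU (fun h0 => by
    have h1 := congrFun h0 1
    simp only [OneMemClass.coe_one, hδ1, Pi.zero_apply, Nat.cast_eq_zero] at h1
    omega)
  have hcon : Cfsg.classInner (fun u : U'' => δ ((u : H') : X)) (π : U'' → ℂ) ≠ 0 := by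
    rw [hn']; exact_mod_cast hn.ne'
  let T : Subgroup H' := CharExt.inertia U'' (π : U'' → ℂ)
  have hUT : U'' ≤ T := CharExt.le_inertia U'' (Char.irr_isClassFunction π.2)
  haveI : Fintype T := Fintype.ofFinite _
  by_cases hT : T = ⊤
  · -- `δ` restricted to `U` is homogeneous, hence scalar
    obtain ⟨c, hc0, -, hc, -⟩ := CharExt.clifford_data U'' hδH π.2 hcon
    rw [CharExt.conjClass_eq_singleton U'' hT, Finset.sum_singleton] at hc
    obtain ⟨r, hr0, hr⟩ := Char.irr_one_pos π.2
    have hec : e = c * r := by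
      have h1 := congrFun hc 1
      simp only [OneMemClass.coe_one, Pi.smul_apply, smul_eq_mul, hr, hδ1] at h1
      exact_mod_cast h1
    have hscal : ∀ z : X, f z ∈ L → ‖δ z‖ = e := by
      intro z hz
      obtain ⟨m, hm, hfm⟩ : f z ∈ M'.map f := hmap.symm ▸ hLM hz
      have hk1 : f (z * m⁻¹) = 1 := by rw [map_mul, map_inv, hfm, mul_inv_cancel]
      obtain ⟨ω, hω, -, hω'⟩ := Char.irr_mul_center hδ
        (Subgroup.mem_center_iff.2 fun y => (hker _ hk1 y).symm)
      have h1 := hω' m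
      rw [inv_mul_cancel_right] at h1
      have h2 : δ m = (e : ℂ) * θ ⟨f z, hz⟩ := by
        rw [hval ⟨m, hm⟩ (hmemM _)]
        refine Eq.trans ?_ (hφL ⟨⟨f z, hLM hz⟩, hz⟩)
        exact congrArg φ (Subtype.ext hfm)
      obtain ⟨l, hl⟩ := Char.exists_monoidHom_of_degree_one (Char.isCharacter_of_irr hθ) hθ1
      have hl1 : ‖θ ⟨f z, hz⟩‖ = 1 := by
        rw [hl]
        refine Complex.norm_eq_one_of_pow_eq_one (n := Nat.card L) ?_ Nat.card_pos.ne'
        rw [← Units.val_pow_eq_pow_val, ← map_pow, pow_card_eq_one', map_one, Units.val_one]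
      rw [h1, h2, norm_mul, norm_mul, hl1,
        Complex.norm_eq_one_of_pow_eq_one hω (orderOf_pos _).ne']
      simp
    obtain ⟨l, σ, hσ, hσπ⟩ := π.2
    have hl : l = r := by
      have h1 := congrFun hσπ 1
      rw [σ.char_one, hr, Module.finrank_fintype_fun_eq_card, Fintype.card_fin] at h1
      exact_mod_cast h1
    have hfin : Module.finrank ℂ (Fin l → ℂ) = r := by simp [hl]
    let Z : Subgroup U'' := ((L.comap f).subgroupOf H').subgroupOf U''
    have hdvd : r ∣ Z.index := by
      haveI := hσ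
      rw [← hfin]
      refine finrank_dvd_index_of_scalar σ Z fun z => ?_
      refine (Char.norm_character_eq_iff σ _).1 ?_
      rw [hfin, hσπ]
      have h1 := congrFun hc (z : U'')
      simp only [Pi.smul_apply, smul_eq_mul] at h1
      have h2 := hscal (((z : U'') : H') : X) z.2
      rw [h1, norm_mul, RCLike.norm_natCast, hec, Nat.cast_mul] at h2
      exact mul_left_cancel₀ (Nat.cast_ne_zero.2 hc0.ne') h2
    have hZ : Z.index = L.relIndex U := by
      have h1 : Z.index = (L.comap f).relIndex (U.comap f) := by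
        show ((L.comap f).subgroupOf H').relIndex U'' = _
        exact Subgroup.relIndex_subgroupOf (Subgroup.comap_mono hUH)
      rw [h1, Subgroup.relIndex_comap, Subgroup.map_comap_eq_self_of_surjective hf]
    have hr1 : r = 1 := by
      have h1 : r ∣ p ^ k := he2 ▸ (hec ▸ dvd_mul_left r c).trans (dvd_mul_right e e)
      exact Nat.eq_one_of_dvd_coprimes (Nat.Coprime.pow_right k (hZ ▸ hcop)) hdvd h1
    obtain ⟨πh, hπh⟩ := Char.exists_monoidHom_of_degree_one (Char.isCharacter_of_irr π.2)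
      (by rw [hr, hr1, Nat.cast_one])
    have hnorm : ∀ u : X, f u ∈ U → ‖δ u‖ = (δ 1).re := by
      intro u hu
      have hu' : u ∈ H' := hUH hu
      have h1 := congrFun hc ⟨⟨u, hu'⟩, hu⟩
      simp only [Pi.smul_apply, smul_eq_mul] at h1
      have hone : ‖(π : U'' → ℂ) ⟨⟨u, hu'⟩, hu⟩‖ = 1 := by
        rw [hπh]
        refine Complex.norm_eq_one_of_pow_eq_one (n := Nat.card U'') ?_ Nat.card_pos.ne'
        rw [← Units.val_pow_eq_pow_val, ← map_pow, pow_card_eq_one', map_one, Units.val_one]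
      rw [h1, norm_mul, hone, mul_one, hδ1, RCLike.norm_natCast, Complex.natCast_re, hec, hr1,
        mul_one]
    apply hUnot
    refine le_normalizer_of_conj fun m hm u hu => ?_
    rw [← hmap] at hm
    obtain ⟨m, hm', rfl⟩ := hm
    obtain ⟨u, rfl⟩ := hf u
    obtain ⟨ω, hω1, hω⟩ := Char.isCharacter_mul_of_norm_eq (Char.isCharacter_of_irr hδ) (hnorm u hu)
    have hcomm : δ (u * m * u⁻¹ * m⁻¹) = δ 1 := by
      rw [show u * m * u⁻¹ * m⁻¹ = u * (m * u⁻¹ * m⁻¹) by group, (hω _).1,
        Char.irr_isClassFunction hδ u⁻¹ m, ← (hω _).1, mul_inv_cancel]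
    have hcM : u * m * u⁻¹ * m⁻¹ ∈ M' := M'.mul_mem (hM'n.conj_mem m hm' u) (M'.inv_mem hm')
    have hcL : f (u * m * u⁻¹ * m⁻¹) ∈ L := by
      by_contra hnot
      have h1 := hvan ⟨_, hmemM ⟨_, hcM⟩⟩ hnot
      rw [← hval ⟨_, hcM⟩ (hmemM ⟨_, hcM⟩)] at h1
      simp only at h1
      rw [hcomm, hδ1, Nat.cast_eq_zero] at h1
      omega
    have h2 : f m * f u * (f m)⁻¹ = (f (u * m * u⁻¹ * m⁻¹))⁻¹ * f u := by
      simp only [map_mul, map_inv]; group
    rw [h2]
    exact U.mul_mem (U.inv_mem (hLU hcL)) hu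
  · -- `δ` restricted to `H'` is induced, hence so is `γ`
    obtain ⟨μ, hμ, hμind, -⟩ := Cfsg.Agent.S0854.result U'' (π : U'' → ℂ) π.2 T
      (fun g => CharExt.mem_inertia.trans funext_iff) hUT (fun h : H' => δ h) hδH hcon
    let μ' : T → ℂ := fun t => conj (μ t) * ψ' t
    have hμ'c : Cfsg.IsCharacter T μ' :=
      Char.isCharacter_mul (Char.isCharacter_conjFun (Char.isCharacter_of_irr hμ))
        (CharInd.isCharacter_res T (Char.isCharacter_of_irr hψ'))
    have hindμ : Cfsg.indFun T μ' = fun h : H' => γ h := by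
      rw [← hA]
      refine (CharInd.indFun_mul_res T (fun t => conj (μ t)) (Char.irr_isClassFunction hψ')).trans ?_
      rw [← CharInd.indFun_conj T μ, hμind]
      rfl
    have hμ' : Cfsg.IsIrrCharacter T μ' := CharExt.isIrr_of_indFun_irr T hμ'c (hindμ ▸ hγH)
    let T₀ : Subgroup X := T.map H'.subtype
    let K : Subgroup X := T₀ ⊔ M'
    haveI : Fintype T₀ := Fintype.ofFinite _
    haveI : Fintype K := Fintype.ofFinite _
    let ι : T →* T₀ := H'.subtype.subgroupMap T
    have hι : Function.Bijective ι :=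
      ⟨fun x y h => Subtype.ext (Subtype.ext (congrArg Subtype.val h :)),
        H'.subtype.subgroupMap_surjective T⟩
    let ιe := MulEquiv.ofBijective ι hι
    have hμ₀ : Cfsg.IsIrrCharacter T₀ (fun t => μ' (ιe.symm t)) :=
      CharInd.irr_comp_surjective ιe.symm.toMonoidHom ιe.symm.surjective hμ'
    have h0 : Cfsg.classInner (fun t : T₀ => γ t) (fun t => μ' (ιe.symm t)) ≠ 0 := by
      have h1 : Cfsg.classInner (fun t : T₀ => γ t) (fun t => μ' (ιe.symm t)) =
          Cfsg.classInner (fun t : T => γ ((t : H') : X)) μ' := by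
        unfold Cfsg.classInner
        rw [Nat.card_congr ιe.symm.toEquiv]
        congr 1
        refine Fintype.sum_equiv ιe.symm.toEquiv _ _ fun t => ?_
        have e1 : ((ι (ιe.symm t) : T₀) : X) = t :=
          congrArg Subtype.val (ιe.apply_symm_apply t)
        show γ (t : X) * conj (μ' (ιe.symm t)) =
          γ (((ιe.symm t : T) : H') : X) * conj (μ' (ιe.symm t))
        rw [show (((ιe.symm t : T) : H') : X) = t from e1]
      rw [h1]
      have h2 : Cfsg.classInner μ' (fun t : T => γ ((t : H') : X)) = 1 := by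
        rw [← CharInd.classInner_indFun_left T μ' (Char.irr_isClassFunction hγH), hindμ,
          Char.classInner_irr_self hγH]
      rw [← Char.classInner_conj, h2, map_one]
      exact one_ne_zero
    obtain ⟨ν, hνc, hν, hνM⟩ := exists_res_eq T₀ K le_sup_left M'
      (by rw [← Subgroup.subgroupOf_sup le_sup_left le_sup_right, Subgroup.subgroupOf_self])
      hγ hγM hμ₀ h0
    have hKH : K.subgroupOf H' = T := by
      refine le_antisymm (fun x hx => ?_) fun x hx =>
        Subgroup.mem_sup_left (Subgroup.mem_map_of_mem H'.subtype hx)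
      obtain ⟨t, ht, m, hm, hxe⟩ := Subgroup.mem_sup_of_normal_right.1 (Subgroup.mem_subgroupOf.1 hx)
      obtain ⟨t', ht', rfl⟩ := ht
      have hmH : m ∈ H' := by
        have : m = ((t'⁻¹ * x : H') : X) := by simp [← hxe]
        rw [this]; exact SetLike.coe_mem _
      have hmU : (⟨m, hmH⟩ : H') ∈ U'' :=
        hLU (hMH ▸ Subgroup.mem_inf.2 ⟨hmemM ⟨m, hm⟩, hmH⟩ : f m ∈ L)
      have he : x = t' * ⟨m, hmH⟩ := Subtype.ext hxe.symm
      rw [he]
      exact T.mul_mem ht' (hUT hmU)
    have hKtop : K ≠ ⊤ := fun h => hT (by rw [← hKH, h, Subgroup.top_subgroupOf])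
    have hprod : ∀ x : X, ∃ h ∈ H', ∃ t ∈ K, x = h * t := fun x => by
      obtain ⟨h, hh, m, hm, rfl⟩ := Subgroup.mem_sup_of_normal_right.1
        (hsup' ▸ Subgroup.mem_top x : x ∈ H' ⊔ M')
      exact ⟨h, hh, m, Subgroup.mem_sup_right hm, rfl⟩
    refine ih E ?_ X γ hγ hE hqpγ K hKtop ν hνc ?_
    · rw [hdE]; exact lt_mul_of_one_lt_right hE0 he1
    have hresH : (fun h : H' => Cfsg.indFun K ν h) = fun h : H' => γ h := by
      rw [CharExt.indFun_res_of_mul_eq_top H' K hprod (Char.isCharacter_isClassFunction hνc),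
        ← hindμ]
      refine CharExt.indFun_congr hKH _ _ fun x hx hx' => ?_
      refine (hν ⟨(x : X), Subgroup.mem_map_of_mem H'.subtype hx'⟩).trans ?_
      refine congrArg μ' ?_
      exact ιe.symm_apply_apply ⟨x, hx'⟩
    funext x
    obtain ⟨m, hm, h, hh, rfl⟩ := Subgroup.mem_sup_of_normal_left.1
      ((sup_comm H' M' ▸ hsup') ▸ Subgroup.mem_top x : x ∈ M' ⊔ H')
    rw [indFun_mul_of_const K M' le_sup_right (θ := ν) (fun r hr y =>
      (Char.isCharacter_mul_of_mem_ker hνc (hνM ⟨r, Subgroup.mem_sup_right hr⟩ hr) y).1) hm,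
      hγc ⟨m, hm⟩]
    exact congrFun hresH ⟨h, hh⟩

/-- Berger's theorem, by induction on the degree. -/
theorem berger_all (d : ℕ) : BergerBelow.{u} d := by
  induction d with
  | zero => exact fun E hE => absurd hE (Nat.not_lt_zero _)
  | succ d ih =>
    intro E hE X _ _ _ β hβ hE1 hqp H₀ hH₀ ψ₀ hψ₀ hind₀
    rcases Nat.lt_or_ge E d with hlt | hge
    · exact ih E hlt X β hβ hE1 hqp H₀ hH₀ ψ₀ hψ₀ hind₀
    obtain rfl : E = d := by omega
    classical
    obtain ⟨H, hmax, hle⟩ := (eq_top_or_exists_le_coatom H₀).resolve_left hH₀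
    haveI : Fintype H := Fintype.ofFinite _
    haveI : Fintype H₀ := Fintype.ofFinite _
    haveI : Fintype (H₀.subgroupOf H) := Fintype.ofFinite _
    let ψ : H → ℂ := Cfsg.indFun (H₀.subgroupOf H)
      (fun x : H₀.subgroupOf H => ψ₀ ⟨((x : H) : X), x.2⟩)
    have hψc : Cfsg.IsCharacter H ψ := CharInd.isCharacter_indFun _
      (Char.isCharacter_comp hψ₀ (Subgroup.subgroupOfEquivOfLe hle).toMonoidHom)
    have hind : Cfsg.indFun H ψ = β := (CharInd.indFun_indFun H₀ H hle ψ₀).trans hind₀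
    have hψ : Cfsg.IsIrrCharacter H ψ := CharExt.isIrr_of_indFun_irr H hψc (hind ▸ hβ)
    by_cases hHn : H.Normal
    · obtain ⟨φ, c, hφ, hc⟩ := hqp H hHn
      exact not_homog_of_normal H hmax.1 hψ (hind ▸ hβ) hφ (by rw [hind]; exact hc)
    let L := H.normalCore
    have hLH : L ≤ H := Subgroup.normalCore_le H
    haveI : Fintype L := Fintype.ofFinite _
    haveI : L.Normal := Subgroup.normalCore_normal H
    obtain ⟨θ, c, hθ, hc⟩ := hqp L inferInstance
    have hc0 : (c : ℂ) ≠ 0 := fun h0 => by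
      have h1 := congrFun hc 1
      rw [h0, zero_smul] at h1
      exact Char.irr_one_ne_zero hβ h1
    have hinv : ∀ (g : X) (n : L), θ (CharExt.cj L g n) = θ n := by
      intro g n
      refine mul_left_cancel₀ hc0 ?_
      have h1 := congrFun hc (CharExt.cj L g n)
      have h2 := congrFun hc n
      simp only [Pi.smul_apply, smul_eq_mul] at h1 h2
      rw [← h1, ← h2]
      exact Char.irr_isClassFunction hβ n g
    -- the restriction of `ψ` is a multiple of `θ`
    have hψL : Cfsg.IsCharacter L (fun l : L => ψ (Subgroup.inclusion hLH l)) :=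
      Char.isCharacter_comp hψc (Subgroup.inclusion hLH)
    have hone : Cfsg.classInner (fun n : H => β n) ψ = ((1 : ℕ) : ℂ) := by
      rw [Nat.cast_one, ← CharInd.classInner_swap,
        ← CharInd.classInner_indFun_left H ψ (Char.irr_isClassFunction hβ), hind,
        Char.classInner_irr_self hβ, map_one]
    have hR := Char.isCharacter_comp
      (Char.isCharacter_sub_constituent (CharInd.isCharacter_res H (Char.isCharacter_of_irr hβ))
        (ψ := ⟨ψ, hψ⟩) Nat.one_pos hone) (Subgroup.inclusion hLH)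
    obtain ⟨m, hm, hm'⟩ := Char.isCharacter_exists_coeff hψL
    have hzero : ∀ ξ : Cfsg.IrrCharacter L, (ξ : L → ℂ) ≠ θ → m ξ = 0 := by
      intro ξ hξ
      obtain ⟨j, hj⟩ := Char.isCharacter_classInner_nat hR ξ
      have h1 : Cfsg.classInner (fun n : L => β n) (ξ : L → ℂ) = ((m ξ + j : ℕ) : ℂ) := by
        rw [Nat.cast_add, ← hm', ← hj, ← Char.classInner_add_left]
        congr 1
        funext n
        simp
      rw [hc, Char.classInner_smul_left, Char.classInner_irr_ne hθ ξ.2 (Ne.symm hξ), mul_zero] at h1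
      have : m ξ + j = 0 := by exact_mod_cast h1.symm
      omega
    have hres : ∀ l : L, ψ ⟨l, hLH l.2⟩ = (m ⟨θ, hθ⟩ : ℂ) * θ l := by
      intro l
      have h1 := congrFun hm l
      rw [Finset.sum_apply, Finset.sum_eq_single (⟨θ, hθ⟩ : Cfsg.IrrCharacter L)] at h1
      · simp only [Pi.smul_apply, nsmul_eq_mul] at h1
        exact h1
      · intro ξ _ hne
        rw [hzero ξ (fun h => hne (Subtype.ext h))]
        simp
      · exact fun h => absurd (Finset.mem_univ _) h
    have hm0 : m ⟨θ, hθ⟩ ≠ 0 := by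
      intro h0
      have h1 := hres 1
      rw [h0, Nat.cast_zero, zero_mul] at h1
      exact Char.irr_one_ne_zero hψ h1
    have hθ1 := berger_linear ih hβ hE1 hqp H L hLH hmax.1 hψ hind hθ hinv hm0 hres
    exact berger_ramified ih hβ hE1 hqp H L hLH hmax le_rfl hHn hψ hind hθ hθ1 hres

end Cfsg.Agent.CharDeep
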