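import Mathlib
import Cfsg.Agent.CharDeep.BrauerInduction
import Cfsg.Agent.CharInd.Clifford

/-!
# Dade's detection of multiplicities prime to `p` on a `p`-elementary supplement
-/

set_option autoImplicit false
set_option linter.style.haveILetI false

noncomputable section

namespace Cfsg.Agent.CharDeep

open scoped ComplexConjugate

universe u

variable {G : Type u} [Group G] [Fintype G]

theorem card_sup_mul_card_inf (E N : Subgroup G) [N.Normal] :
    Nat.card ↥(E ⊔ N) * Nat.card ↥(E ⊓ N) = Nat.card E * Nat.card N := by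
  have h1 := Subgroup.card_mul_index (N.subgroupOf (E ⊔ N))
  have h2 := Subgroup.card_mul_index (N.subgroupOf E)
  have e1 : Nat.card (N.subgroupOf (E ⊔ N)) = Nat.card N :=
    Nat.card_congr (Subgroup.subgroupOfEquivOfLe le_sup_right).toEquiv
  have e2 : Nat.card (N.subgroupOf E) = Nat.card ↥(E ⊓ N) := by
    rw [inf_comm, ← Subgroup.card_map_of_injective E.subtype_injective,
      Subgroup.subgroupOf_map_subtype]
  rw [e1] at h1
  rw [e2] at h2
  change Nat.card N * N.relIndex (E ⊔ N) = _ at h1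
  change _ * N.relIndex E = _ at h2
  rw [Subgroup.relIndex_sup_right] at h1
  rw [← h1, ← h2]
  ring

/-- The contribution of one induced character to the norm of an invariant character. -/
theorem classInner_indFun_mul_res (N : Subgroup G) [hN : N.Normal] [Fintype N] {θ : N → ℂ}
    (hinv : ∀ (g : G) (n : N) (h : g * n * g⁻¹ ∈ N), θ ⟨g * n * g⁻¹, h⟩ = θ n)
    (E : Subgroup G) [Fintype ↥(E ⊓ N)] {μ : E → ℂ} :
    Cfsg.classInner (fun n : N => Cfsg.indFun E μ n * θ n) θ =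
      ((E ⊔ N).index : ℂ) * Cfsg.classInner
        (fun x : ↥(E ⊓ N) => μ ⟨x, x.2.1⟩ * θ ⟨x, x.2.2⟩) (fun x => θ ⟨x, x.2.2⟩) := by
  classical
  haveI : Fintype E := Fintype.ofFinite E
  let F : G → ℂ := fun g => if h : g ∈ N then
    Cfsg.extendByZero E μ g * θ ⟨g, h⟩ * conj (θ ⟨g, h⟩) else 0
  set A := ∑ n : N, F n
  have hx : ∀ x : G, ∑ n : N, Cfsg.extendByZero E μ (x⁻¹ * n * x) * θ n * conj (θ n) = A := by
    intro x
    refine Fintype.sum_equiv (MulAut.conjNormal x⁻¹ : MulAut N).toEquiv _ _ fun n => ?_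
    have e : (((MulAut.conjNormal x⁻¹ : MulAut N) n : N) : G) = x⁻¹ * n * x := by
      rw [MulAut.conjNormal_apply, inv_inv]
    have hm : x⁻¹ * (n : G) * x ∈ N := by rw [← e]; exact SetLike.coe_mem _
    show _ = F (((MulAut.conjNormal x⁻¹ : MulAut N) n : N) : G)
    rw [e]
    simp only [F, dif_pos hm]
    have h2 : θ ⟨x⁻¹ * n * x, hm⟩ = θ n := by
      have := hinv x⁻¹ n (by rwa [inv_inv])
      simpa [inv_inv] using this
    rw [h2]
  have hA : A = ∑ y : ↥(E ⊓ N), μ ⟨y, y.2.1⟩ * θ ⟨y, y.2.2⟩ * conj (θ ⟨y, y.2.2⟩) := by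
    have h0 : ∀ n : N, (n : G) ∉ E → F n = 0 := fun n hn => by
      simp only [F, dif_pos n.2, CharInd.extendByZero_notMem E μ hn, zero_mul]
    show ∑ n : N, F n = _
    rw [← Finset.sum_subset (Finset.subset_univ (Finset.univ.filter fun n : N => (n : G) ∈ E))
      (fun n _ hn => h0 n fun h => hn (Finset.mem_filter.2 ⟨Finset.mem_univ _, h⟩))]
    refine Finset.sum_bij (fun (n : N) hn => (⟨n, (Finset.mem_filter.1 hn).2, n.2⟩ : ↥(E ⊓ N)))
      (fun _ _ => Finset.mem_univ _) (fun a _ b _ e => Subtype.ext (congrArg Subtype.val e :))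
      (fun y _ => ⟨⟨y, y.2.2⟩, Finset.mem_filter.2 ⟨Finset.mem_univ _, y.2.1⟩, rfl⟩) ?_
    intro n hn
    simp only [F, dif_pos n.2, CharInd.extendByZero_mem E μ (Finset.mem_filter.1 hn).2]
  have hE : (Nat.card E : ℂ) ≠ 0 := Nat.cast_ne_zero.2 Nat.card_pos.ne'
  have hNn : (Nat.card N : ℂ) ≠ 0 := Nat.cast_ne_zero.2 Nat.card_pos.ne'
  have hDn : (Nat.card ↥(E ⊓ N) : ℂ) ≠ 0 := Nat.cast_ne_zero.2 Nat.card_pos.ne'
  have hL : (Nat.card N : ℂ) * Cfsg.classInner (fun n : N => Cfsg.indFun E μ n * θ n) θ =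
      (Nat.card E : ℂ)⁻¹ * ((Nat.card G : ℂ) * A) := by
    rw [CharInd.classInner_congr_card]
    simp only [CharInd.indFun_apply, mul_assoc, ← Finset.mul_sum]
    congr 1
    simp only [Finset.sum_mul]
    rw [Finset.sum_comm, Nat.card_eq_fintype_card, ← Finset.card_univ, ← nsmul_eq_mul,
      ← Finset.sum_const]
    refine Finset.sum_congr rfl fun x _ => ?_
    simpa [mul_assoc] using hx x
  have hR : (Nat.card ↥(E ⊓ N) : ℂ) * Cfsg.classInner
      (fun x : ↥(E ⊓ N) => μ ⟨x, x.2.1⟩ * θ ⟨x, x.2.2⟩) (fun x => θ ⟨x, x.2.2⟩) = A := by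
    rw [CharInd.classInner_congr_card, hA]
  set L := Cfsg.classInner (fun n : N => Cfsg.indFun E μ n * θ n) θ
  set R := Cfsg.classInner (fun x : ↥(E ⊓ N) => μ ⟨x, x.2.1⟩ * θ ⟨x, x.2.2⟩)
    (fun x => θ ⟨x, x.2.2⟩)
  have hcard : (Nat.card G : ℂ) * Nat.card ↥(E ⊓ N) =
      ((E ⊔ N).index : ℂ) * (Nat.card E * Nat.card N) := by
    have := card_sup_mul_card_inf E N
    have h2 := (E ⊔ N).card_mul_index
    norm_cast
    rw [← this, ← h2]; ring
  apply mul_left_cancel₀ (mul_ne_zero hE hNn)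
  rw [mul_assoc, hL, ← mul_assoc (Nat.card E : ℂ), mul_inv_cancel₀ hE, one_mul, ← hR]
  linear_combination R * hcard

/-- Dade: some `p`-elementary supplement carries an invariant constituent of multiplicity prime
to `p`. -/
theorem dade_detection {p : ℕ} (hp : p.Prime) (N : Subgroup G) [hN : N.Normal] {k : ℕ}
    (hind : N.index = p ^ k) {θ : N → ℂ} (hθ : Cfsg.IsIrrCharacter N θ)
    (hinv : ∀ (g : G) (n : N) (h : g * n * g⁻¹ ∈ N), θ ⟨g * n * g⁻¹, h⟩ = θ n) :
    ∃ (E : Subgroup G) (φ : Cfsg.IrrCharacter ↥(E ⊓ N)) (m : ℕ),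
      Cfsg.IsElementary p E ∧ E ⊔ N = ⊤ ∧
      (∀ (g : G), g ∈ E → ∀ (x : ↥(E ⊓ N)) (h : g * x * g⁻¹ ∈ E ⊓ N),
        (φ : ↥(E ⊓ N) → ℂ) ⟨g * x * g⁻¹, h⟩ = (φ : ↥(E ⊓ N) → ℂ) x) ∧
      ¬ p ∣ m ∧
      ∀ [Fintype ↥(E ⊓ N)], Cfsg.classInner (fun x : ↥(E ⊓ N) => θ ⟨x, x.2.2⟩)
        (φ : ↥(E ⊓ N) → ℂ) = (m : ℂ) := by
  classical
  haveI := Fact.mk hp
  haveI : Fintype N := Fintype.ofFinite N
  obtain ⟨z, hz, hmem⟩ := brauer_local (G := G) hp
  obtain ⟨l, hl, hlsum⟩ := elemComb_repr hmem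
  let S : ((E : Subgroup G) × ((E → ℂ) × ℤ)) → ℂ := fun t =>
    letI : Fintype ↥(t.1 ⊓ N) := Fintype.ofFinite _
    Cfsg.classInner (fun x : ↥(t.1 ⊓ N) => t.2.1 ⟨x, x.2.1⟩ * θ ⟨x, x.2.2⟩)
      (fun x => θ ⟨x, x.2.2⟩)
  have hsum : (z : ℂ) = (l.map fun t => (t.2.2 : ℂ) * (((t.1 ⊔ N).index : ℂ) * S t)).sum := by
    have h1 : Cfsg.classInner (fun n : N => (z : ℂ) * θ n) θ = (z : ℂ) := by
      rw [show (fun n : N => (z : ℂ) * θ n) = (z : ℂ) • θ from rfl, Char.classInner_smul_left,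
        Char.classInner_irr_self hθ, mul_one]
    rw [← h1]
    rw [show (fun n : N => (z : ℂ) * θ n) = fun n : N =>
      ((l.map fun t => (t.2.2 : ℂ) • Cfsg.indFun t.1 t.2.1).sum) (n : G) * θ n from
      funext fun n => congrArg (· * θ n) (congrFun hlsum (n : G))]
    clear hlsum h1 hl
    induction l with
    | nil =>
      simp only [List.map_nil, List.sum_nil, Pi.zero_apply, zero_mul]
      exact Char.classInner_zero_left _
    | cons t l ih =>
      simp only [List.map_cons, List.sum_cons]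
      rw [show (fun n : N => ((t.2.2 : ℂ) • Cfsg.indFun t.1 t.2.1 +
          (l.map fun t => (t.2.2 : ℂ) • Cfsg.indFun t.1 t.2.1).sum) (n : G) * θ n) =
        (t.2.2 : ℂ) • (fun n : N => Cfsg.indFun t.1 t.2.1 n * θ n) + fun n : N =>
          ((l.map fun t => (t.2.2 : ℂ) • Cfsg.indFun t.1 t.2.1).sum) (n : G) * θ n from
        funext fun n => by simp only [Pi.add_apply, Pi.smul_apply, smul_eq_mul]; ring,
        Char.classInner_add_left, ih, Char.classInner_smul_left]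
      letI : Fintype ↥(t.1 ⊓ N) := Fintype.ofFinite _
      rw [classInner_indFun_mul_res N hinv t.1]
  have hnat : ∀ t ∈ l, ∃ s : ℕ, S t = (s : ℂ) := by
    intro t ht
    letI : Fintype ↥(t.1 ⊓ N) := Fintype.ofFinite _
    let j : ↥(t.1 ⊓ N) →* N := Subgroup.inclusion inf_le_right
    let i : ↥(t.1 ⊓ N) →* t.1 := Subgroup.inclusion inf_le_left
    have hA : Cfsg.IsCharacter _ (fun x => θ (j x)) :=
      Char.isCharacter_comp (Char.isCharacter_of_irr hθ) j
    have hB : Cfsg.IsCharacter _ (fun x => t.2.1 (i x) * θ (j x)) :=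
      Char.isCharacter_mul (Char.isCharacter_comp (hl t ht).2 i) hA
    obtain ⟨a, ha, ha'⟩ := Char.isCharacter_exists_coeff hA
    choose b hb using fun ψ => Char.isCharacter_classInner_nat hB ψ
    refine ⟨∑ ψ, a ψ * b ψ, ?_⟩
    show Cfsg.classInner (fun x => t.2.1 (i x) * θ (j x)) (fun x => θ (j x)) = _
    conv_lhs => arg 2; rw [ha]
    rw [Char.classInner_sum_right]
    push_cast
    refine Finset.sum_congr rfl fun ψ _ => ?_
    rw [← Nat.cast_smul_eq_nsmul ℂ, Char.classInner_smul_right, hb, Complex.conj_natCast]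
  obtain ⟨t, htl, s, hs, hdvd⟩ : ∃ t ∈ l, ∃ s : ℕ, S t = (s : ℂ) ∧
      ¬ (p : ℤ) ∣ t.2.2 * ((t.1 ⊔ N).index * s : ℕ) := by
    by_contra hcon
    push Not at hcon
    apply hz
    have hgen : ∀ l' : List ((E : Subgroup G) × ((E → ℂ) × ℤ)), (∀ t ∈ l', t ∈ l) →
        ∃ y : ℤ, (p : ℤ) ∣ y ∧
          (l'.map fun t => (t.2.2 : ℂ) * (((t.1 ⊔ N).index : ℂ) * S t)).sum = (y : ℂ) := by
      intro l'
      induction l' with
      | nil => exact fun _ => ⟨0, dvd_zero _, by simp⟩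
      | cons t l' ih =>
        intro hsub
        obtain ⟨y, hy, hy'⟩ := ih fun t ht => hsub t (List.mem_cons_of_mem _ ht)
        obtain ⟨s, hs⟩ := hnat t (hsub t List.mem_cons_self)
        refine ⟨t.2.2 * ((t.1 ⊔ N).index * s : ℕ) + y,
          dvd_add (hcon t (hsub t List.mem_cons_self) s hs) hy, ?_⟩
        rw [List.map_cons, List.sum_cons, hy', hs]
        push_cast; ring
    obtain ⟨y, hy, hy'⟩ := hgen l fun t ht => ht
    rw [hy'] at hsum
    have : z = y := by exact_mod_cast hsum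
    rwa [this]
  obtain ⟨E, μ, z'⟩ := t
  have hE := (hl _ htl).1
  have hμ := (hl _ htl).2
  simp only at hdvd hE hμ
  have hidx : (E ⊔ N).index = 1 := by
    obtain ⟨i, -, hi⟩ := (Nat.dvd_prime_pow hp).1
      (hind ▸ Subgroup.index_dvd_of_le (le_sup_right : N ≤ E ⊔ N))
    rcases Nat.eq_zero_or_pos i with h | h
    · rw [hi, h, pow_zero]
    · refine absurd ?_ hdvd
      refine dvd_mul_of_dvd_right (Int.natCast_dvd_natCast.2 (dvd_mul_of_dvd_left ?_ _)) _
      rw [hi]; exact dvd_pow_self p h.ne'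
  have hEN : E ⊔ N = ⊤ := Subgroup.index_eq_one.1 hidx
  rw [hidx, one_mul] at hdvd
  have hps : ¬ p ∣ s := fun h => hdvd (dvd_mul_of_dvd_right (Int.natCast_dvd_natCast.2 h) _)
  -- the action of `E` on the characters of the intersection
  set D := E ⊓ N with hD
  letI : Fintype D := Fintype.ofFinite D
  have hconj : ∀ (g : E) (x : D), (g : G) * x * (g : G)⁻¹ ∈ D := fun g x =>
    ⟨E.mul_mem (E.mul_mem g.2 x.2.1) (E.inv_mem g.2), hN.conj_mem _ x.2.2 g⟩
  let c : E → (D ≃* D) := fun g =>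
    { toFun := fun x => ⟨(g : G) * x * (g : G)⁻¹, hconj g x⟩
      invFun := fun x => ⟨(g : G)⁻¹ * x * (g : G), by
        have := hconj g⁻¹ x; simpa using this⟩
      left_inv := fun x => Subtype.ext (by simp [mul_assoc])
      right_inv := fun x => Subtype.ext (by simp [mul_assoc])
      map_mul' := fun x y => Subtype.ext (by simp [mul_assoc]) }
  let act : E → Cfsg.IrrCharacter D → Cfsg.IrrCharacter D := fun g φ =>
    ⟨fun x => (φ : D → ℂ) (c g⁻¹ x),
      CharInd.irr_comp_surjective (c g⁻¹).toMonoidHom (c g⁻¹).surjective φ.2⟩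
  letI : MulAction E (Cfsg.IrrCharacter D) :=
    { smul := act
      one_smul := fun φ => Subtype.ext (funext fun x => congrArg (φ : D → ℂ)
        (Subtype.ext (by simp [c])))
      mul_smul := fun g h φ => Subtype.ext (funext fun x => congrArg (φ : D → ℂ)
        (Subtype.ext (by simp [c, mul_assoc]))) }
  have hsmul : ∀ (g : E) (φ : Cfsg.IrrCharacter D) (x : D),
      ((g • φ : Cfsg.IrrCharacter D) : D → ℂ) x = (φ : D → ℂ) (c g⁻¹ x) := fun _ _ _ => rfl
  let A : D → ℂ := fun x => θ ⟨x, x.2.2⟩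
  let B : D → ℂ := fun x => μ ⟨x, x.2.1⟩ * θ ⟨x, x.2.2⟩
  have hA : Cfsg.IsCharacter D A :=
    Char.isCharacter_comp (Char.isCharacter_of_irr hθ) (Subgroup.inclusion inf_le_right)
  have hB : Cfsg.IsCharacter D B :=
    Char.isCharacter_mul (Char.isCharacter_comp hμ (Subgroup.inclusion inf_le_left)) hA
  have hinner : ∀ (g : E) (F : D → ℂ) (φ : Cfsg.IrrCharacter D), (∀ x, F (c g⁻¹ x) = F x) →
      Cfsg.classInner F ((g • φ : Cfsg.IrrCharacter D) : D → ℂ) = Cfsg.classInner F φ := by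
    intro g F φ hF
    unfold Cfsg.classInner
    congr 1
    refine Fintype.sum_equiv (c g⁻¹).toEquiv _ _ fun x => ?_
    rw [hsmul]
    show _ = F (c g⁻¹ x) * conj ((φ : D → ℂ) (c g⁻¹ x))
    rw [hF]
  have hAinv : ∀ (g : E) x, A (c g x) = A x := fun g x => hinv g ⟨x, x.2.2⟩ _
  have hBinv : ∀ (g : E) x, B (c g x) = B x := fun g x => by
    show μ _ * θ _ = μ _ * θ _
    congr 1
    · exact Char.isCharacter_isClassFunction hμ ⟨x, x.2.1⟩ g
    · exact hinv g ⟨x, x.2.2⟩ _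
  obtain ⟨a, ha, ha'⟩ := Char.isCharacter_exists_coeff hA
  choose b hb using fun ψ => Char.isCharacter_classInner_nat hB ψ
  have haI : ∀ (g : E) φ, a (g • φ) = a φ := fun g φ => by
    have := hinner g A φ (hAinv g⁻¹)
    rw [ha', ha'] at this
    exact_mod_cast this
  have hbI : ∀ (g : E) φ, b (g • φ) = b φ := fun g φ => by
    have := hinner g B φ (hBinv g⁻¹)
    rw [hb, hb] at this
    exact_mod_cast this
  have hsS : (s : ℂ) = ((∑ φ, a φ * b φ : ℕ) : ℂ) := by
    rw [← hs]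
    show @Cfsg.classInner _ _ _ B A = _
    rw [show @Cfsg.classInner D _ (Fintype.ofFinite _) B A = Cfsg.classInner B A by congr 1]
    conv_lhs => arg 2; rw [ha]
    rw [Char.classInner_sum_right]
    push_cast
    refine Finset.sum_congr rfl fun φ _ => ?_
    rw [← Nat.cast_smul_eq_nsmul ℂ, Char.classInner_smul_right, hb, Complex.conj_natCast]
  have hs' : s = ∑ φ, a φ * b φ := Nat.cast_injective hsS
  -- a fixed point with multiplicity prime to `p`
  let π : E →* Equiv.Perm (Cfsg.IrrCharacter D) := MulAction.toPermHom E (Cfsg.IrrCharacter D)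
  have hker : (D.subgroupOf E) ≤ π.ker := by
    intro g hg
    rw [MonoidHom.mem_ker]
    ext φ : 1
    apply Subtype.ext
    funext x
    show (φ : D → ℂ) (c g⁻¹ x) = (φ : D → ℂ) x
    have := Char.irr_isClassFunction φ.2 x ⟨((g⁻¹ : E) : G), by simpa using D.inv_mem hg⟩
    exact Eq.trans (congrArg _ (Subtype.ext rfl)) this
  have hidxD : (D.subgroupOf E).index = p ^ k := by
    show D.relIndex E = _
    rw [hD, inf_comm, Subgroup.inf_relIndex_right, ← Subgroup.relIndex_sup_right, hEN,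
      Subgroup.relIndex_top_right, hind]
  have hpg : IsPGroup p π.range := by
    have h1 : Nat.card π.range ∣ p ^ k := by
      rw [← Subgroup.index_ker, ← hidxD]
      exact Subgroup.index_dvd_of_le hker
    obtain ⟨i, -, hi⟩ := (Nat.dvd_prime_pow hp).1 h1
    exact IsPGroup.iff_card.2 ⟨i, hi⟩
  obtain ⟨φ, hφa, hφfix⟩ : ∃ φ, ¬ p ∣ a φ ∧ ∀ g : E, g • φ = φ := by
    by_contra hcon
    push Not at hcon
    apply hps
    rw [hs', ← ZMod.natCast_eq_zero_iff, Nat.cast_sum]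
    rw [← Finset.sum_fiberwise Finset.univ (fun φ => ((a φ * b φ : ℕ) : ZMod p))]
    refine Finset.sum_eq_zero fun v _ => ?_
    rw [Finset.sum_congr rfl fun φ hφ => (Finset.mem_filter.1 hφ).2, Finset.sum_const, nsmul_eq_mul]
    by_cases hv : v = 0
    · rw [hv, mul_zero]
    let T := {φ : Cfsg.IrrCharacter D // ((a φ * b φ : ℕ) : ZMod p) = v}
    letI : MulAction π.range T :=
      { smul := fun g φ => ⟨(g : Equiv.Perm (Cfsg.IrrCharacter D)) φ.1, by
          obtain ⟨e, he⟩ := g.2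
          rw [← he]
          show ((a (e • φ.1) * b (e • φ.1) : ℕ) : ZMod p) = v
          rw [haI, hbI]; exact φ.2⟩
        one_smul := fun φ => Subtype.ext rfl
        mul_smul := fun g h φ => Subtype.ext rfl }
    have h2 := hpg.card_modEq_card_fixedPoints (α := T)
    have hempty : IsEmpty (MulAction.fixedPoints π.range T) := by
      refine ⟨fun ⟨φ, hφ⟩ => ?_⟩
      have hnd : ¬ p ∣ a φ.1 := fun h => hv (by
        rw [← φ.2, ZMod.natCast_eq_zero_iff]
        exact dvd_mul_of_dvd_left h _)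
      obtain ⟨g, hg⟩ := hcon φ.1 hnd
      exact hg (congrArg Subtype.val (hφ ⟨π g, g, rfl⟩))
    rw [Nat.card_of_isEmpty (α := MulAction.fixedPoints π.range T)] at h2
    rw [show (Finset.univ.filter fun φ => ((a φ * b φ : ℕ) : ZMod p) = v).card = Nat.card T by
      rw [Nat.card_eq_fintype_card, Fintype.card_subtype],
      (ZMod.natCast_eq_zero_iff _ _).2 (Nat.modEq_zero_iff_dvd.1 h2), zero_mul]
  refine ⟨E, φ, a φ, hE, hEN, fun g hg x h => ?_, hφa, fun {_} => ?_⟩
  · have := congrArg (fun ψ : Cfsg.IrrCharacter D => (ψ : D → ℂ) ⟨g * x * g⁻¹, h⟩)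
      (hφfix ⟨g, hg⟩)
    simp only [hsmul] at this
    rw [← this]
    exact congrArg _ (Subtype.ext (by simp [c, mul_assoc]))
  · convert ha' φ using 3

end Cfsg.Agent.CharDeep
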