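import Mathlib
import Cfsg.Agent.CharDeep.Dade
import Cfsg.Agent.CharDeep.Inter
import Cfsg.Agent.Char.Linear

/-!
# Extension from a linearly extendible invariant constituent of multiplicity prime to `p`
-/

set_option autoImplicit false
set_option linter.style.haveILetI false
set_option linter.unusedSectionVars false

noncomputable section

namespace Cfsg.Agent.CharDeep

open Module

universe u v

variable {G : Type u} [Group G] [Finite G] (N : Subgroup G) [hN : N.Normal]
variable {V : Type v} [AddCommGroup V] [Module ℂ V] [FiniteDimensional ℂ V]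
variable (ρ : Representation ℂ N V)

/-- From an abelian situation on a supplement: a homomorphism raising scalars to the
multiplicity. -/
theorem exists_hom_mult [ρ.IsIrreducible]
    (hinv : ∀ (g : G) (n : N), ρ.character (CharExt.cj N g n) = ρ.character n)
    (E : Subgroup G) (hEN : E ⊔ N = ⊤) [Fintype ↥(E ⊓ N)]
    (hcen : ∀ d ∈ E ⊓ N, ∀ e ∈ E, e * d = d * e) (μ : E →* ℂˣ) (m : ℕ)
    (hm : Cfsg.classInner (fun x : ↥(E ⊓ N) => ρ.character ⟨x, x.2.2⟩)
      (fun x : ↥(E ⊓ N) => (μ ⟨x, x.2.1⟩ : ℂ)) = (m : ℂ)) :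
    ∃ F : interGroup N ρ →* ℂˣ, (∀ a, F (interScalar N ρ a) = a ^ m) ∧
      ∀ n, F (interNormal N ρ n) = 1 := by
  classical
  let ι : ↥(E ⊓ N) →* N := Subgroup.inclusion inf_le_right
  let f : ↥(E ⊓ N) →* ℂˣ := μ.comp (Subgroup.inclusion inf_le_left)
  set c : ℂ := (Nat.card ↥(E ⊓ N) : ℂ)⁻¹
  let P : Module.End ℂ V := c • ∑ d : ↥(E ⊓ N), ((f d)⁻¹ : ℂˣ).val • ρ (ι d)
  have hmulP : ∀ d, ρ (ι d) * P = (f d : ℂ) • P := by
    intro d
    simp only [P, mul_smul_comm, Finset.mul_sum, ← map_mul, ← map_mul ι, Finset.smul_sum,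
      smul_smul]
    refine Fintype.sum_equiv (Equiv.mulLeft d) _ _ fun e => ?_
    congr 1
    rw [Equiv.coe_mulLeft, map_mul, mul_inv_rev, Units.val_mul, ← mul_assoc,
      mul_comm (f d : ℂ) c, mul_assoc c, mul_comm (f d : ℂ),
      mul_assoc, Units.inv_mul, mul_one]
  have hcomm : ∀ x : interGroup N ρ, interProj N ρ x ∈ E →
      (interOp N ρ x : Module.End ℂ V) * P = P * (interOp N ρ x : Module.End ℂ V) := by
    intro x hx
    simp only [P, mul_smul_comm, smul_mul_assoc, Finset.mul_sum, Finset.sum_mul]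
    congr 1
    refine Finset.sum_congr rfl fun d _ => ?_
    congr 1
    rw [interOp_spec, show CharExt.cj N (interProj N ρ x) (ι d) = ι d from Subtype.ext (by
      show interProj N ρ x * (d : G) * (interProj N ρ x)⁻¹ = (d : G)
      rw [hcen d d.2 _ hx, mul_inv_cancel_right])]
  have hfix : ∀ v ∈ LinearMap.range P, P v = v := by
    have hPP : P * P = P := by
      conv_lhs => arg 1; rw [show P = c • ∑ d : ↥(E ⊓ N), ((f d)⁻¹ : ℂˣ).val • ρ (ι d) from rfl]
      rw [smul_mul_assoc, Finset.sum_mul]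
      simp only [smul_mul_assoc, hmulP, smul_smul, Units.inv_mul, one_smul, Finset.sum_const,
        Finset.card_univ, ← Nat.card_eq_fintype_card]
      rw [← Nat.cast_smul_eq_nsmul ℂ, smul_smul, inv_mul_cancel₀
        (Nat.cast_ne_zero.2 Nat.card_pos.ne'), one_smul]
    rintro _ ⟨w, rfl⟩
    rw [← Module.End.mul_apply, hPP]
  have hproj : LinearMap.IsProj (LinearMap.range P) P :=
    ⟨fun v => ⟨v, rfl⟩, hfix⟩
  have hdim : finrank ℂ (LinearMap.range P) = m := by
    have h1 := hproj.trace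
    have h2 : LinearMap.trace ℂ V P = (m : ℂ) := by
      rw [← hm]
      simp only [P, map_smul, map_sum, smul_eq_mul, Cfsg.classInner]
      congr 1
      refine Finset.sum_congr rfl fun d _ => ?_
      rw [mul_comm]
      show _ = ρ.character (ι d) * (starRingEnd ℂ) (f d : ℂ)
      congr 1
      have h1 : ((f d : ℂ)) ^ Nat.card ↥(E ⊓ N) = 1 := by
        rw [← Units.val_pow_eq_pow_val, ← map_pow, pow_card_eq_one', map_one, Units.val_one]
      rw [Units.val_inv_eq_inv_val, Complex.inv_eq_conj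
        (Complex.norm_eq_one_of_pow_eq_one h1 Nat.card_pos.ne')]
    exact_mod_cast h1.symm.trans h2
  let Ê : Subgroup (interGroup N ρ) := E.comap (interProj N ρ)
  have hmaps : ∀ x : Ê, ∀ v ∈ LinearMap.range P,
      (interOp N ρ (x : interGroup N ρ) : Module.End ℂ V) v ∈ LinearMap.range P := by
    rintro x _ ⟨w, rfl⟩
    refine ⟨(interOp N ρ (x : interGroup N ρ) : Module.End ℂ V) w, ?_⟩
    rw [← Module.End.mul_apply, ← Module.End.mul_apply, hcomm _ x.2]
  let R : Ê →* Module.End ℂ (LinearMap.range P) :=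
    { toFun := fun x => LinearMap.restrict (interOp N ρ (x : interGroup N ρ) : Module.End ℂ V)
        (hmaps x)
      map_one' := LinearMap.ext fun v => Subtype.ext (by simp [LinearMap.restrict_apply])
      map_mul' := fun x y => LinearMap.ext fun v => Subtype.ext (by
        simp [LinearMap.restrict_apply, Module.End.mul_apply]) }
  let pe : Ê →* E :=
    { toFun := fun x => ⟨interProj N ρ (x : interGroup N ρ), x.2⟩
      map_one' := Subtype.ext (map_one _)
      map_mul' := fun x y => Subtype.ext (map_mul (interProj N ρ) _ _) }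
  let φ : Ê →* ℂˣ :=
    (MonoidHom.toHomUnits (LinearMap.det.comp R)) * ((μ.comp pe) ^ m)⁻¹
  have hφs : ∀ (a : ℂˣ) (h : interScalar N ρ a ∈ Ê), φ ⟨_, h⟩ = a ^ m := by
    intro a h
    have h1 : pe ⟨_, h⟩ = 1 := Subtype.ext (interProj_scalar N ρ a)
    apply Units.ext
    show LinearMap.det (R ⟨_, h⟩) * (((μ (pe ⟨_, h⟩)) ^ m)⁻¹ : ℂˣ).val = _
    rw [h1, map_one, one_pow, inv_one, Units.val_one, mul_one,
      show R ⟨_, h⟩ = (a : ℂ) • (1 : Module.End ℂ (LinearMap.range P)) from LinearMap.ext fun v =>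
        Subtype.ext (by
          show ((interOp N ρ (interScalar N ρ a) : (Module.End ℂ V)ˣ) : Module.End ℂ V) v.1 = _
          rw [interOp_scalar, scalarUnit_val]
          rfl),
      LinearMap.det_smul, map_one, mul_one, hdim, Units.val_pow_eq_pow_val]
  have hφn : ∀ (n : N) (h : interNormal N ρ n ∈ Ê), φ ⟨_, h⟩ = 1 := by
    intro n h
    have hnE : (n : G) ∈ E := h
    let d : ↥(E ⊓ N) := ⟨n, hnE, n.2⟩
    apply Units.ext
    show LinearMap.det (R ⟨_, h⟩) * (((μ (pe ⟨_, h⟩)) ^ m)⁻¹ : ℂˣ).val = _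
    rw [show μ (pe ⟨_, h⟩) = f d from rfl,
      show R ⟨_, h⟩ = (f d : ℂ) • (1 : Module.End ℂ (LinearMap.range P)) from LinearMap.ext fun v =>
        Subtype.ext (by
          show ((interOp N ρ (interNormal N ρ n) : (Module.End ℂ V)ˣ) : Module.End ℂ V) v.1 =
            (f d : ℂ) • v.1
          rw [interOp_normal]
          conv_lhs => rw [← hfix v.1 v.2]
          rw [← Module.End.mul_apply, show ρ n = ρ (ι d) from rfl, hmulP, LinearMap.smul_apply,
            hfix v.1 v.2]),
      LinearMap.det_smul, map_one, mul_one, hdim, ← Units.val_pow_eq_pow_val, ← Units.val_mul,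
      mul_inv_cancel]
  haveI hNn : (interNormal N ρ).range.Normal := ⟨by
    rintro _ ⟨n, rfl⟩ x
    exact ⟨_, (interNormal_conj N ρ x n).symm⟩⟩
  let q : Ê →* interGroup N ρ ⧸ (interNormal N ρ).range :=
    (QuotientGroup.mk' _).comp Ê.subtype
  have hq : Function.Surjective q := by
    intro y
    obtain ⟨x, rfl⟩ := QuotientGroup.mk_surjective y
    obtain ⟨n, hn, e, he, hne⟩ := Subgroup.mem_sup_of_normal_left.1
      ((sup_comm E N ▸ hEN) ▸ Subgroup.mem_top (interProj N ρ x) : interProj N ρ x ∈ N ⊔ E)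
    refine ⟨⟨(interNormal N ρ ⟨n, hn⟩)⁻¹ * x, ?_⟩, ?_⟩
    · show interProj N ρ _ ∈ E
      rw [map_mul, map_inv, interProj_normal, ← hne]
      simpa using he
    · show QuotientGroup.mk ((interNormal N ρ ⟨n, hn⟩)⁻¹ * x) = QuotientGroup.mk x
      rw [QuotientGroup.mk_mul, (QuotientGroup.eq_one_iff _).2
        (Subgroup.inv_mem _ (⟨_, rfl⟩ : interNormal N ρ ⟨n, hn⟩ ∈ (interNormal N ρ).range)), one_mul]
  have hker : q.ker ≤ φ.ker := by
    rintro ⟨x, hx⟩ hxk
    obtain ⟨n, rfl⟩ := (QuotientGroup.eq_one_iff x).1 (MonoidHom.mem_ker.1 hxk)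
    exact hφn n hx
  let F₀ : interGroup N ρ ⧸ (interNormal N ρ).range →* ℂˣ :=
    q.liftOfRightInverse (Function.surjInv hq) (Function.rightInverse_surjInv hq) ⟨φ, hker⟩
  have hF₀ : ∀ x, F₀ (q x) = φ x :=
    fun x => MonoidHom.liftOfRightInverse_comp_apply _ _ _ ⟨φ, hker⟩ x
  refine ⟨F₀.comp (QuotientGroup.mk' _), fun a => ?_, fun n => ?_⟩
  · have h : interScalar N ρ a ∈ Ê := by
      show interProj N ρ _ ∈ E
      rw [interProj_scalar]; exact E.one_mem
    exact (hF₀ ⟨_, h⟩).trans (hφs a h)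
  · show F₀ (QuotientGroup.mk _) = 1
    rw [(QuotientGroup.eq_one_iff _).2
      (⟨n, rfl⟩ : interNormal N ρ n ∈ (interNormal N ρ).range), map_one]

/-- Extension when the obstruction has coprime killers. -/
theorem exists_extension_of_mult [ρ.IsIrreducible]
    (hinv : ∀ (g : G) (n : N), ρ.character (CharExt.cj N g n) = ρ.character n)
    {F : interGroup N ρ →* ℂˣ} {m : ℕ} (hF : ∀ a, F (interScalar N ρ a) = a ^ m)
    (hFN : ∀ n, F (interNormal N ρ n) = 1) (hcop : m.Coprime N.index) :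
    ∃ σ : Representation ℂ G V, ∀ n : N, σ n = ρ n := by
  obtain ⟨F₂, hF₂, hF₂N⟩ := exists_hom_index N ρ hinv N le_rfl ρ fun n => rfl
  obtain ⟨u, v, huv⟩ := Int.isCoprime_iff_nat_coprime (a := (m : ℤ)) (b := (N.index : ℤ)) |>.2
    (by simpa using hcop)
  refine exists_extension_of_hom N ρ hinv (F ^ u * F₂ ^ v) (fun a => ?_) fun n => ?_
  · rw [MonoidHom.mul_apply, MonoidHom.zpow_apply, MonoidHom.zpow_apply, hF, hF₂, ← zpow_natCast,
      ← zpow_natCast, ← zpow_mul, ← zpow_mul, ← zpow_add, mul_comm (m : ℤ), mul_comm (N.index : ℤ),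
      huv, zpow_one]
  · rw [MonoidHom.mul_apply, MonoidHom.zpow_apply, MonoidHom.zpow_apply, hFN, hF₂N, one_zpow,
      one_zpow, one_mul]

/-- A linear character of a subgroup of a finite abelian group extends. -/
theorem exists_hom_extension {A B : Type*} [CommGroup A] [Finite A] [Group B] (γ : B →* A)
    (hγ : Function.Injective γ) (g : B →* ℂˣ) : ∃ ν : A →* ℂˣ, ν.comp γ = g := by
  let e : B ≃* γ.range := MonoidHom.ofInjective hγ
  obtain ⟨ν, hν⟩ := MonoidHom.domRestrict_surjective ℂ γ.range (g.comp e.symm.toMonoidHom)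
  refine ⟨ν, MonoidHom.ext fun b => ?_⟩
  have h := congrArg (fun h : γ.range →* ℂˣ => h (e b)) hν
  simp only [MonoidHom.comp_apply, MulEquiv.coe_toMonoidHom, MulEquiv.symm_apply_apply] at h
  exact h

end Cfsg.Agent.CharDeep
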