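import Mathlib
import Cfsg.Agent.SporB.DoubleCoverAlt

/-!
# The double cover of the alternating group of degree four, inside that of degree five
-/

set_option autoImplicit false
set_option linter.style.haveILetI false
set_option linter.deprecated false

namespace Cfsg.Agent.CharDeep

open Equiv
open scoped commutatorElement

theorem alt_five_involution_isConj {a b : alternatingGroup (Fin 5)} (ha : a * a = 1) (ha1 : a ≠ 1)
    (hb : b * b = 1) (hb1 : b ≠ 1) : IsConj a b := by
  classical
  have key : ∀ x : alternatingGroup (Fin 5), x * x = 1 → x ≠ 1 →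
      ∃ τ : alternatingGroup (Fin 5), (τ : Perm (Fin 5)) * (swap 0 4 * swap 1 3) *
        (τ : Perm (Fin 5))⁻¹ = (x : Perm (Fin 5)) := by
    intro x hx hx1
    have hx2 : ((x : Perm (Fin 5))) * x = 1 := congrArg Subtype.val hx
    have hne : (x : Perm (Fin 5)) ≠ 1 := fun h => hx1 (Subtype.ext h)
    have hord : orderOf (x : Perm (Fin 5)) = 2 :=
      orderOf_eq_prime (by rw [pow_two]; exact hx2) hne
    have hcyc : ∀ n, n ∈ Equiv.Perm.cycleType (x : Perm (Fin 5)) → n = 2 := by
      intro n hn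
      have h1 := Equiv.Perm.dvd_of_mem_cycleType hn
      have h2 := Equiv.Perm.two_le_of_mem_cycleType hn
      rw [hord] at h1
      have := Nat.le_of_dvd (by norm_num) h1
      omega
    obtain ⟨σ, hσ⟩ := isConj_iff.1
      (alternatingGroup.isConj_swap_mul_swap_of_cycleType_two x.2 hne hcyc)
    rcases Int.units_eq_one_or (Equiv.Perm.sign σ) with h | h
    · exact ⟨⟨σ, Equiv.Perm.mem_alternatingGroup.2 h⟩, hσ⟩
    · refine ⟨⟨σ * swap 0 4, Equiv.Perm.mem_alternatingGroup.2 ?_⟩, ?_⟩
      · rw [map_mul, h, Equiv.Perm.sign_swap (by decide)]; decide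
      · show σ * swap 0 4 * (swap 0 4 * swap 1 3) * (σ * swap 0 4)⁻¹ = (x : Perm (Fin 5))
        rw [← hσ, mul_inv_rev, swap_inv]
        have hc : Commute (swap (0 : Fin 5) 4) (swap 1 3) := by
          show _ * _ = _ * _
          decide
        calc σ * swap 0 4 * (swap 0 4 * swap 1 3) * (swap 0 4 * σ⁻¹)
            = σ * ((swap 0 4 * swap 0 4) * (swap 1 3 * swap 0 4)) * σ⁻¹ := by
              simp only [mul_assoc]
          _ = σ * (swap 0 4 * swap 1 3) * σ⁻¹ := by
              rw [Equiv.swap_mul_self, one_mul, hc.eq]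
  obtain ⟨s, hs⟩ := key a ha ha1
  obtain ⟨t, ht⟩ := key b hb hb1
  refine isConj_iff.2 ⟨t * s⁻¹, Subtype.ext ?_⟩
  simp only [Subgroup.coe_mul, InvMemClass.coe_inv, mul_inv_rev, inv_inv, ← hs, ← ht]
  simp [mul_assoc]

/-- The embedding of degree four in degree five. -/
def altFourEmb : alternatingGroup (Fin 4) →* alternatingGroup (Fin 5) :=
  MonoidHom.codRestrict
    ((Equiv.Perm.extendDomainHom (finSuccAboveEquiv (Fin.last 4))).comp
      (alternatingGroup (Fin 4)).subtype) _
    fun x => by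
      rw [Equiv.Perm.mem_alternatingGroup]
      show Equiv.Perm.sign (Equiv.Perm.extendDomain (x : Perm (Fin 4)) _) = 1
      rw [Equiv.Perm.sign_extendDomain]
      exact Equiv.Perm.mem_alternatingGroup.1 x.2

theorem altFourEmb_injective : Function.Injective altFourEmb := fun a b h =>
  Subtype.ext (Equiv.Perm.extendDomainHom_injective _ (congrArg Subtype.val h))

theorem double_cover_four : ∃ (Γ : Type) (_ : Group Γ) (_ : Finite Γ) (z : Γ),
    z ∈ Subgroup.center Γ ∧ orderOf z = 2 ∧ z ∈ commutator Γ ∧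
      ∃ π : Γ →* alternatingGroup (Fin 4),
        Function.Surjective π ∧ π.ker = Subgroup.zpowers z := by
  obtain ⟨H, _, _, z, π, hz2, hzc, hsurj, hker, -, ⟨u, v, huu, hu1, -⟩, -⟩ :=
    Cfsg.Agent.SporB.DoubleCover.exists_cover 5 le_rfl
  let f := altFourEmb
  let K : Subgroup H := f.range.comap π
  have hzker : π z = 1 := MonoidHom.mem_ker.1 (hker ▸ Subgroup.mem_zpowers z)
  have hzK : z ∈ K := by
    show π z ∈ f.range
    rw [hzker]; exact one_mem _
  let e := MonoidHom.ofInjective altFourEmb_injective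
  let p : K →* alternatingGroup (Fin 4) :=
    e.symm.toMonoidHom.comp ((π.comp K.subtype).codRestrict f.range fun x => x.2)
  have hp : ∀ x : K, f (p x) = π x := fun x => congrArg Subtype.val (e.apply_symm_apply ⟨π x, x.2⟩)
  let zK : K := ⟨z, hzK⟩
  refine ⟨K, inferInstance, inferInstance, zK, ?_, ?_, ?_, p, ?_, ?_⟩
  · rw [Subgroup.mem_center_iff]
    exact fun x => Subtype.ext (Subgroup.mem_center_iff.1 hzc x)
  · rw [← hz2, ← Subgroup.orderOf_coe]
  · let a : alternatingGroup (Fin 4) :=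
      ⟨swap 0 1 * swap 1 2, by rw [Equiv.Perm.mem_alternatingGroup]; decide⟩
    let b : alternatingGroup (Fin 4) :=
      ⟨swap 0 1 * swap 1 3, by rw [Equiv.Perm.mem_alternatingGroup]; decide⟩
    have hc2 : ⁅a, b⁆ * ⁅a, b⁆ = 1 := by decide
    have hc1 : ⁅a, b⁆ ≠ 1 := by decide
    obtain ⟨x, hx⟩ := hsurj (f a)
    obtain ⟨y, hy⟩ := hsurj (f b)
    let x' : K := ⟨x, a, hx.symm⟩
    let y' : K := ⟨y, b, hy.symm⟩
    set c : K := ⁅x', y'⁆ with hc
    have hπc : π (c : H) = f ⁅a, b⁆ := by
      rw [map_commutatorElement, hc]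
      show π ⁅x, y⁆ = _
      rw [map_commutatorElement, hx, hy]
    have hcz : c * c = zK := by
      have h1 : π u * π u = 1 := by rw [← map_mul, huu, hzker]
      have h2 : f ⁅a, b⁆ * f ⁅a, b⁆ = 1 := by rw [← map_mul, hc2, map_one]
      have h3 : f ⁅a, b⁆ ≠ 1 := fun h => hc1 (altFourEmb_injective (h.trans (map_one _).symm))
      obtain ⟨t, ht⟩ := isConj_iff.1 (alt_five_involution_isConj h1 hu1 h2 h3)
      obtain ⟨s, rfl⟩ := hsurj t
      rw [← hπc, ← map_inv, ← map_mul, ← map_mul] at ht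
      have hk : (s * u * s⁻¹)⁻¹ * (c : H) ∈ π.ker := by
        rw [MonoidHom.mem_ker, map_mul, map_inv, ht, inv_mul_cancel]
      rw [hker, Subgroup.mem_zpowers_iff] at hk
      obtain ⟨j, hj⟩ := hk
      apply Subtype.ext
      show (c : H) * c = z
      have hzc' : ∀ w : H, Commute (z ^ j) w := fun w =>
        Commute.zpow_left (Subgroup.mem_center_iff.1 hzc w).symm j
      rw [eq_inv_mul_iff_mul_eq] at hj
      rw [← hj, mul_assoc (s * u * s⁻¹), ← mul_assoc (z ^ j), (hzc' _).eq, mul_assoc (s * u * s⁻¹),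
        ← mul_assoc (s * u * s⁻¹), ← zpow_add, show s * u * s⁻¹ * (s * u * s⁻¹) = s * (u * u) * s⁻¹ by
          simp [mul_assoc], huu, show s * z * s⁻¹ = z by
          rw [Subgroup.mem_center_iff.1 hzc s, mul_inv_cancel_right]]
      have : z ^ (j + j) = 1 := by
        rw [← two_mul, zpow_mul, zpow_ofNat, ← hz2, pow_orderOf_eq_one, one_zpow]
      rw [this, mul_one]
    rw [← hcz, commutator_def]
    exact mul_mem (Subgroup.commutator_mem_commutator (Subgroup.mem_top _) (Subgroup.mem_top _))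
      (Subgroup.commutator_mem_commutator (Subgroup.mem_top _) (Subgroup.mem_top _))
  · intro a
    obtain ⟨x, hx⟩ := hsurj (f a)
    refine ⟨⟨x, a, hx.symm⟩, altFourEmb_injective ?_⟩
    exact (hp _).trans hx
  · ext x
    rw [MonoidHom.mem_ker]
    constructor
    · intro h
      have h1 : π (x : H) = 1 := by rw [← hp, h, map_one]
      rw [← MonoidHom.mem_ker, hker, Subgroup.mem_zpowers_iff] at h1
      obtain ⟨j, hj⟩ := h1
      exact Subgroup.mem_zpowers_iff.2 ⟨j, Subtype.ext (by simpa [zK] using hj)⟩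
    · rintro ⟨j, rfl⟩
      apply altFourEmb_injective
      rw [map_one]
      refine (hp _).trans ?_
      simp [zK, hzker]

end Cfsg.Agent.CharDeep
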