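import Mathlib
import Cfsg.Agent.OddChar43.FrobData
import Cfsg.Agent.CharInd.Coherence

/-!
Coherence for a trivial-intersection Frobenius kernel, without a parity assumption.
-/

set_option autoImplicit false
set_option linter.style.haveILetI false
set_option linter.unusedSectionVars false

noncomputable section

open scoped ComplexConjugate BigOperators Classical
open Cfsg.Agent Cfsg.Agent.CharInd Cfsg.Agent.OddChar43

namespace Cfsg.Agent.CharDeep

universe v

/-- A nilpotent group has central elements of every prime order dividing its order. -/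
theorem exists_central_of_prime {Q : Type*} [Group Q] [Finite Q] [hnil : Group.IsNilpotent Q]
    {q : ℕ} (hq : q.Prime) (hdvd : q ∣ Nat.card Q) :
    ∃ x : Q, x ∈ Subgroup.center Q ∧ orderOf x = q := by
  obtain ⟨e⟩ := ((Group.isNilpotent_of_finite_tfae (G := Q)).out 0 4).1 hnil
  haveI := Fact.mk hq
  let i : {p // p ∈ (Nat.card Q).primeFactors} :=
    ⟨q, Nat.mem_primeFactors.2 ⟨hq, hdvd, Nat.card_pos.ne'⟩⟩
  obtain ⟨P₀⟩ : Nonempty (Sylow (i : ℕ) Q) := inferInstance
  have hP : 1 < Nat.card (P₀ : Subgroup Q) := by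
    rw [P₀.card_eq_multiplicity]
    exact Nat.one_lt_pow (Nat.pos_iff_ne_zero.1 (hq.factorization_pos_of_dvd Nat.card_pos.ne' hdvd))
      hq.one_lt
  haveI : Nontrivial (P₀ : Subgroup Q) := Finite.one_lt_card_iff_nontrivial.1 hP
  haveI : Nontrivial (Subgroup.center (P₀ : Subgroup Q)) :=
    (Subgroup.nontrivial_iff_ne_bot _).2 (Group.IsNilpotent.center_ne_bot (G := (P₀ : Subgroup Q)))
  have hPc : IsPGroup q (Subgroup.center (P₀ : Subgroup Q)) :=
    IsPGroup.to_subgroup (P₀.2 : IsPGroup q (P₀ : Subgroup Q)) _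
  have hqc : q ∣ Nat.card (Subgroup.center (P₀ : Subgroup Q)) := by
    obtain ⟨k, hk⟩ := IsPGroup.iff_card.1 hPc
    rw [hk]
    refine dvd_pow_self q fun h => ?_
    rw [h, pow_zero] at hk
    exact (Finite.one_lt_card (α := Subgroup.center (P₀ : Subgroup Q))).ne' hk
  obtain ⟨z, hz⟩ := exists_prime_orderOf_dvd_card' q hqc
  refine ⟨e (Pi.mulSingle i (Pi.mulSingle P₀ (z : (P₀ : Subgroup Q)))), ?_, ?_⟩
  · rw [Subgroup.mem_center_iff]
    intro y
    obtain ⟨w, rfl⟩ := e.surjective y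
    rw [← map_mul, ← map_mul]
    congr 1
    funext j P
    by_cases hj : j = i
    · subst hj
      by_cases hP : P = P₀
      · subst hP
        simp only [Pi.mul_apply, Pi.mulSingle_eq_same]
        exact Subgroup.mem_center_iff.1 z.2 _
      · simp [Pi.mulSingle_eq_of_ne hP]
    · simp [Pi.mulSingle_eq_of_ne hj]
  · rw [MulEquiv.orderOf_eq]
    let f : (P₀ : Subgroup Q) →*
        ((p : {p // p ∈ (Nat.card Q).primeFactors}) → (P : Sylow (p : ℕ) Q) → (P : Subgroup Q)) :=
      (MonoidHom.mulSingle _ i).comp (MonoidHom.mulSingle (fun P : Sylow (i : ℕ) Q => ↥(P : Subgroup Q)) P₀)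
    have hf : Function.Injective f := fun a b h => by
      have h' := congrFun (congrFun h i) P₀
      simpa [f] using h'
    calc _ = orderOf (f z) := rfl
      _ = q := by rw [orderOf_injective f hf, Subgroup.orderOf_coe, hz]

/-- The only solutions of the norm inequality. -/
theorem int_norm_cases {a W d : ℤ} (h : 0 ≤ 1 - a ^ 2 * W + 2 * a * d) (hW : 2 * d + 1 ≤ W)
    (hd : 1 ≤ d) : a = 0 ∨ (a = 1 ∧ W = 2 * d + 1) := by
  rcases lt_trichotomy a 0 with ha | ha | ha
  · exfalso
    have h1 : (1 : ℤ) ≤ a ^ 2 := by nlinarith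
    nlinarith [mul_le_mul h1 (show (3 : ℤ) ≤ W by linarith) (by norm_num) (sq_nonneg a),
      mul_nonpos_of_nonpos_of_nonneg (show a ≤ 0 by linarith) (show (0 : ℤ) ≤ d by linarith)]
  · exact Or.inl ha
  · have h2 : 1 ≤ a * W - 2 * d := by
      nlinarith [mul_le_mul_of_nonneg_right (show (1 : ℤ) ≤ a by linarith) (show (0 : ℤ) ≤ W by linarith)]
    have h3 : a * (a * W - 2 * d) ≤ 1 := by nlinarith
    have h4 : a = 1 := by nlinarith [mul_le_mul_of_nonneg_left h2 (show (0 : ℤ) ≤ a by linarith)]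
    subst h4
    exact Or.inr ⟨rfl, by linarith⟩

variable {G : Type v} [Group G] [Fintype G] (L : Subgroup G) [Fintype L] (K : Subgroup L) [K.Normal]

/-- The degree ratio. -/
def dd (x : L → ℂ) : ℕ := degNat x / K.index

theorem apply_one_dd {A : Subgroup L} {x : L → ℂ} (h : x ∈ Cfsg.inducedIrrAbove K A) :
    x 1 = (K.index : ℂ) * (dd L K x : ℂ) ∧ 0 < dd L K x := by
  obtain ⟨m, hm0, hm⟩ := iia_degree K h
  have hd := degNat_eq (iia_isCharacter K h)
  have e : degNat x = K.index * m := by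
    rw [hm] at hd
    exact_mod_cast hd.symm
  have e' : dd L K x = m := by
    rw [dd, e, Nat.mul_div_cancel_left _ (Nat.pos_of_ne_zero Subgroup.index_ne_zero_of_finite)]
  rw [e', hm, Nat.cast_mul]
  exact ⟨rfl, hm0⟩

/-- The characters induced from those of `K` trivial on `A`, as a finite set. -/
def iiaF (A : Subgroup L) : Finset (L → ℂ) := (iia_finite K A).toFinset

theorem mem_iiaF {A : Subgroup L} {x : L → ℂ} : x ∈ iiaF L K A ↔ x ∈ Cfsg.inducedIrrAbove K A :=
  Set.Finite.mem_toFinset _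

theorem iiaF_mono {A B : Subgroup L} (h : A ≤ B) : iiaF L K B ⊆ iiaF L K A := fun _ hx =>
  (mem_iiaF L K).2 (iia_mono K h ((mem_iiaF L K).1 hx))

/-- The sum of the squared degree ratios. -/
theorem weight_dd (hC : ∀ n ∈ K, n ≠ 1 → Subgroup.centralizer ({n} : Set L) ≤ K) (A : Subgroup L)
    [A.Normal] : K.index * (∑ x ∈ iiaF L K A, dd L K x ^ 2) + 1 = A.relIndex K := by
  have h := sum_sq_div_norm K A (iiaF L K A) (Set.Finite.coe_toFinset _)
  have he : (K.index : ℂ) ≠ 0 := Nat.cast_ne_zero.2 Subgroup.index_ne_zero_of_finite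
  have hc : ∀ x ∈ iiaF L K A, x 1 ^ 2 / Cfsg.classInner x x =
      (K.index : ℂ) * ((K.index : ℂ) * ((dd L K x ^ 2 : ℕ) : ℂ)) := by
    intro x hx
    rw [mem_iiaF] at hx
    rw [(apply_one_dd L K hx).1]
    obtain ⟨θ, hθ, hne, -, rfl⟩ := hx
    rw [irr_self (indFun_irr_of_fpf K hC hθ hne), div_one]
    push_cast
    ring
  rw [Finset.sum_congr rfl hc, ← Finset.mul_sum, ← Finset.mul_sum, ← Nat.cast_sum] at h
  have h' := mul_left_cancel₀ he h
  rw [eq_sub_iff_add_eq] at h'
  exact_mod_cast h'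

/-- Coherence data on a finite set of induced characters. -/
structure IsCoh (S : Finset (L → ℂ)) (x₀ : L → ℂ) (ν : (L → ℂ) → (G → ℂ)) : Prop where
  sub : ∀ x ∈ S, x ∈ Cfsg.inducedIrrAbove K ⊥
  base_mem : x₀ ∈ S
  base_deg : dd L K x₀ = 1
  signed : ∀ x ∈ S, OddChar.IsSignedIrr (ν x)
  ortho : ∀ x ∈ S, ∀ y ∈ S, Cfsg.classInner (ν x) (ν y) = if x = y then 1 else 0
  rel : ∀ x ∈ S, ν x - (dd L K x : ℂ) • ν x₀ = Cfsg.indFun L (x - (dd L K x : ℂ) • x₀)

variable {L K}
variable (hC : ∀ n ∈ K, n ≠ 1 → Subgroup.centralizer ({n} : Set L) ≤ K) (hTI : KerTI L K)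

theorem supp_K {A : Subgroup L} {x : L → ℂ} (h : x ∈ Cfsg.inducedIrrAbove K A) {g : L} (hg : g ∉ K) :
    x g = 0 := by
  obtain ⟨θ, -, -, -, rfl⟩ := h
  exact indFun_normal_notMem K θ hg

theorem diff_supp {x y : L → ℂ} (hx : x ∈ Cfsg.inducedIrrAbove K ⊥) (hy : y ∈ Cfsg.inducedIrrAbove K ⊥)
    (hy1 : dd L K y = 1) (g : L) (hg : ¬ (g ∈ K ∧ g ≠ 1)) :
    (x - (dd L K x : ℂ) • y) g = 0 := by
  rcases not_and_or.1 hg with h | h
  · simp [supp_K hx h, supp_K hy h]
  · rw [not_not.1 h, Pi.sub_apply, Pi.smul_apply, smul_eq_mul, (apply_one_dd L K hx).1,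
      (apply_one_dd L K hy).1, hy1]
    push_cast
    ring

include hC in
theorem irr_of_iia {x : L → ℂ} (hx : x ∈ Cfsg.inducedIrrAbove K ⊥) : Cfsg.IsIrrCharacter L x := by
  obtain ⟨θ, hθ, hne, -, rfl⟩ := hx
  exact indFun_irr_of_fpf K hC hθ hne

include hC hTI in
/-- Inner products of the induced differences. -/
theorem diff_inner {x₀ x y : L → ℂ} (h0 : x₀ ∈ Cfsg.inducedIrrAbove K ⊥) (hd0 : dd L K x₀ = 1)
    (hx : x ∈ Cfsg.inducedIrrAbove K ⊥) (hy : y ∈ Cfsg.inducedIrrAbove K ⊥) :
    Cfsg.classInner (Cfsg.indFun L (x - (dd L K x : ℂ) • x₀))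
        (Cfsg.indFun L (y - (dd L K y : ℂ) • x₀)) =
      (if x = y then 1 else 0) - (dd L K y : ℂ) * (if x = x₀ then 1 else 0)
        - (dd L K x : ℂ) * (if x₀ = y then 1 else 0) + (dd L K x : ℂ) * (dd L K y : ℂ) := by
  have i0 := irr_of_iia hC h0
  have ix := irr_of_iia hC hx
  have iy := irr_of_iia hC hy
  have hcl : Cfsg.IsClassFunction L (y - (dd L K y : ℂ) • x₀) := fun g k => by
    simp only [Pi.sub_apply, Pi.smul_apply, Char.irr_isClassFunction iy g k,
      Char.irr_isClassFunction i0 g k]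
  rw [FrobData.ti_inner hTI hcl (diff_supp hx h0 hd0) (diff_supp hy h0 hd0)]
  simp only [CharInd.classInner_sub_left, CharInd.classInner_sub_right, CharInd.classInner_smul_left,
    CharInd.classInner_smul_right, irr_ortho ix iy, irr_ortho ix i0, irr_ortho i0 iy, irr_self i0,
    Complex.conj_natCast]
  ring

include hC hTI in
/-- Adding one character. -/
theorem IsCoh.extend {S : Finset (L → ℂ)} {x₀ : L → ℂ} {ν : (L → ℂ) → (G → ℂ)}
    (h : IsCoh L K S x₀ ν) {y : L → ℂ} (hy : y ∈ Cfsg.inducedIrrAbove K ⊥) (hyS : y ∉ S)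
    (hlt : 2 * dd L K y < ∑ x ∈ S, dd L K x ^ 2) :
    ∃ ν', IsCoh L K (insert y S) x₀ ν' := by
  have h0 := h.sub _ h.base_mem
  set W := ∑ x ∈ S, dd L K x ^ 2 with hW
  set β := Cfsg.indFun L (y - (dd L K y : ℂ) • x₀) with hβ
  have hu : ∀ z : L → ℂ, z ∈ Cfsg.inducedIrrAbove K ⊥ →
      Cfsg.IsGeneralizedCharacter L (z - (dd L K z : ℂ) • x₀) := by
    intro z hz
    refine isGen_sub (isGen_irr (irr_of_iia hC hz)) ?_
    rw [show ((dd L K z : ℂ) • x₀) = ((dd L K z : ℕ) : ℤ) • x₀ by
      rw [← Int.cast_smul_eq_zsmul ℂ, Int.cast_natCast]]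
    exact isGen_zsmul _ (isGen_irr (irr_of_iia hC h0))
  have hβgen : Cfsg.IsGeneralizedCharacter G β := genChar_indFun L (hu y hy)
  have hν0 := OddChar.signed_isGeneralized (h.signed _ h.base_mem)
  obtain ⟨a₀, ha₀⟩ := isGen_ci_int hβgen hν0
  set a : ℤ := a₀ + dd L K y with ha
  have hy0 : y ≠ x₀ := fun e => hyS (e ▸ h.base_mem)
  have hinner : ∀ x ∈ S, Cfsg.classInner β (ν x) =
      (dd L K x : ℂ) * (a : ℂ) - if x = x₀ then (dd L K y : ℂ) else 0 := by
    intro x hx
    by_cases hxe : x = x₀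
    · subst hxe
      rw [if_pos rfl, h.base_deg, ha₀, ha]
      push_cast
      ring
    · rw [if_neg hxe, sub_zero]
      have e : Cfsg.classInner β (ν x - (dd L K x : ℂ) • ν x₀) = (dd L K x : ℂ) * (dd L K y : ℂ) := by
        rw [h.rel x hx, hβ, diff_inner hC hTI h0 h.base_deg hy (h.sub x hx),
          if_neg (fun e => hyS (by rw [e]; exact hx)), if_neg hy0, if_neg (Ne.symm hxe)]
        ring
      rw [CharInd.classInner_sub_right, CharInd.classInner_smul_right, ha₀, Complex.conj_natCast,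
        sub_eq_iff_eq_add] at e
      rw [e, ha]
      push_cast
      ring
  set Δ := β + (dd L K y : ℂ) • ν x₀ - (a : ℂ) • ∑ x ∈ S, (dd L K x : ℂ) • ν x with hΔ
  have hΔν : ∀ z ∈ S, Cfsg.classInner Δ (ν z) = 0 := by
    intro z hz
    have e : Cfsg.classInner (∑ x ∈ S, (dd L K x : ℂ) • ν x) (ν z) = (dd L K z : ℂ) := by
      rw [ci_sum_left, Finset.sum_eq_single z]
      · rw [CharInd.classInner_smul_left, h.ortho z hz z hz, if_pos rfl, mul_one]
      · intro x hx hne
        rw [CharInd.classInner_smul_left, h.ortho x hx z hz, if_neg hne, mul_zero]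
      · exact fun h' => absurd hz h'
    rw [hΔ, CharInd.classInner_sub_left, CharInd.classInner_add_left, CharInd.classInner_smul_left,
      CharInd.classInner_smul_left, hinner z hz, h.ortho x₀ h.base_mem z hz, e]
    by_cases hze : z = x₀
    · subst hze; simp; ring
    · rw [if_neg hze, if_neg (Ne.symm hze)]; ring
  have hΔgen : Cfsg.IsGeneralizedCharacter G Δ := by
    refine isGen_sub (isGen_add hβgen ?_) ?_
    · rw [show ((dd L K y : ℂ) • ν x₀) = ((dd L K y : ℕ) : ℤ) • ν x₀ by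
        rw [← Int.cast_smul_eq_zsmul ℂ, Int.cast_natCast]]
      exact isGen_zsmul _ hν0
    · rw [Int.cast_smul_eq_zsmul ℂ a]
      refine isGen_zsmul _ (isGen_sum _ fun x hx => ?_)
      rw [show ((dd L K x : ℂ) • ν x) = ((dd L K x : ℕ) : ℤ) • ν x by
        rw [← Int.cast_smul_eq_zsmul ℂ, Int.cast_natCast]]
      exact isGen_zsmul _ (OddChar.signed_isGeneralized (h.signed x hx))
  -- the norm
  have hΔΔ : Cfsg.classInner Δ Δ = ((1 - a ^ 2 * (W : ℤ) + 2 * a * (dd L K y : ℤ) : ℤ) : ℂ) := by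
    have e1 : Cfsg.classInner Δ Δ = Cfsg.classInner Δ β := by
      nth_rw 2 [hΔ]
      rw [CharInd.classInner_sub_right, CharInd.classInner_add_right, CharInd.classInner_smul_right,
        CharInd.classInner_smul_right, hΔν _ h.base_mem, ci_sum_right,
        Finset.sum_eq_zero (fun x hx => by rw [CharInd.classInner_smul_right, hΔν x hx, mul_zero])]
      ring
    have e2 : Cfsg.classInner (ν x₀) β = (a : ℂ) - dd L K y := by
      rw [← CharInd.classInner_swap β (ν x₀), ha₀, map_intCast, ha]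
      push_cast; ring
    have e3 : ∀ x ∈ S, Cfsg.classInner ((dd L K x : ℂ) • ν x) β =
        ((dd L K x ^ 2 : ℕ) : ℂ) * (a : ℂ) - if x = x₀ then (dd L K y : ℂ) else 0 := by
      intro x hx
      rw [CharInd.classInner_smul_left, ← CharInd.classInner_swap β (ν x), hinner x hx, map_sub,
        map_mul, map_intCast, Complex.conj_natCast]
      by_cases hxe : x = x₀
      · subst hxe; rw [if_pos rfl, Complex.conj_natCast, h.base_deg]; push_cast; ring
      · rw [if_neg hxe, map_zero]; push_cast; ring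
    have e4 : Cfsg.classInner β β = 1 + (dd L K y : ℂ) ^ 2 := by
      rw [hβ, diff_inner hC hTI h0 h.base_deg hy hy, if_pos rfl, if_neg hy0, if_neg hy0.symm]
      ring
    rw [e1, hΔ, CharInd.classInner_sub_left, CharInd.classInner_add_left,
      CharInd.classInner_smul_left, CharInd.classInner_smul_left, ci_sum_left,
      Finset.sum_congr rfl e3, Finset.sum_sub_distrib, ← Finset.sum_mul, ← Nat.cast_sum, ← hW,
      Finset.sum_ite_eq' S x₀, if_pos h.base_mem, e2, e4]
    push_cast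
    ring
  have hnn : 0 ≤ 1 - a ^ 2 * (W : ℤ) + 2 * a * (dd L K y : ℤ) := by
    have := ci_self_re_nonneg Δ
    rw [hΔΔ, Complex.intCast_re] at this
    exact_mod_cast this
  have hW' : (2 : ℤ) * dd L K y + 1 ≤ W := by exact_mod_cast hlt
  have ha0 : a = 0 := by
    by_contra hne
    have h1 : a = 1 ∧ (W : ℤ) = 2 * dd L K y + 1 :=
      (int_norm_cases hnn hW' (by exact_mod_cast (apply_one_dd L K hy).2)).resolve_left hne
    have hz : Cfsg.classInner Δ Δ = 0 := by rw [hΔΔ, h1.1, h1.2]; push_cast; ring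
    have hΔ1 : Δ 1 = 0 := by rw [ci_self_eq_zero hz]; rfl
    have hν1 : ∀ x ∈ S, ν x 1 = (dd L K x : ℂ) * ν x₀ 1 := by
      intro x hx
      have := congrFun (h.rel x hx) 1
      rw [CharInd.indFun_one_eq_zero L (diff_supp (h.sub x hx) h0 h.base_deg 1 (fun h => h.2 rfl)),
        Pi.sub_apply, Pi.smul_apply, smul_eq_mul, sub_eq_zero] at this
      exact this
    rw [hΔ, h1.1, Pi.sub_apply, Pi.add_apply, hβ,
      CharInd.indFun_one_eq_zero L (diff_supp hy h0 h.base_deg 1 (fun h => h.2 rfl))] at hΔ1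
    simp only [Pi.smul_apply, smul_eq_mul, Finset.sum_apply, Int.cast_one, one_mul, zero_add] at hΔ1
    rw [Finset.sum_congr rfl (fun x hx => by rw [hν1 x hx, ← mul_assoc]), ← Finset.sum_mul,
      ← sub_mul, mul_eq_zero] at hΔ1
    have h2 := hΔ1.resolve_right (OddChar.signed_one_ne_zero (h.signed _ h.base_mem))
    rw [sub_eq_zero] at h2
    have hW2 : dd L K y = W := by
      rw [hW]
      apply Nat.cast_injective (R := ℂ)
      rw [h2]
      push_cast
      exact Finset.sum_congr rfl fun x _ => by ring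
    omega
  have hΔ1 : Cfsg.classInner Δ Δ = 1 := by rw [hΔΔ, ha0]; simp
  have hsig : OddChar.IsSignedIrr Δ := by
    obtain ⟨ε, ψ, hε, hψ, e⟩ := isGen_norm_one hΔgen hΔ1
    rw [e]
    rcases hε with rfl | rfl
    · exact Or.inl (by simpa using hψ)
    · exact Or.inr (by simpa using hψ)
  refine ⟨Function.update ν y Δ, ?_, Finset.mem_insert_of_mem h.base_mem, h.base_deg, ?_, ?_, ?_⟩
  · intro x hx
    rcases Finset.mem_insert.1 hx with rfl | hx
    exacts [hy, h.sub x hx]
  · intro x hx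
    rcases Finset.mem_insert.1 hx with rfl | hx
    · rwa [Function.update_self]
    · rw [Function.update_of_ne (fun e : x = y => hyS (e ▸ hx))]; exact h.signed x hx
  · intro x hx z hz
    rcases Finset.mem_insert.1 hx with hxy | hx' <;> rcases Finset.mem_insert.1 hz with hzy | hz'
    · subst hxy hzy; rw [Function.update_self, if_pos rfl, hΔ1]
    · have hne : z ≠ y := fun e => hyS (e ▸ hz')
      rw [hxy, Function.update_self, Function.update_of_ne hne, hΔν z hz', if_neg hne.symm]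
    · have hne : x ≠ y := fun e => hyS (e ▸ hx')
      rw [hzy, Function.update_self, Function.update_of_ne hne, ← CharInd.classInner_swap Δ (ν x),
        hΔν x hx', map_zero, if_neg hne]
    · rw [Function.update_of_ne (fun e : x = y => hyS (e ▸ hx')),
        Function.update_of_ne (fun e : z = y => hyS (e ▸ hz')), h.ortho x hx' z hz']
  · intro x hx
    rw [Function.update_of_ne hy0.symm]
    rcases Finset.mem_insert.1 hx with rfl | hx
    · rw [Function.update_self, hΔ, ha0, Int.cast_zero, zero_smul, sub_zero, add_sub_cancel_right]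
    · rw [Function.update_of_ne (fun e : x = y => hyS (e ▸ hx)), h.rel x hx]

include hC hTI in
/-- Adding a set of characters of small degree. -/
theorem IsCoh.extend_all {S : Finset (L → ℂ)} {x₀ : L → ℂ} {ν : (L → ℂ) → (G → ℂ)}
    (h : IsCoh L K S x₀ ν) (T : Finset (L → ℂ)) (hT : ∀ y ∈ T, y ∈ Cfsg.inducedIrrAbove K ⊥)
    (hlt : ∀ y ∈ T, y ∉ S → 2 * dd L K y < ∑ x ∈ S, dd L K x ^ 2) :
    ∃ ν', IsCoh L K (T ∪ S) x₀ ν' := by
  induction T using Finset.induction_on with
  | empty => exact ⟨ν, by rwa [Finset.empty_union]⟩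
  | insert y T hyT ih =>
    obtain ⟨ν', h'⟩ := ih (fun z hz => hT z (Finset.mem_insert_of_mem hz))
      (fun z hz => hlt z (Finset.mem_insert_of_mem hz))
    rw [Finset.insert_union]
    by_cases hy : y ∈ T ∪ S
    · exact ⟨ν', by rwa [Finset.insert_eq_self.2 hy]⟩
    · refine h'.extend hC hTI (hT y (Finset.mem_insert_self _ _)) hy ?_
      exact lt_of_lt_of_le (hlt y (Finset.mem_insert_self _ _) fun e => hy (Finset.mem_union_right _ e))
        (Finset.sum_le_sum_of_subset Finset.subset_union_right)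

include hC hTI in
/-- Characters of least degree. -/
theorem exists_coh_base [hn : Group.IsNilpotent K] (hbig : K.index + 1 < (⁅K, K⁆).relIndex K) :
    ∃ x₀ ν, IsCoh L K (iiaF L K ⁅K, K⁆) x₀ ν := by
  set S := iiaF L K ⁅K, K⁆ with hS
  have hd1 : ∀ x ∈ S, dd L K x = 1 := by
    intro x hx
    obtain ⟨θ, hθ, -, hk, rfl⟩ := (mem_iiaF L K).1 hx
    obtain ⟨μ, hμ, hμθ⟩ := Char.irr_exists_descend hθ ((⁅K, K⁆).subgroupOf K)
      (fun n hn => hk n (Subgroup.mem_subgroupOf.1 hn))
    have hcomm : ∀ a b : ↥K ⧸ (⁅K, K⁆).subgroupOf K, a * b = b * a := by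
      intro a b
      obtain ⟨a, rfl⟩ := QuotientGroup.mk_surjective a
      obtain ⟨b, rfl⟩ := QuotientGroup.mk_surjective b
      rw [← QuotientGroup.mk_mul, ← QuotientGroup.mk_mul, QuotientGroup.eq, Subgroup.mem_subgroupOf]
      have := Subgroup.commutator_mem_commutator (K.inv_mem b.2) (K.inv_mem a.2)
      simpa [commutatorElement_def, mul_assoc] using this
    have e := (apply_one_dd L K ((mem_iiaF L K).1 hx)).1
    rw [indFun_one_apply, hμθ 1, QuotientGroup.mk_one, Char.irr_degree_one_of_comm hcomm hμ,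
      mul_one] at e
    have e' : K.index * 1 = K.index * dd L K (Cfsg.indFun K θ) := by rw [mul_one]; exact_mod_cast e
    exact (Nat.eq_of_mul_eq_mul_left (Nat.pos_of_ne_zero Subgroup.index_ne_zero_of_finite) e').symm
  have hcard : K.index * S.card + 1 = (⁅K, K⁆).relIndex K := by
    rw [← weight_dd L K hC ⁅K, K⁆, Finset.card_eq_sum_ones, ← hS]
    congr 2
    exact Finset.sum_congr rfl fun x hx => by rw [hd1 x hx, one_pow]
  have h2 : 2 ≤ S.card := by
    by_contra hlt
    have : K.index * S.card ≤ K.index * 1 := Nat.mul_le_mul_left _ (by omega)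
    omega
  let f : Fin S.card → (L → ℂ) := fun i => (S.equivFin.symm i : L → ℂ)
  have hf : Function.Injective f := Subtype.val_injective.comp S.equivFin.symm.injective
  have hfS : ∀ i, f i ∈ S := fun i => (S.equivFin.symm i).2
  have hf0 : ∀ i, f i ∈ Cfsg.inducedIrrAbove K ⊥ := fun i =>
    iia_mono K bot_le ((mem_iiaF L K).1 (hfS i))
  let i₀ : Fin S.card := ⟨0, by omega⟩
  have hone : ∀ i, (dd L K (f i) : ℂ) = 1 := fun i => by rw [hd1 _ (hfS i), Nat.cast_one]
  obtain ⟨ε, hε, μ, hμ, hμinj, hτ⟩ := CharInd.coherence_gram (G := G) S.card i₀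
    (fun i => Cfsg.indFun L (f i - (dd L K (f i) : ℂ) • f i₀))
    (by simp only [hone, one_smul, sub_self, CharInd.indFun_zero])
    (fun i => genChar_indFun L (isGen_sub (isGen_irr (irr_of_iia hC (hf0 i))) (by
      rw [hone, one_smul]; exact isGen_irr (irr_of_iia hC (hf0 i₀)))))
    (fun i => CharInd.indFun_one_eq_zero L (diff_supp (hf0 i) (hf0 i₀) (hd1 _ (hfS i₀)) 1 fun h => h.2 rfl))
    (fun i j hi hj => by
      rw [diff_inner hC hTI (hf0 i₀) (hd1 _ (hfS i₀)) (hf0 i) (hf0 j), hone, hone,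
        if_neg (hf.ne hi), if_neg (hf.ne (Ne.symm hj))]
      by_cases hij : i = j
      · subst hij; rw [if_pos rfl, if_pos rfl]; norm_num
      · rw [if_neg (hf.ne hij), if_neg hij]; norm_num)
  let ν : (L → ℂ) → (G → ℂ) := fun x => if h : x ∈ S then ε • μ (S.equivFin ⟨x, h⟩) else 0
  have hν : ∀ i, ν (f i) = ε • μ i := fun i => by
    simp only [ν, dif_pos (hfS i)]
    congr 2
    exact S.equivFin.apply_symm_apply i
  have hsurj : ∀ x ∈ S, ∃ i, f i = x := fun x hx =>
    ⟨S.equivFin ⟨x, hx⟩, congrArg Subtype.val (S.equivFin.symm_apply_apply ⟨x, hx⟩)⟩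
  refine ⟨f i₀, ν, fun x hx => iia_mono K bot_le ((mem_iiaF L K).1 hx), hfS i₀, hd1 _ (hfS i₀),
    ?_, ?_, ?_⟩
  · intro x hx
    obtain ⟨i, rfl⟩ := hsurj x hx
    rw [hν]
    rcases hε with rfl | rfl
    · exact Or.inl (by simpa using hμ i)
    · exact Or.inr (by simpa using hμ i)
  · intro x hx y hy
    obtain ⟨i, rfl⟩ := hsurj x hx
    obtain ⟨j, rfl⟩ := hsurj y hy
    rw [hν, hν, CharInd.classInner_smul_left, CharInd.classInner_smul_right, irr_ortho (hμ i) (hμ j)]
    by_cases hij : i = j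
    · subst hij; rw [if_pos rfl, if_pos rfl]; rcases hε with rfl | rfl <;> simp
    · rw [if_neg (hμinj.ne hij), if_neg (hf.ne hij)]; ring
  · intro x hx
    obtain ⟨i, rfl⟩ := hsurj x hx
    rw [hν, hν, hone, one_smul, ← smul_sub, ← hτ i]
    simp only [hone, one_smul]

include hC in
/-- Normal subgroups in the kernel have order one modulo the index. -/
theorem card_modEq_one (Z : Subgroup L) [Z.Normal] (hZK : Z ≤ K) :
    Nat.card Z ≡ 1 [MOD K.index] := by
  letI act : MulAction L {z : L // z ∈ Z ∧ z ≠ 1} :=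
    { smul := fun x z => ⟨x * z.1 * x⁻¹, Subgroup.Normal.conj_mem inferInstance _ z.2.1 x,
        fun h => z.2.2 (conj_eq_one_iff.1 h)⟩
      one_smul := fun z => Subtype.ext (show (1 : L) * z.1 * 1⁻¹ = z.1 by simp)
      mul_smul := fun a b z => Subtype.ext (show a * b * z.1 * (a * b)⁻¹
        = a * (b * z.1 * b⁻¹) * a⁻¹ by simp [mul_assoc]) }
  have hstab : ∀ z : {z : L // z ∈ Z ∧ z ≠ 1}, MulAction.stabilizer L z ≤ K := by
    intro z x h
    rw [MulAction.mem_stabilizer_iff] at h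
    have h' : x * z.1 * x⁻¹ = z.1 := congrArg Subtype.val h
    refine hC z.1 (hZK z.2.1) z.2.2 ?_
    rw [Subgroup.mem_centralizer_iff]
    rintro u rfl
    nth_rw 1 [← h']
    group
  haveI : Finite (Quotient (MulAction.orbitRel L {z : L // z ∈ Z ∧ z ≠ 1})) := Quotient.finite _
  haveI := Fintype.ofFinite (Quotient (MulAction.orbitRel L {z : L // z ∈ Z ∧ z ≠ 1}))
  have hdvd : K.index ∣ Nat.card {z : L // z ∈ Z ∧ z ≠ 1} := by
    rw [Nat.card_congr (MulAction.selfEquivSigmaOrbits L _), Nat.card_sigma]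
    refine Finset.dvd_sum fun q _ => ?_
    rw [Nat.card_congr (MulAction.orbitEquivQuotientStabilizer L q.out)]
    exact Subgroup.index_dvd_of_le (hstab q.out)
  have hcard : Nat.card Z = Nat.card {z : L // z ∈ Z ∧ z ≠ 1} + 1 := by
    rw [Nat.card_eq_fintype_card, Nat.card_eq_fintype_card, Fintype.card_subtype, Fintype.card_subtype,
      ← Finset.card_erase_add_one (a := (1 : L)) (s := Finset.univ.filter fun z => z ∈ Z) (by simp)]
    congr 2
    ext z
    simp [and_comm]
  rw [hcard]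
  exact ((Nat.modEq_zero_iff_dvd.2 hdvd).add_right 1).trans (by rw [zero_add])

include hC in
theorem index_dvd_relIndex (A Z : Subgroup L) [A.Normal] [Z.Normal] (hAZ : A ≤ Z) (hZK : Z ≤ K) :
    A.relIndex Z ≡ 1 [MOD K.index] := by
  have h1 := card_modEq_one hC A (hAZ.trans hZK)
  have h2 := card_modEq_one hC Z hZK
  have e : Nat.card Z = Nat.card A * A.relIndex Z := by
    rw [Subgroup.relIndex, ← Nat.card_congr (Subgroup.subgroupOfEquivOfLe hAZ).toEquiv,
      Subgroup.card_mul_index]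
  rw [e] at h2
  calc A.relIndex Z = 1 * A.relIndex Z := (one_mul _).symm
    _ ≡ Nat.card A * A.relIndex Z [MOD K.index] := (h1.symm).mul_right _
    _ ≡ 1 [MOD K.index] := h2

/-- The degree bound from a central section. -/
theorem dd_sq_le (B C : Subgroup L) [B.Normal] (hBC : B ≤ C) (hCK : C ≤ K)
    (hcent : ∀ c ∈ C, ∀ k ∈ K, c * k * c⁻¹ * k⁻¹ ∈ B) {y : L → ℂ}
    (hy : y ∈ Cfsg.inducedIrrAbove K B) : dd L K y ^ 2 ≤ C.relIndex K := by
  have he := (apply_one_dd L K hy).1
  obtain ⟨θ, hθ, -, hk, rfl⟩ := hy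
  obtain ⟨f, -, hf⟩ := Char.irr_one_pos hθ
  rw [indFun_one_apply, hf] at he
  have hdf : dd L K (Cfsg.indFun K θ) = f := by
    have : K.index * f = K.index * dd L K (Cfsg.indFun K θ) := by exact_mod_cast he
    exact (Nat.eq_of_mul_eq_mul_left (Nat.pos_of_ne_zero Subgroup.index_ne_zero_of_finite) this).symm
  have hb := OddChar.degree_bound_central_section hθ (B.subgroupOf K) ⊤ (C.subgroupOf K)
    (fun x hx => hBC hx) le_top
    (fun c _ b hb => Subgroup.mem_subgroupOf.2 (by
      simpa using (inferInstance : B.Normal).conj_mem _ (Subgroup.mem_subgroupOf.1 hb) c))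
    (fun d hd c _ => Subgroup.mem_subgroupOf.2 (by
      simpa using hcent _ (Subgroup.mem_subgroupOf.1 hd) c c.2))
    (fun b hb => hk b (Subgroup.mem_subgroupOf.1 hb))
  rw [hf, Complex.norm_natCast, Nat.card_congr Subgroup.topEquiv.toEquiv] at hb
  have hb' : f ^ 2 * Nat.card K * Nat.card (C.subgroupOf K) ≤ Nat.card K ^ 2 := by exact_mod_cast hb
  have hcm : Nat.card (C.subgroupOf K) * C.relIndex K = Nat.card K := Subgroup.card_mul_index _
  rw [hdf]
  refine Nat.le_of_mul_le_mul_right (c := Nat.card K * Nat.card (C.subgroupOf K)) ?_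
    (Nat.mul_pos Nat.card_pos Nat.card_pos)
  calc f ^ 2 * (Nat.card K * Nat.card (C.subgroupOf K))
      = f ^ 2 * Nat.card K * Nat.card (C.subgroupOf K) := by ring
    _ ≤ Nat.card K ^ 2 := hb'
    _ = C.relIndex K * (Nat.card K * Nat.card (C.subgroupOf K)) := by
      nth_rw 1 [sq, ← hcm]; ring

include hC hTI in
/-- Coherence of the whole set. -/
theorem exists_coh [hn : Group.IsNilpotent K] (he : 3 ≤ K.index) (hK1 : K ≠ ⊥)
    (hbig : K.index + 1 < (⁅K, K⁆).relIndex K)
    (hcase : ⁅K, K⁆ = ⊥ ∨ 4 * K.index ^ 2 + 1 < (⁅K, K⁆).relIndex K ∨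
      ¬ ∃ p m : ℕ, p.Prime ∧ Nat.card K = p ^ m) :
    ∃ x₀ ν, IsCoh L K (iiaF L K ⊥) x₀ ν := by
  obtain ⟨x₀, ν₀, h₀⟩ := exists_coh_base hC hTI hbig
  refine ⟨x₀, ?_⟩
  set C0 := ⁅K, K⁆ with hC0
  have hC0K : C0 ≤ K := Subgroup.commutator_le_self K
  suffices H : ∀ n : ℕ, ∀ B : Subgroup L, B.Normal → B ≤ C0 → Nat.card C0 - Nat.card B = n →
      ∃ ν, IsCoh L K (iiaF L K B) x₀ ν from H _ ⊥ inferInstance bot_le rfl
  intro n
  induction n using Nat.strong_induction_on with
  | _ n ih =>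
    intro B hBn hBC hn'
    by_cases hBeq : B = C0
    · exact ⟨ν₀, hBeq ▸ h₀⟩
    haveI := hBn
    -- a minimal step
    obtain ⟨A, ⟨hAn, hBA, hAC⟩, hmin⟩ : ∃ A : Subgroup L, (A.Normal ∧ B < A ∧ A ≤ C0) ∧
        ∀ A' : Subgroup L, (A'.Normal ∧ B < A' ∧ A' ≤ C0) → Nat.card A ≤ Nat.card A' := by
      obtain ⟨A, hA, hmin⟩ := Finset.exists_min_image
        (Finset.univ.filter fun A : Subgroup L => A.Normal ∧ B < A ∧ A ≤ C0) (fun A => Nat.card A)
        ⟨C0, Finset.mem_filter.2 ⟨Finset.mem_univ _, inferInstance, lt_of_le_of_ne hBC hBeq, le_rfl⟩⟩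
      exact ⟨A, (Finset.mem_filter.1 hA).2, fun A' hA' => hmin A' (Finset.mem_filter.2 ⟨Finset.mem_univ _, hA'⟩)⟩
    haveI := hAn
    have hBK : B ≤ K := hBC.trans hC0K
    have hAK : A ≤ K := hAC.trans hC0K
    haveI : (B.subgroupOf K).Normal := inferInstance
    -- centrality
    set q := QuotientGroup.mk' B with hq
    set Z : Subgroup L := (Subgroup.centralizer ((K.map q : Subgroup _) : Set (L ⧸ B))).comap q ⊓ K
      with hZdef
    haveI : (K.map q).Normal := Subgroup.Normal.map inferInstance q (QuotientGroup.mk'_surjective B)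
    haveI hZn : Z.Normal := inferInstance
    have hZK : Z ≤ K := inf_le_right
    have hmemZ : ∀ z, z ∈ Z ↔ z ∈ K ∧ ∀ k ∈ K, z * k * z⁻¹ * k⁻¹ ∈ B := by
      intro z
      simp only [hZdef, Subgroup.mem_inf, Subgroup.mem_comap, Subgroup.mem_centralizer_iff,
        SetLike.mem_coe, Subgroup.mem_map, forall_exists_index, and_imp]
      rw [and_comm]
      refine and_congr_right fun _ => ⟨fun h k hk => ?_, fun h y k hk hky => ?_⟩
      · rw [← QuotientGroup.eq_one_iff]
        have := h _ k hk rfl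
        simp only [hq, QuotientGroup.mk'_apply] at this
        simp only [QuotientGroup.mk_mul, QuotientGroup.mk_inv, ← this, mul_inv_cancel_right,
          mul_inv_cancel]
      · subst hky
        have := (QuotientGroup.eq_one_iff _).2 (h k hk)
        simp only [QuotientGroup.mk_mul, QuotientGroup.mk_inv, mul_inv_eq_one] at this
        simp only [hq, QuotientGroup.mk'_apply]
        exact (mul_inv_eq_iff_eq_mul.1 this).symm
    have hBZ : B ≤ Z := fun b hb => (hmemZ b).2 ⟨hBK hb, fun k _ => by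
      rw [show b * k * b⁻¹ * k⁻¹ = b * (k * b⁻¹ * k⁻¹) by group]
      exact B.mul_mem hb (hBn.conj_mem _ (B.inv_mem hb) k)⟩
    have hAZ : A ≤ Z := by
      have hnq : Group.IsNilpotent (↥K ⧸ B.subgroupOf K) := inferInstance
      by_contra hcon
      have hsub : ⁅A, K⁆ ⊔ B ≤ A := sup_le (Subgroup.commutator_le_left A K) hBA.le
      by_cases hBe : ⁅A, K⁆ ⊔ B = B
      · refine hcon fun a ha => (hmemZ a).2 ⟨hAK ha, fun k hk => ?_⟩
        rw [← hBe]
        exact Subgroup.mem_sup_left (Subgroup.commutator_mem_commutator ha hk)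
      · have hle := hmin (⁅A, K⁆ ⊔ B) ⟨inferInstance, lt_of_le_of_ne le_sup_right (Ne.symm hBe),
          hsub.trans hAC⟩
        have heq := Subgroup.eq_of_le_of_card_ge hsub hle
        exact hBA.2 (le_of_le_commutator_sup B K A hnq hBK hAK heq.symm.le)
    -- the characters trivial on `A`
    have hcardlt : Nat.card B < Nat.card A :=
      Nat.lt_of_le_of_ne (Subgroup.card_le_of_le hBA.le)
        fun e => hBA.ne (Subgroup.eq_of_le_of_card_ge hBA.le e.ge)
    obtain ⟨ν, hν⟩ := ih (Nat.card C0 - Nat.card A)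
      (by have := Subgroup.card_le_of_le hAC; omega) A hAn hAC rfl
    have hsub : iiaF L K A ⊆ iiaF L K B := iiaF_mono L K hBA.le
    suffices hsmall : ∀ y ∈ iiaF L K B, y ∉ iiaF L K A →
        2 * dd L K y < ∑ x ∈ iiaF L K A, dd L K x ^ 2 by
      obtain ⟨ν', h'⟩ := hν.extend_all hC hTI (iiaF L K B)
        (fun y hy => iia_mono K bot_le ((mem_iiaF L K).1 hy)) hsmall
      exact ⟨ν', by rwa [Finset.union_eq_left.2 hsub] at h'⟩
    intro y hy _
    have hyd := dd_sq_le B Z hBZ hZK (fun c hc k hk => ((hmemZ c).1 hc).2 k hk) ((mem_iiaF L K).1 hy)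
    have hmul : A.relIndex Z * Z.relIndex K = A.relIndex K := Subgroup.relIndex_mul_relIndex A Z K hAZ hZK
    have hw := weight_dd L K hC A
    have hZ1 : Z ≠ K := by
      intro e
      refine hBeq (le_antisymm hBC ?_)
      rw [hC0, Subgroup.commutator_le]
      intro g hg k hk
      exact ((hmemZ g).1 (e ▸ hg)).2 k hk
    have hx0 : C0.relIndex K ≤ A.relIndex K :=
      Nat.le_of_dvd (Nat.pos_of_ne_zero Subgroup.index_ne_zero_of_finite)
        (Subgroup.relIndex_dvd_of_le_left K hAC)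
    -- arithmetic
    set W := ∑ x ∈ iiaF L K A, dd L K x ^ 2
    set e := K.index
    set d := dd L K y
    rcases hcase with h | h | h
    · exact absurd (le_antisymm hBC (by rw [h]; exact bot_le)) hBeq
    · have hxpos : 0 < A.relIndex Z := Nat.pos_of_ne_zero Subgroup.index_ne_zero_of_finite
      have hle : d ^ 2 ≤ A.relIndex K := hyd.trans (hmul ▸ Nat.le_mul_of_pos_left _ hxpos)
      by_contra hcon
      push Not at hcon
      have h1 : e * W ≤ e * (2 * d) := Nat.mul_le_mul_left e hcon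
      have h3 : (e * W) ^ 2 ≤ 4 * e ^ 2 * (e * W + 1) := by
        calc (e * W) ^ 2 ≤ (e * (2 * d)) ^ 2 := Nat.pow_le_pow_left h1 2
          _ = 4 * e ^ 2 * d ^ 2 := by ring
          _ ≤ 4 * e ^ 2 * A.relIndex K := Nat.mul_le_mul_left _ hle
          _ = 4 * e ^ 2 * (e * W + 1) := by rw [hw]
      nlinarith
    · -- two primes
      have hZA : e + 1 ≤ A.relIndex Z := by
        have hm := index_dvd_relIndex hC A Z hAZ hZK
        have hne : A.relIndex Z ≠ 1 := by
          intro h1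
          have hZA' : Z ≤ A := Subgroup.relIndex_eq_one.1 h1
          obtain ⟨a, haA, haB⟩ := SetLike.exists_of_lt hBA
          set Q := ↥K ⧸ B.subgroupOf K
          obtain ⟨p, hp, hpd⟩ := Nat.exists_prime_and_dvd (n := Nat.card K)
            (fun e' => hK1 (Subgroup.eq_bot_of_card_eq K e'))
          -- every element of `A` is killed by one prime power modulo `B`
          obtain ⟨r, hr, hrA⟩ : ∃ r : ℕ, r.Prime ∧ ∀ z ∈ A, z ^ r ∈ B := by
            have ho : orderOf ((a : L ⧸ B)) ≠ 1 := fun e' =>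
              haB ((QuotientGroup.eq_one_iff a).1 (orderOf_eq_one_iff.1 e'))
            obtain ⟨r, hr, hrd⟩ := Nat.exists_prime_and_dvd ho
            let R : Subgroup L :=
              { carrier := {z | z ∈ A ∧ z ^ r ∈ B}
                one_mem' := ⟨A.one_mem, by simp⟩
                mul_mem' := fun {u w} hu hw => ⟨A.mul_mem hu.1 hw.1, by
                  rw [← QuotientGroup.eq_one_iff] at *
                  have hc : Commute (u : L ⧸ B) (w : L ⧸ B) := by
                    have h' := (QuotientGroup.eq_one_iff _).2 (((hmemZ u).1 (hAZ hu.1)).2 w (hAK hw.1))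
                    simp only [QuotientGroup.mk_mul, QuotientGroup.mk_inv, mul_inv_eq_one] at h'
                    exact mul_inv_eq_iff_eq_mul.1 h'
                  have hu2 := (QuotientGroup.eq_one_iff _).2 hu.2
                  have hw2 := (QuotientGroup.eq_one_iff _).2 hw.2
                  simp only [QuotientGroup.mk_pow, QuotientGroup.mk_mul] at hu2 hw2 ⊢
                  rw [hc.mul_pow, hu2, hw2, one_mul]⟩
                inv_mem' := fun {u} hu => ⟨A.inv_mem hu.1, by rw [inv_pow]; exact B.inv_mem hu.2⟩ }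
            haveI hRn : R.Normal := ⟨fun z hz g => ⟨hAn.conj_mem z hz.1 g, by
              rw [conj_pow]; exact hBn.conj_mem _ hz.2 g⟩⟩
            have hBR : B < R := by
              refine lt_of_le_of_ne (fun b hb => ⟨hBA.le hb, B.pow_mem hb r⟩) fun e' => ?_
              set m := orderOf (a : L ⧸ B) / r with hm'
              have hmem : a ^ m ∈ R := ⟨A.pow_mem haA m, by
                rw [← pow_mul, ← QuotientGroup.eq_one_iff, QuotientGroup.mk_pow, hm',
                  Nat.div_mul_cancel hrd, pow_orderOf_eq_one]⟩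
              rw [← e', ← QuotientGroup.eq_one_iff, QuotientGroup.mk_pow,
                ← orderOf_dvd_iff_pow_eq_one] at hmem
              have hpos : 0 < m := Nat.div_pos (Nat.le_of_dvd (orderOf_pos _) hrd) hr.pos
              have hlt : m < orderOf (a : L ⧸ B) := Nat.div_lt_self (orderOf_pos _) hr.one_lt
              exact absurd (Nat.le_of_dvd hpos hmem) (by omega)
            have hRA := Subgroup.eq_of_le_of_card_ge (show R ≤ A from fun z hz => hz.1)
              (hmin R ⟨hRn, hBR, fun z hz => hAC hz.1⟩)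
            exact ⟨r, hr, fun z hz => (hRA ▸ hz : z ∈ R).2⟩
          -- a central element of another prime order
          obtain ⟨s, hs, hsd, hsr⟩ : ∃ s : ℕ, s.Prime ∧ s ∣ Nat.card K ∧ s ≠ r := by
            by_contra hno
            push Not at hno
            exact h ⟨r, _, hr, Nat.eq_prime_pow_of_unique_prime_dvd Nat.card_pos.ne' (fun hd hdd =>
              hno _ hd hdd)⟩
          have hsQ : s ∣ Nat.card Q := by
            have h1 := prime_dvd_commutator_index (Q := ↥K) hs hsd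
            refine h1.trans ?_
            show (commutator ↥K).index ∣ (B.subgroupOf K).index
            refine Subgroup.index_dvd_of_le fun k hk => ?_
            have hmap : (commutator ↥K).map K.subtype = C0 := by
              rw [hC0, commutator_def, Subgroup.map_commutator, ← MonoidHom.range_eq_map,
                Subgroup.range_subtype]
            obtain ⟨k', hk', e'⟩ : (k : L) ∈ (commutator ↥K).map K.subtype := by
              rw [hmap]; exact hBC (Subgroup.mem_subgroupOf.1 hk)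
            rwa [← Subtype.ext e']
          obtain ⟨x, hxc, hxo⟩ := exists_central_of_prime (Q := Q) hs hsQ
          obtain ⟨z, rfl⟩ := QuotientGroup.mk_surjective x
          have hzZ : (z : L) ∈ Z := (hmemZ _).2 ⟨z.2, fun k hk => by
            have h' := Subgroup.mem_center_iff.1 hxc ((⟨k, hk⟩ : K) : Q)
            rw [← QuotientGroup.mk_mul, ← QuotientGroup.mk_mul, QuotientGroup.eq,
              Subgroup.mem_subgroupOf] at h'
            simp only [Subgroup.coe_mul, Subgroup.coe_inv] at h'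
            have h'' := hBn.conj_mem _ h' (k * (z : L))
            simpa [mul_assoc] using h''⟩
          have hzr : (z : Q) ^ r = 1 := by
            rw [← QuotientGroup.mk_pow, QuotientGroup.eq_one_iff, Subgroup.mem_subgroupOf,
              Subgroup.coe_pow]
            exact hrA _ (hZA' hzZ)
          rw [← orderOf_dvd_iff_pow_eq_one, hxo] at hzr
          exact hsr ((Nat.prime_dvd_prime_iff_eq hs hr).1 hzr)
        have hne0 : A.relIndex Z ≠ 0 := Subgroup.index_ne_zero_of_finite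
        have hd' := (Nat.modEq_iff_dvd' (show 1 ≤ A.relIndex Z by omega)).1 hm.symm
        have := Nat.le_of_dvd (show 0 < A.relIndex Z - 1 by omega) hd'
        omega
      have hKZ : e + 1 ≤ Z.relIndex K := by
        have hm := index_dvd_relIndex hC Z K hZK le_rfl
        have hne0 : Z.relIndex K ≠ 0 := Subgroup.index_ne_zero_of_finite
        have hne1 : Z.relIndex K ≠ 1 := fun e' => hZ1 (le_antisymm hZK (Subgroup.relIndex_eq_one.1 e'))
        have hd' := (Nat.modEq_iff_dvd' (show 1 ≤ Z.relIndex K by omega)).1 hm.symm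
        have := Nat.le_of_dvd (show 0 < Z.relIndex K - 1 by omega) hd'
        omega
      by_contra hcon
      push Not at hcon
      have h1 : e * W ≤ e * (2 * d) := Nat.mul_le_mul_left e hcon
      have h2 : (e + 1) * (e + 1) ≤ e * W + 1 := by
        rw [hw, ← hmul]; exact Nat.mul_le_mul hZA hKZ
      have h3 : (e + 1) * d ^ 2 ≤ e * W + 1 := by
        rw [hw, ← hmul]; exact Nat.mul_le_mul hZA hyd
      have h4 : (e + 1) * (e * W) ^ 2 ≤ 4 * e ^ 2 * (e * W + 1) := by
        calc (e + 1) * (e * W) ^ 2 ≤ (e + 1) * (e * (2 * d)) ^ 2 :=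
              Nat.mul_le_mul_left _ (Nat.pow_le_pow_left h1 2)
          _ = 4 * e ^ 2 * ((e + 1) * d ^ 2) := by ring
          _ ≤ 4 * e ^ 2 * (e * W + 1) := Nat.mul_le_mul_left _ h3
      have hx : e * e + 2 * e ≤ e * W := by nlinarith
      nlinarith [Nat.mul_le_mul_left ((e + 1) * (e * W)) hx]

include hC in
/-- A kernel that is not of prime power order has a large abelian quotient. -/
theorem big_of_two_primes [hn : Group.IsNilpotent K]
    (h : ¬ ∃ p m : ℕ, p.Prime ∧ Nat.card K = p ^ m) : K.index + 1 < (⁅K, K⁆).relIndex K := by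
  obtain ⟨q, hq, hqd⟩ := Nat.exists_prime_and_dvd (n := Nat.card K)
    (fun e => h ⟨2, 0, Nat.prime_two, by rw [e, pow_zero]⟩)
  obtain ⟨s, hs, hsd, hsq⟩ : ∃ s : ℕ, s.Prime ∧ s ∣ Nat.card K ∧ s ≠ q := by
    by_contra hno
    push Not at hno
    exact h ⟨q, _, hq, Nat.eq_prime_pow_of_unique_prime_dvd Nat.card_pos.ne' (fun hd hdd =>
      hno _ hd hdd)⟩
  set C0 := ⁅K, K⁆
  have hC0K : C0 ≤ K := Subgroup.commutator_le_self K
  have hmap : (commutator ↥K).map K.subtype = C0 := by
    rw [commutator_def, Subgroup.map_commutator, ← MonoidHom.range_eq_map, Subgroup.range_subtype]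
  have hidx : C0.relIndex K = (commutator ↥K).index := by
    rw [Subgroup.relIndex, ← hmap, Subgroup.subgroupOf,
      Subgroup.comap_map_eq_self_of_injective K.subtype_injective]
  have hqi := prime_dvd_commutator_index (Q := ↥K) hq hqd
  have hsi := prime_dvd_commutator_index (Q := ↥K) hs hsd
  let U : Subgroup L :=
    { carrier := {z | z ∈ K ∧ z ^ q ∈ C0}
      one_mem' := ⟨K.one_mem, by simp⟩
      mul_mem' := fun {u w} hu hw => ⟨K.mul_mem hu.1 hw.1, by
        rw [← QuotientGroup.eq_one_iff] at *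
        have hc : Commute (u : L ⧸ C0) (w : L ⧸ C0) := by
          show ((u * w : L) : L ⧸ C0) = ((w * u : L) : L ⧸ C0)
          rw [QuotientGroup.eq]
          have := Subgroup.commutator_mem_commutator (K.inv_mem hw.1) (K.inv_mem hu.1)
          simpa [commutatorElement_def, mul_assoc] using this
        have hu2 := (QuotientGroup.eq_one_iff _).2 hu.2
        have hw2 := (QuotientGroup.eq_one_iff _).2 hw.2
        simp only [QuotientGroup.mk_pow, QuotientGroup.mk_mul] at hu2 hw2 ⊢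
        rw [hc.mul_pow, hu2, hw2, one_mul]⟩
      inv_mem' := fun {u} hu => ⟨K.inv_mem hu.1, by rw [inv_pow]; exact C0.inv_mem hu.2⟩ }
  haveI hUn : U.Normal := ⟨fun z hz g => ⟨(inferInstance : K.Normal).conj_mem z hz.1 g, by
    rw [conj_pow]; exact (inferInstance : C0.Normal).conj_mem _ hz.2 g⟩⟩
  have hUK : U ≤ K := fun z hz => hz.1
  have hCU : C0 ≤ U := fun z hz => ⟨hC0K hz, C0.pow_mem hz q⟩
  haveI := Fact.mk hq
  haveI := Fact.mk hs
  obtain ⟨a, ha⟩ := exists_prime_orderOf_dvd_card' (G := ↥K ⧸ commutator ↥K) q hqi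
  obtain ⟨b, hb⟩ := exists_prime_orderOf_dvd_card' (G := ↥K ⧸ commutator ↥K) s hsi
  obtain ⟨a, rfl⟩ := QuotientGroup.mk_surjective a
  obtain ⟨b, rfl⟩ := QuotientGroup.mk_surjective b
  have hmem : ∀ k : K, (k : L) ∈ C0 ↔ (k : ↥K ⧸ commutator ↥K) = 1 := fun k => by
    rw [QuotientGroup.eq_one_iff, ← hmap]
    exact ⟨fun ⟨k', hk', e⟩ => by rwa [← Subtype.ext e], fun hk => ⟨k, hk, rfl⟩⟩
  have haU : (a : L) ∈ U := ⟨a.2, by
    rw [← Subgroup.coe_pow, hmem, QuotientGroup.mk_pow, ← ha, pow_orderOf_eq_one]⟩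
  have hbU : (b : L) ∉ U := fun hb' => hsq (by
    have h1 := hb'.2
    rw [← Subgroup.coe_pow, hmem, QuotientGroup.mk_pow, ← orderOf_dvd_iff_pow_eq_one, hb] at h1
    exact (Nat.prime_dvd_prime_iff_eq hs hq).1 h1)
  have h1 : C0.relIndex U ≠ 1 := fun e => hq.ne_one (by
    have := (hmem a).1 (Subgroup.relIndex_eq_one.1 e haU)
    rw [← ha, this, orderOf_one])
  have h2 : U.relIndex K ≠ 1 := fun e => hbU (Subgroup.relIndex_eq_one.1 e b.2)
  have h3 : U.relIndex K ≠ 0 := Subgroup.index_ne_zero_of_finite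
  have h4 : C0.relIndex U ≠ 0 := Subgroup.index_ne_zero_of_finite
  have hd := (Nat.modEq_iff_dvd' (show 1 ≤ C0.relIndex U by omega)).1
    (index_dvd_relIndex hC C0 U hCU hUK).symm
  have h5 := Nat.le_of_dvd (show 0 < C0.relIndex U - 1 by omega) hd
  rw [← Subgroup.relIndex_mul_relIndex C0 U K hCU hUK]
  have h6 : 2 * (K.index + 1) ≤ C0.relIndex U * U.relIndex K := by
    rw [mul_comm 2]; exact Nat.mul_le_mul (by omega) (by omega)
  omega

include hC hTI in
/-- Coherence when the point stabiliser has odd order. -/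
theorem exists_coh_odd [hn : Group.IsNilpotent K] (hodd : Odd (Nat.card L)) (hK1 : K ≠ ⊥)
    (hKL : K < ⊤) (hN : Subgroup.normalizer (K.map L.subtype : Set G) = L) :
    ∃ x₀ ν, IsCoh L K (iiaF L K ⊥) x₀ ν := by
  obtain ⟨-, τ, hτ, hτα⟩ := frob_ti_coherent L K hn hodd hK1 hKL hC hTI hN
  have hτ' : Cfsg.IsLinearIsometryOn ((Submodule.span ℤ (Cfsg.inducedIrrAbove K ⊥) :
      Submodule ℤ (L → ℂ)) : Set (L → ℂ)) τ := hτ
  have hsolv : Group.IsSolvable K := inferInstance
  obtain ⟨x₀, hx₀, hx₀1⟩ := iia_nonempty K hsolv ⊥ (bot_lt_iff_ne_bot.2 hK1)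
  have hb : dd L K x₀ = 1 := by
    have := (apply_one_dd L K hx₀).1
    rw [hx₀1] at this
    have h' : K.index * 1 = K.index * dd L K x₀ := by rw [mul_one]; exact_mod_cast this
    exact (Nat.eq_of_mul_eq_mul_left (Nat.pos_of_ne_zero Subgroup.index_ne_zero_of_finite) h').symm
  have mS : ∀ x, x ∈ Cfsg.inducedIrrAbove K ⊥ → x ∈ Submodule.span ℤ (Cfsg.inducedIrrAbove K ⊥) :=
    fun x h => Submodule.subset_span h
  refine ⟨x₀, τ, fun x hx => (mem_iiaF L K).1 hx, (mem_iiaF L K).2 hx₀, hb, ?_, ?_, ?_⟩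
  · intro x hx
    rw [mem_iiaF] at hx
    obtain ⟨ε, ψ, hε, hψ, e⟩ := isGen_norm_one (iso_gen hτ' (mS x hx))
      (by rw [iso_inner hτ' (mS x hx) (mS x hx), irr_self (irr_of_iia hC hx)])
    rw [e]
    rcases hε with rfl | rfl
    · exact Or.inl (by simpa using hψ)
    · exact Or.inr (by simpa using hψ)
  · intro x hx y hy
    rw [mem_iiaF] at hx hy
    rw [iso_inner hτ' (mS x hx) (mS y hy), irr_ortho (irr_of_iia hC hx) (irr_of_iia hC hy)]
  · intro x hx
    rw [mem_iiaF] at hx
    have e : ∀ {X : Type v} (f : X → ℂ), (dd L K x : ℂ) • f = (dd L K x : ℤ) • f := fun f => by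
      rw [← Int.cast_smul_eq_zsmul ℂ, Int.cast_natCast]
    rw [e, e, ← iso_zsmul hτ' (mS x₀ hx₀), ← iso_sub hτ' (mS x hx) (Submodule.smul_mem _ _ (mS x₀ hx₀))]
    refine hτα _ (mem_zspanOn_one.2 ⟨sub_mem (mS x hx) (Submodule.smul_mem _ _ (mS x₀ hx₀)), ?_⟩)
    rw [← e]
    exact diff_supp hx hx₀ hb 1 fun h => h.2 rfl

end Cfsg.Agent.CharDeep
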