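import Mathlib
import Cfsg.Agent.CharDeep.AbelianBound
import Cfsg.Agent.CharDeep.SmallDegree
import Cfsg.Agent.S0185

/-!
# Feit–Thompson–Blichfeldt: small degree forces a normal Sylow subgroup
-/

set_option autoImplicit false
set_option linter.style.haveILetI false

noncomputable section

namespace Cfsg.Agent.CharDeep

universe u

variable {G : Type u} [Group G] {p : ℕ}

/-- Normality of all Sylow subgroups passes through an isomorphism. -/
theorem sylow_normal_of_mulEquiv {K K' : Type*} [Group K] [Group K'] (e : K ≃* K')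
    (h : ∀ Q : Sylow p K, (Q : Subgroup K).Normal) (Q : Sylow p K') :
    (Q : Subgroup K').Normal := by
  have hle : ∀ x : K', x ∈ e.toMonoidHom.range := fun x => ⟨e.symm x, e.apply_symm_apply x⟩
  let Q₀ : Sylow p K := Q.comapOfInjective e.toMonoidHom e.injective (fun x _ => hle x)
  have hn : ((Q : Subgroup K').comap e.toMonoidHom).Normal := h Q₀
  have := hn.map e.toMonoidHom e.surjective
  rwa [Subgroup.map_comap_eq_self_of_surjective e.surjective] at this

theorem sylow_le_of_normal [Finite G] [Fact p.Prime] {Q : Sylow p G} (hQ : (Q : Subgroup G).Normal)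
    {S : Subgroup G} (hS : IsPGroup p S) : S ≤ Q := by
  obtain ⟨Q', hQ'⟩ := hS.exists_le_sylow
  haveI := Sylow.unique_of_normal Q hQ
  exact (Subsingleton.elim Q' Q) ▸ hQ'

theorem normal_sylow_of_small_degree (m : ℕ) :
    ∀ {G : Type u} [Group G] [Finite G] [Fact p.Prime], Nat.card G = m → ∀ χ : G → ℂ,
      Cfsg.IsCharacter G χ → (∀ g, χ g = χ 1 → g = 1) → ∀ n : ℕ, χ 1 = n →
      ((n + 1) ^ 2 ≤ p ∨ (n + 1 < p ∧ ∀ K : Subgroup G, ¬ p ^ 2 ∣ Nat.card K →
        ∀ Q : Sylow p K, (Q : Subgroup K).Normal)) →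
      ∀ P : Sylow p G, (P : Subgroup G).Normal := by
  induction m using Nat.strong_induction_on with
  | _ m ih =>
  intro G _ _ hp hm χ hχ hfaith n hn hyp P
  classical
  letI := Fintype.ofFinite G
  by_contra hPn
  have hnp : n + 1 < p := by
    rcases hyp with h | h
    · rcases Nat.eq_zero_or_pos n with h0 | h0
      · subst h0; simpa using hp.out.one_lt
      · nlinarith
    · exact h.1
  -- proper subgroups
  have hsub : ∀ K : Subgroup G, K ≠ ⊤ → ∀ Q : Sylow p K, (Q : Subgroup K).Normal := by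
    intro K hK Q
    have hlt : Nat.card K < m := by
      subst hm
      exact lt_of_le_of_ne (Subgroup.card_le_card_group K)
        fun h => hK (Subgroup.eq_top_of_card_eq K h)
    refine ih _ hlt rfl (fun k => χ k) (CharInd.isCharacter_res K hχ)
      (fun k hk => Subtype.ext (hfaith k hk)) n hn ?_ Q
    refine hyp.imp_right fun h => ⟨h.1, fun K' hK' Q' => ?_⟩
    let e : K' ≃* (K'.map K.subtype) := Subgroup.equivMapOfInjective K' K.subtype K.subtype_injective
    exact sylow_normal_of_mulEquiv e.symm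
      (h.2 _ (by rwa [← Nat.card_congr e.toEquiv])) Q'
  -- abelian Sylow subgroups
  obtain ⟨l, ρ, hρ⟩ := id hχ
  have hρinj : Function.Injective ρ := by
    refine (injective_iff_map_eq_one ρ).2 fun g hg => hfaith g ?_
    rw [← hρ]
    show LinearMap.trace ℂ _ (ρ g) = LinearMap.trace ℂ _ (ρ 1)
    rw [hg, map_one ρ]
  have hl : l = n := by
    have := congrFun hρ 1
    rw [ρ.char_one, hn, Module.finrank_fintype_fun_eq_card, Fintype.card_fin] at this
    exact_mod_cast this
  have habel : ∀ S : Sylow p G, ∀ a ∈ (S : Subgroup G), ∀ b ∈ (S : Subgroup G),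
      a * b = b * a := by
    intro S a ha b hb
    have h := Cfsg.Agent.S0185.result (G := (S : Subgroup G)) (ρ.comp (S : Subgroup G).subtype)
      (hρinj.comp Subtype.coe_injective) (fun q hq hqd => by
        have hqp : q = p := by
          obtain ⟨k, hk⟩ := IsPGroup.iff_card.1 S.isPGroup'
          rw [hk] at hqd
          exact (Nat.prime_dvd_prime_iff_eq hq hp.out).1 (hq.dvd_of_dvd_pow hqd)
        rw [Module.finrank_fintype_fun_eq_card, Fintype.card_fin, hl, hqp]
        omega) ⟨a, ha⟩ ⟨b, hb⟩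
    exact congrArg Subtype.val h
  -- no proper normal subgroup contains `P`
  have hclos : ∀ M : Subgroup G, M.Normal → (P : Subgroup G) ≤ M → M = ⊤ := by
    intro M hM hPM
    by_contra hMtop
    apply hPn
    let Q : Sylow p M := P.subtype hPM
    haveI := hsub M hMtop Q
    haveI := hM
    haveI : (Q : Subgroup M).Characteristic := Q.characteristic_of_normal inferInstance
    have h := ConjAct.normal_of_characteristic_of_normal (H := M) (K := (Q : Subgroup M))
    rwa [Sylow.coe_subtype, Subgroup.subgroupOf_map_subtype, inf_of_le_left hPM] at h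
  -- the centre meets `P` trivially
  have hZ : (P : Subgroup G) ⊓ Subgroup.center G = ⊥ := by
    by_contra hne
    obtain ⟨z, hz, hz1⟩ := (Subgroup.bot_or_exists_ne_one _).resolve_left hne
    apply hPn
    letI : CommGroup (P : Subgroup G) :=
      { (inferInstance : Group (P : Subgroup G)) with
        mul_comm := fun a b => Subtype.ext (habel P a a.2 b b.2) }
    let idP : (P : Subgroup G) →* (P : Subgroup G) := MonoidHom.id _
    let V : G →* (P : Subgroup G) := MonoidHom.transfer idP
    have hVz : V z ≠ 1 := by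
      intro h1
      have hzc : ∀ g : G, g * z = z * g := fun g => Subgroup.mem_center_iff.1 hz.2 g
      have hzk : ∀ (k : ℕ) (g : G), g⁻¹ * z ^ k * g = z ^ k := fun k g => by
        rw [mul_assoc, ← (Commute.pow_right (hzc g) k).eq, inv_mul_cancel_left]
      have h2 := MonoidHom.transfer_eq_pow idP z (fun k g _ => hzk k g)
      rw [show MonoidHom.transfer idP z = 1 from h1] at h2
      have h3 : z ^ (P : Subgroup G).index = 1 := (congrArg Subtype.val h2).symm
      obtain ⟨k, hk⟩ := IsPGroup.iff_card.1 P.isPGroup'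
      have h4 : z ^ p ^ k = 1 := by
        rw [← hk]
        exact congrArg Subtype.val (pow_card_eq_one' (x := (⟨z, hz.1⟩ : (P : Subgroup G))))
      have hcop : Nat.Coprime (P : Subgroup G).index (p ^ k) :=
        Nat.Coprime.pow_right _ ((Nat.Prime.coprime_iff_not_dvd hp.out).2 P.not_dvd_index).symm
      refine hz1 ?_
      rw [← pow_one z, ← Nat.coprime_iff_gcd_eq_one.mp hcop]
      exact pow_gcd_eq_one.2 ⟨h3, h4⟩
    set M := V.ker with hMdef
    have hMtop : M ≠ ⊤ := fun h => hVz (MonoidHom.mem_ker.1 (by rw [← hMdef, h]; exact Subgroup.mem_top z))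
    have hMPn : (M ⊔ (P : Subgroup G)).Normal := ⟨fun x hx g => by
      have hc : g * x * g⁻¹ * x⁻¹ ∈ M := by
        rw [hMdef, MonoidHom.mem_ker, map_mul, map_mul, map_mul, map_inv, map_inv,
          mul_comm (V g) (V x), mul_inv_cancel_right, mul_inv_cancel]
      have h' := Subgroup.mul_mem _ (Subgroup.mem_sup_left (T := (P : Subgroup G)) hc) hx
      rwa [inv_mul_cancel_right] at h'⟩
    have hMP : M ⊔ (P : Subgroup G) = ⊤ := hclos _ hMPn le_sup_right
    obtain ⟨Q⟩ : Nonempty (Sylow p M) := inferInstance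
    haveI hQn := hsub M hMtop Q
    haveI : (Q : Subgroup M).Characteristic := Q.characteristic_of_normal inferInstance
    set Q' := (Q : Subgroup M).map M.subtype
    haveI : Q'.Normal := ConjAct.normal_of_characteristic_of_normal
    have hQP : Q' ≤ (P : Subgroup G) := by
      have hQ'p : IsPGroup p Q' := Q.isPGroup'.map _
      obtain ⟨S, hS⟩ := hQ'p.exists_le_sylow
      obtain ⟨g, hg⟩ := MulAction.exists_smul_eq G S P
      intro y hy
      rw [← hg, Sylow.smul_def]
      refine ⟨g⁻¹ * y * g, hS ?_, ?_⟩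
      · simpa using (inferInstance : Q'.Normal).conj_mem y hy g⁻¹
      · simp [MulDistribMulAction.toMonoidEnd_apply, mul_assoc]
    have hQc : ∀ y ∈ Q', ∀ g : G, g * y = y * g := by
      haveI : (Subgroup.centralizer (Q' : Set G)).Normal := Subgroup.normal_centralizer
      have hC : Subgroup.centralizer (Q' : Set G) = ⊤ := hclos _ inferInstance fun a ha =>
        Subgroup.mem_centralizer_iff.2 fun y hy => habel P y (hQP hy) a ha
      intro y hy g
      exact (Subgroup.mem_centralizer_iff.1 (hC ▸ Subgroup.mem_top g :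
        g ∈ Subgroup.centralizer (Q' : Set G)) y hy).symm
    obtain ⟨R₀, hR₀⟩ := Subgroup.exists_right_complement'_of_coprime (N := (Q : Subgroup M))
      Q.card_coprime_index
    have hR₀card : Nat.Coprime (Nat.card R₀) p := by
      rw [← hR₀.symm.index_eq_card]
      exact ((Nat.Prime.coprime_iff_not_dvd hp.out).2 Q.not_dvd_index).symm
    -- the complement consists of all elements of order prime to `p`
    have hR₀mem : ∀ y : M, y ^ Nat.card R₀ = 1 → y ∈ R₀ := by
      intro y hy
      obtain ⟨⟨q, r⟩, rfl⟩ := hR₀.2 y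
      have hqr : Commute (q : M) (r : M) := Subtype.ext
        ((hQc _ (Subgroup.mem_map_of_mem M.subtype q.2) ((r : M) : G)).symm)
      simp only at hy ⊢
      rw [hqr.mul_pow, show (r : M) ^ Nat.card R₀ = 1 from
        congrArg Subtype.val (pow_card_eq_one' (x := r)), mul_one] at hy
      obtain ⟨k, hk⟩ := IsPGroup.iff_card.1 Q.isPGroup'
      have hq : (q : M) = 1 := by
        rw [← pow_one (q : M), ← Nat.coprime_iff_gcd_eq_one.mp (Nat.Coprime.pow_right k hR₀card)]
        refine pow_gcd_eq_one.2 ⟨hy, ?_⟩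
        rw [← hk]
        exact congrArg Subtype.val (pow_card_eq_one' (x := q))
      rw [hq, one_mul]
      exact r.2
    set R := R₀.map M.subtype
    haveI hRn : R.Normal := by
      refine ⟨fun y hy g => ?_⟩
      obtain ⟨y, hy, rfl⟩ := hy
      refine ⟨⟨g * y * g⁻¹, (inferInstance : M.Normal).conj_mem y y.2 g⟩, hR₀mem _ (Subtype.ext ?_),
        rfl⟩
      show (g * y * g⁻¹) ^ Nat.card R₀ = 1
      rw [conj_pow, ← SubmonoidClass.coe_pow, show y ^ Nat.card R₀ = 1 from
        congrArg Subtype.val (pow_card_eq_one' (x := (⟨y, hy⟩ : R₀))), OneMemClass.coe_one,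
        mul_one, mul_inv_cancel]
    have hRcard : Nat.Coprime (Nat.card R) p := by
      rwa [Subgroup.card_map_of_injective M.subtype_injective]
    have hPR : ∀ a ∈ (P : Subgroup G), ∀ r ∈ R, a * r = r * a := by
      intro a ha r hr
      obtain ⟨k, hk⟩ := IsPGroup.iff_card.1 P.isPGroup'
      refine commute_of_small_degree hp.out R hRcard hχ hfaith hn hnp (s := k) ?_ r hr
      rw [← hk]
      exact congrArg Subtype.val (pow_card_eq_one' (x := (⟨a, ha⟩ : (P : Subgroup G))))
    refine Subgroup.normalizer_eq_top_iff.1 (top_le_iff.1 (hMP ▸ sup_le ?_ Subgroup.le_normalizer))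
    intro y hy
    obtain ⟨⟨q, r⟩, hqr⟩ := hR₀.2 ⟨y, hy⟩
    have e : y = ((q : M) : G) * ((r : M) : G) := (congrArg Subtype.val hqr).symm
    rw [e]
    refine Subgroup.mul_mem _ (Subgroup.le_normalizer (hQP (Subgroup.mem_map_of_mem _ q.2))) ?_
    rw [Subgroup.mem_normalizer_iff]
    intro a
    constructor
    · intro ha
      have h1 : a * ((r : M) : G) = ((r : M) : G) * a :=
        hPR a ha _ (Subgroup.mem_map_of_mem M.subtype r.2)
      show ((r : M) : G) * a * ((r : M) : G)⁻¹ ∈ (P : Subgroup G)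
      rw [← h1, mul_inv_cancel_right]
      exact ha
    · intro ha
      have h2 := hPR _ ha _ (Subgroup.mem_map_of_mem M.subtype r.2)
      simp only [Subgroup.coe_subtype] at h2
      rw [inv_mul_cancel_right, mul_assoc] at h2
      have h3 := mul_left_cancel h2
      rw [h3, ← mul_assoc]
      exact ha
  -- the trivial intersection property
  have hcenter : ∀ S : Sylow p G, ∀ x ∈ (S : Subgroup G), x ∈ Subgroup.center G → x = 1 := by
    intro S x hx hxc
    obtain ⟨g, hg⟩ := MulAction.exists_smul_eq G S P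
    have hxP : x ∈ (P : Subgroup G) := by
      rw [← hg, Sylow.smul_def]
      refine ⟨x, hx, ?_⟩
      show g * x * g⁻¹ = x
      rw [Subgroup.mem_center_iff.1 hxc g, mul_inv_cancel_right]
    have : x ∈ (P : Subgroup G) ⊓ Subgroup.center G := ⟨hxP, hxc⟩
    rwa [hZ, Subgroup.mem_bot] at this
  have hCtop : ∀ g : G, g ∉ Subgroup.center G → Subgroup.centralizer ({g} : Set G) ≠ ⊤ := by
    intro g hg h
    refine hg (Subgroup.mem_center_iff.2 fun y => ?_)
    exact Subgroup.mem_centralizer_singleton_iff.1 (h ▸ Subgroup.mem_top y)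
  have hTI : ∀ S T : Sylow p G, (S : Subgroup G) ⊓ T ≠ ⊥ → S = T := by
    intro S T hne
    obtain ⟨x, hx, hx1⟩ := (Subgroup.bot_or_exists_ne_one _).resolve_left hne
    set C := Subgroup.centralizer ({x} : Set G)
    have hC : C ≠ ⊤ := hCtop x fun h => hx1 (hcenter S x hx.1 h)
    have hle : ∀ S : Sylow p G, x ∈ (S : Subgroup G) → (S : Subgroup G) ≤ C := fun S hS a ha =>
      Subgroup.mem_centralizer_singleton_iff.2 (habel S a ha x hS)
    have hn1 := hsub C hC (S.subtype (hle S hx.1))
    have h2 : (T : Subgroup G).subgroupOf C ≤ (S : Subgroup G).subgroupOf C :=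
      sylow_le_of_normal hn1 (T.isPGroup'.comap_subtype)
    refine (Sylow.ext (T.3 S.isPGroup' fun a ha => ?_)).symm ▸ rfl
    exact h2 (show (⟨a, hle T hx.2 ha⟩ : C) ∈ (T : Subgroup G).subgroupOf C from ha)
  have hone : MeetsOne (P : Subgroup G) := by
    intro g hg a b ha hb
    have hCg := hCtop g hg
    set C := Subgroup.centralizer ({g} : Set G)
    obtain ⟨QC⟩ : Nonempty (Sylow p C) := inferInstance
    have hQC := hsub C hCg QC
    obtain ⟨S, hS⟩ := (QC.isPGroup'.map C.subtype).exists_le_sylow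
    have key : ∀ c : G, C ⊓ (P : Subgroup G).map (MulAut.conj c).toMonoidHom ≠ ⊥ →
        (S : Subgroup G) = (P : Subgroup G).map (MulAut.conj c).toMonoidHom := by
      intro c hc
      obtain ⟨u, hu, hu1⟩ := (Subgroup.bot_or_exists_ne_one _).resolve_left hc
      have hsyl : ((c • P : Sylow p G) : Subgroup G) =
          (P : Subgroup G).map (MulAut.conj c).toMonoidHom := rfl
      have huS : u ∈ (S : Subgroup G) := by
        refine hS ⟨⟨u, hu.1⟩, ?_, rfl⟩
        refine sylow_le_of_normal hQC ((c • P : Sylow p G).isPGroup'.comap_subtype) ?_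
        show u ∈ ((c • P : Sylow p G) : Subgroup G)
        rw [hsyl]; exact hu.2
      rw [← hsyl, hTI S (c • P) fun h => hu1 ?_]
      have : u ∈ (S : Subgroup G) ⊓ ((c • P : Sylow p G) : Subgroup G) :=
        ⟨huS, hsyl ▸ hu.2⟩
      rwa [h, Subgroup.mem_bot] at this
    rw [← key a ha, ← key b hb]
  -- a nonlinear constituent
  obtain ⟨m', hm', -⟩ := Char.isCharacter_exists_coeff hχ
  by_cases hlin : ∀ ψ : Cfsg.IrrCharacter G, m' ψ ≠ 0 → (ψ : G → ℂ) 1 = 1
  · have hcomm : ∀ a b : G, a * b = b * a := by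
      intro a b
      refine mul_inv_eq_iff_eq_mul.1 (mul_inv_eq_one.1 (hfaith (a * b * a⁻¹ * b⁻¹) ?_))
      rw [hm', Finset.sum_apply, Finset.sum_apply]
      refine Finset.sum_congr rfl fun ψ _ => ?_
      by_cases h0 : m' ψ = 0
      · simp [h0]
      obtain ⟨f, hf⟩ := Char.exists_monoidHom_of_degree_one (Char.isCharacter_of_irr ψ.2)
        (hlin ψ h0)
      simp [hf, mul_comm (f a)]
    exact hPn ⟨fun x hx g => by rwa [hcomm g x, mul_inv_cancel_right]⟩
  push Not at hlin
  obtain ⟨ψ, hψ0, hψ1⟩ := hlin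
  have hb := abelian_degree_bound' (P : Subgroup G) (habel P) hZ hone ψ.2 hψ1 hclos
  obtain ⟨d, hd0, hd⟩ := Char.irr_one_pos ψ.2
  rw [hd, Complex.natCast_re] at hb
  have hb' : Nat.card (P : Subgroup G) < (1 + d) ^ 2 := by exact_mod_cast hb
  have hdn : d ≤ n := by
    choose dd hd0' hd' using fun φ : Cfsg.IrrCharacter G => Char.irr_one_pos φ.2
    have h1 := congrFun hm' 1
    simp only [hn, Finset.sum_apply, nsmul_eq_mul, Pi.mul_apply, Pi.natCast_apply, hd'] at h1
    have h2 : n = ∑ φ, m' φ * dd φ := by exact_mod_cast h1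
    have h3 : d = dd ψ := by exact_mod_cast hd.symm.trans (hd' ψ)
    calc d = dd ψ := h3
      _ ≤ m' ψ * dd ψ := Nat.le_mul_of_pos_left _ (Nat.pos_of_ne_zero hψ0)
      _ ≤ ∑ φ, m' φ * dd φ := Finset.single_le_sum (f := fun φ => m' φ * dd φ)
          (fun _ _ => Nat.zero_le _) (Finset.mem_univ ψ)
      _ = n := h2.symm
  have hlt : Nat.card (P : Subgroup G) < (n + 1) ^ 2 :=
    hb'.trans_le (Nat.pow_le_pow_left (by omega) 2)
  obtain ⟨k, hk⟩ := IsPGroup.iff_card.1 P.isPGroup'
  have hk0 : k ≠ 0 := by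
    intro h0
    rw [h0, pow_zero, Subgroup.card_eq_one] at hk
    exact hPn (hk ▸ inferInstance)
  rcases hyp with h | ⟨-, h⟩
  · have : p ≤ p ^ k := Nat.le_self_pow hk0 p
    omega
  · have hdvd : p ^ 2 ∣ Nat.card (⊤ : Subgroup G) := by
      by_contra hnd
      exact hPn (sylow_normal_of_mulEquiv Subgroup.topEquiv (h ⊤ hnd) P)
    rw [Subgroup.card_top] at hdvd
    have h2 : p ^ 2 ∣ Nat.card (P : Subgroup G) :=
      P.pow_dvd_card_of_pow_dvd_card hdvd
    have h3 := Nat.le_of_dvd Nat.card_pos h2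
    have h4 : (n + 1) ^ 2 ≤ p ^ 2 := Nat.pow_le_pow_left (by omega) 2
    omega

end Cfsg.Agent.CharDeep
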