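import Cfsg.Prelude.Def_Perm
import Cfsg.Agent.SmallGroups.Basic
import Cfsg.Agent.CharDeep.ZassAbelian
import Cfsg.Agent.PermB.Sharp3Pgl
import Cfsg.Agent.Perm.Regular
import Cfsg.Agent.S0680
import Cfsg.Agent.Linear.PermIso
import Mathlib.FieldTheory.Finite.GaloisField
import Mathlib.NumberTheory.Fermat

/-!
Transitive permutation groups of degree `p + 1` and order `(p + 1) * p * d` with `d < p`.
-/

set_option autoImplicit false
set_option linter.unusedSectionVars false
set_option linter.style.haveILetI false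

namespace Cfsg.Agent.CharDeep.PP

open MulAction
open Cfsg.Agent.PermB (ZData IsKernel)
open scoped MatrixGroups OnePoint

/-- `PGL_2` over isomorphic fields. -/
theorem pgl_congr {K F : Type*} [Field K] [Field F] (e : K ≃+* F) :
    Nonempty (Matrix.ProjGenLinGroup (Fin 2) K ≃* Matrix.ProjGenLinGroup (Fin 2) F) := by
  let f : GL (Fin 2) K ≃* GL (Fin 2) F := Units.mapEquiv e.mapMatrix.toMulEquiv
  exact ⟨QuotientGroup.congr _ _ f
    (le_antisymm (Subgroup.map_le_iff_le_comap.2 fun x hx => Subgroup.mem_center_iff.2 fun y => by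
      obtain ⟨z, rfl⟩ := f.surjective y
      exact (map_mul f z x).symm.trans ((congrArg f (Subgroup.mem_center_iff.1 hx z)).trans
        (map_mul f x z)))
      (fun y hy => by
        obtain ⟨x, rfl⟩ := f.surjective y
        exact ⟨x, Subgroup.mem_center_iff.2 fun z => f.injective (by
          rw [map_mul, map_mul]; exact Subgroup.mem_center_iff.1 hy (f z)), rfl⟩))⟩

variable {α : Type*} [Fintype α] [DecidableEq α]

/-- The basic structure. -/
theorem structure_pp {p d : ℕ} (hp : p.Prime) (hα : Fintype.card α = p + 1)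
    (G : Subgroup (Equiv.Perm α)) [IsPretransitive G α] (hG : Nat.card G = (p + 1) * p * d)
    (hd : d < p) (a b : α) (hab : a ≠ b) :
    ZData G α ∧ (∃ P : Subgroup G, IsKernel P a ∧ Nat.card P = p) ∧
      Nat.card (ZData.H2 (G := G) a b) = d := by
  haveI := Fact.mk hp
  have hNα : Nat.card α = p + 1 := by rw [Nat.card_eq_fintype_card, hα]
  have hS : Nat.card (stabilizer G a) = p * d := by
    have h := Subgroup.card_mul_index (stabilizer G a)
    rw [MulAction.index_stabilizer_of_transitive, hNα, hG, mul_assoc (p + 1), mul_comm (p + 1)] at h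
    exact Nat.eq_of_mul_eq_mul_right (by omega) h
  obtain ⟨x, hx⟩ := exists_prime_orderOf_dvd_card' (G := stabilizer G a) p (hS ▸ dvd_mul_right p d)
  let P : Subgroup G := Subgroup.zpowers (x : G)
  have hP : Nat.card P = p := by rw [Nat.card_zpowers, Subgroup.orderOf_coe, hx]
  have hle : P ≤ stabilizer G a := (Subgroup.zpowers_le).2 x.2
  -- normal in the stabiliser
  have hconj : ∀ g ∈ stabilizer G a, ∀ u ∈ P, g * u * g⁻¹ ∈ P := by
    intro g hg u hu
    by_contra hcon
    have hu1 : u ≠ 1 := fun e => hcon (by rw [e, mul_one, mul_inv_cancel]; exact P.one_mem)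
    let P' : Subgroup G := P.map (MulAut.conj g).toMonoidHom
    have hP' : Nat.card P' = p := by
      rw [Subgroup.card_map_of_injective (MulAut.conj g).injective, hP]
    have hle' : P' ≤ stabilizer G a := by
      rintro _ ⟨w, hw, rfl⟩
      exact (stabilizer G a).mul_mem ((stabilizer G a).mul_mem hg (hle hw)) ((stabilizer G a).inv_mem hg)
    have hinf : P ⊓ P' = ⊥ := by
      by_contra hne
      have h1 : Nat.card (P ⊓ P' : Subgroup G) ∣ p := hP ▸ Subgroup.card_dvd_of_le inf_le_left
      rcases (Nat.dvd_prime hp).1 h1 with h | h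
      · exact hne (Subgroup.eq_bot_of_card_eq _ h)
      · have e1 : P ⊓ P' = P := Subgroup.eq_of_le_of_card_ge inf_le_left (by rw [h, hP])
        have e2 : P = P' := Subgroup.eq_of_le_of_card_ge (inf_eq_left.1 e1) (by rw [hP, hP'])
        exact hcon (e2 ▸ ⟨u, hu, rfl⟩)
    let F : P × P' → stabilizer G a := fun w =>
      ⟨(w.1 : G) * w.2, (stabilizer G a).mul_mem (hle w.1.2) (hle' w.2.2)⟩
    have hF : Function.Injective F := by
      rintro ⟨v, v'⟩ ⟨w, w'⟩ e
      have e' : (v : G) * v' = w * w' := congrArg Subtype.val e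
      have hm : (w : G)⁻¹ * v ∈ P ⊓ P' := by
        refine ⟨P.mul_mem (P.inv_mem w.2) v.2, ?_⟩
        have : (w : G)⁻¹ * v = w' * (v' : G)⁻¹ := by
          rw [eq_mul_inv_iff_mul_eq, mul_assoc, e', inv_mul_cancel_left]
        rw [this]
        exact P'.mul_mem w'.2 (P'.inv_mem v'.2)
      rw [hinf, Subgroup.mem_bot, inv_mul_eq_one] at hm
      obtain rfl : w = v := Subtype.ext hm
      exact Prod.ext rfl (Subtype.ext (mul_left_cancel e'))
    have := Nat.card_le_card_of_injective F hF
    rw [Nat.card_prod, hP, hP', hS] at this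
    exact absurd (Nat.le_of_mul_le_mul_left this hp.pos) (by omega)
  -- regular on the other points
  have hfree : ∀ u ∈ P, ∀ y : α, y ≠ a → u • y = y → u = 1 := by
    intro u hu y hy huy
    by_contra hu1
    have hgen : Subgroup.zpowers u = P := Subgroup.eq_of_le_of_card_ge ((Subgroup.zpowers_le).2 hu) (by
      rw [hP, Nat.card_zpowers]
      have h1 : orderOf u ∣ p := hP ▸ Subgroup.orderOf_dvd_natCard _ hu
      rcases (Nat.dvd_prime hp).1 h1 with h | h
      · exact absurd (orderOf_eq_one_iff.1 h) hu1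
      · rw [h])
    have hua : u • a = a := hle hu
    let σ : Equiv.Perm α := (u : Equiv.Perm α)
    have hσ : orderOf σ = p := by
      show orderOf (u : Equiv.Perm α) = p
      rw [Subgroup.orderOf_coe, ← Nat.card_zpowers, hgen, hP]
    have hσ1 : σ ≠ 1 := fun e => by rw [e, orderOf_one] at hσ; exact hp.ne_one hσ.symm
    have hsupp : σ.support.card + 2 ≤ Fintype.card α := by
      have hsub : σ.support ⊆ ({a, y} : Finset α)ᶜ := by
        intro z hz
        rw [Equiv.Perm.mem_support] at hz
        simp only [Finset.mem_compl, Finset.mem_insert, Finset.mem_singleton]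
        rintro (rfl | rfl)
        · exact hz hua
        · exact hz huy
      have h1 := Finset.card_le_card hsub
      rw [Finset.card_compl, Finset.card_pair hy.symm] at h1
      omega
    have h2 : 2 ≤ σ.support.card := Equiv.Perm.two_le_card_support_of_ne_one hσ1
    have h3 : ∀ n ∈ σ.cycleType, p ≤ n := fun n hn => by
      have hdvd : n ∣ p := hσ ▸ (Equiv.Perm.lcm_cycleType σ ▸ Multiset.dvd_lcm hn)
      rcases (Nat.dvd_prime hp).1 hdvd with h | h
      · have := Equiv.Perm.two_le_of_mem_cycleType hn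
        omega
      · exact h.ge
    obtain ⟨n, hn⟩ : ∃ n, n ∈ σ.cycleType := Multiset.exists_mem_of_ne_zero
      fun e => hσ1 (Equiv.Perm.cycleType_eq_zero.1 e)
    have h4 := Multiset.le_sum_of_mem hn
    rw [Equiv.Perm.sum_cycleType] at h4
    have := h3 n hn
    omega
  have hN : IsKernel P a := by
    refine ⟨hle, hconj, fun y z hy hz => ?_⟩
    let f : P → {w : α // w ≠ a} := fun u => ⟨(u : G) • y, fun e => hy
      (MulAction.injective (u : G) (e.trans (hle u.2).symm))⟩
    have hf : Function.Injective f := by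
      intro u v e
      have e' : (u : G) • y = (v : G) • y := congrArg Subtype.val e
      refine Subtype.ext (inv_mul_eq_one.1 (hfree _ (P.mul_mem (P.inv_mem v.2) u.2) y hy ?_)).symm
      rw [mul_smul, e', inv_smul_smul]
    have hbij : Function.Bijective f := by
      rw [Nat.bijective_iff_injective_and_card]
      refine ⟨hf, ?_⟩
      rw [hP, Nat.card_eq_fintype_card, Fintype.card_subtype_compl, Fintype.card_subtype_eq, hα]
      omega
    obtain ⟨u, hu⟩ := hbij.2 ⟨z, hz⟩
    exact ⟨u, congrArg Subtype.val hu,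
      fun w hw => hf (Subtype.ext (hw.trans (congrArg Subtype.val hu).symm))⟩
  have hz : ZData G α := by
    have two' : ∀ {a' b' c' d' : α}, a' ≠ b' → c' ≠ d' → ∃ g : G, g • a' = c' ∧ g • b' = d' := by
      intro a' b' c' d' h h'
      obtain ⟨g, hg⟩ := exists_smul_eq G a' a
      obtain ⟨k, hk⟩ := exists_smul_eq G c' a
      have hgb : g • b' ≠ a := fun e => h (MulAction.injective g (hg.trans e.symm))
      have hkd : k • d' ≠ a := fun e => h' (MulAction.injective k (hk.trans e.symm))
      obtain ⟨u, hu, hu'⟩ := hN.exists_smul hgb hkd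
      have hua : u • a = a := hN.le hu
      refine ⟨k⁻¹ * u * g, ?_, ?_⟩
      · rw [mul_smul, mul_smul, hg, hua, inv_smul_eq_iff, hk]
      · rw [mul_smul, mul_smul, hu', inv_smul_smul]
    refine ⟨fun g hg => FaithfulSMul.eq_of_smul_eq_smul (α := α) fun z => by rw [hg, one_smul],
      two', ?_⟩
    intro g a' b' c' hab' hbc hac hga hgb hgc
    obtain ⟨k, hka, hkb⟩ := two' hab' hab
    -- transport to the base pair
    set h := k * g * k⁻¹ with hh
    set c := k • c' with hc
    have hha : h • a = a := by rw [hh, ← hka, mul_smul, inv_smul_smul, mul_smul, hga]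
    have hhb : h • b = b := by rw [hh, ← hkb, mul_smul, inv_smul_smul, mul_smul, hgb]
    have hhc : h • c = c := by rw [hh, hc, mul_smul, inv_smul_smul, mul_smul, hgc]
    have hca : c ≠ a := fun e => hac (MulAction.injective k (hka.trans e.symm))
    have hcb : c ≠ b := fun e => hbc (MulAction.injective k (hkb.trans e.symm))
    suffices h = 1 by exact conj_eq_one_iff.1 this
    obtain ⟨u, hu, huc⟩ := hN.exists_smul hab.symm hca
    have hu1 : u ≠ 1 := fun e => hcb (by rw [← huc, e, one_smul])
    have e1 : h * u * h⁻¹ = u :=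
      hN.inj (hN.conj h hha u hu) hu hab.symm (by rw [IsKernel.conj_smul hhb, huc, hhc])
    refine FaithfulSMul.eq_of_smul_eq_smul (α := α) fun z => ?_
    rw [one_smul]
    by_cases hza : z = a
    · rw [hza, hha]
    obtain ⟨w, hw, rfl⟩ := hN.exists_smul hab.symm hza
    have hgen : Subgroup.zpowers u = P := Subgroup.eq_of_le_of_card_ge ((Subgroup.zpowers_le).2 hu) (by
      rw [hP, Nat.card_zpowers]
      have h1 : orderOf u ∣ p := hP ▸ Subgroup.orderOf_dvd_natCard _ hu
      rcases (Nat.dvd_prime hp).1 h1 with h | h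
      · exact absurd (orderOf_eq_one_iff.1 h) hu1
      · rw [h])
    rw [← hgen] at hw
    obtain ⟨i, rfl⟩ := Subgroup.mem_zpowers_iff.1 hw
    have hcomm : Commute h u := mul_inv_eq_iff_eq_mul.1 e1
    rw [← mul_smul, (hcomm.zpow_right i).eq, mul_smul, hhb]
  refine ⟨hz, ⟨P, hN, hP⟩, ?_⟩
  have h := hz.card_group hab
  rw [hG, hNα, Nat.add_sub_cancel, ← mul_assoc] at h
  exact (Nat.eq_of_mul_eq_mul_left (Nat.mul_pos (by omega) hp.pos) h).symm

/-- The semilinear case. -/
theorem semiaffine_case {p d : ℕ} (hp : p.Prime) (hp2 : p ≠ 2) (hα : Fintype.card α = p + 1)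
    (G : Subgroup (Equiv.Perm α)) [IsPretransitive G α] (hG : Nat.card G = (p + 1) * p * d)
    (hd : d < p) (N : Subgroup G) [N.Normal] [IsPretransitive N α]
    (hreg : ∀ a : α, stabilizer N a = ⊥) :
    ∃ q : ℕ, q.Prime ∧ p + 1 = 2 ^ q ∧ (d = 1 ∨ d = q) ∧ ∃ e : α ≃ GaloisField 2 q,
      ∀ g : G, (e.symm.trans (((g : Equiv.Perm α)).trans e)) ∈
        Cfsg.semiaffineGroup (GaloisField 2 q) := by
  classical
  haveI : Nontrivial α := Fintype.one_lt_card_iff_nontrivial.1 (by have := hp.two_le; omega)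
  obtain ⟨a, b, hab⟩ := exists_pair_ne α
  obtain ⟨hz, ⟨P, hP, hPc⟩, hH⟩ := structure_pp hp hα G hG hd a b hab
  have hNc : Nat.card N = p + 1 := by
    rw [PermLib.card_eq_of_regular (hreg a), Nat.card_eq_fintype_card, hα]
  obtain ⟨hcom, helem⟩ :=
    PermLib.elementary_of_regular_normal hz.isMultiplyPretransitive (N := N) (hreg a)
  haveI : Nontrivial N := Finite.one_lt_card_iff_nontrivial.1 (by rw [hNc]; have := hp.two_le; omega)
  obtain ⟨r, q, hr, hq1, hrq, hexp⟩ := helem inferInstance
  rw [hNc] at hrq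
  obtain rfl : r = 2 := by
    have h2 : 2 ∣ r ^ q := by
      rw [← hrq]
      obtain ⟨k, hk⟩ := hp.odd_of_ne_two hp2
      exact ⟨k + 1, by omega⟩
    exact ((Nat.prime_dvd_prime_iff_eq Nat.prime_two hr).1 (Nat.prime_two.dvd_of_dvd_pow h2)).symm
  have hqne : q ≠ 1 := by
    rintro rfl
    have := hp.two_le
    omega
  have hq : q.Prime :=
    (Nat.prime_of_pow_sub_one_prime (a := 2) hqne (by rw [← hrq, Nat.add_sub_cancel]; exact hp)).2
  refine ⟨q, hq, hrq, ?_⟩
  -- coordinates
  letI : CommGroup N := { (inferInstance : Group N) with mul_comm := fun u v => hcom.is_comm.comm u v }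
  let cj : G → N → N := fun g u => ⟨g * u * g⁻¹, (inferInstance : N.Normal).conj_mem u u.2 g⟩
  let A := Additive N
  let ρ : P →* AddMonoid.End A :=
    { toFun := fun g => MonoidHom.toAdditive
        (MonoidHom.mk' (cj g) fun u v => Subtype.ext (by simp [cj, mul_assoc]))
      map_one' := by
        refine AddMonoidHom.ext fun u => Additive.toMul.injective (Subtype.ext ?_)
        show ((1 : P) : G) * (u.toMul : G) * ((1 : P) : G)⁻¹ = (u.toMul : G)
        simp
      map_mul' := fun g h => by
        refine AddMonoidHom.ext fun u => Additive.toMul.injective (Subtype.ext ?_)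
        show ((g * h : P) : G) * (u.toMul : G) * ((g * h : P) : G)⁻¹ =
          (g : G) * ((h : G) * (u.toMul : G) * (h : G)⁻¹) * (g : G)⁻¹
        simp [mul_assoc] }
  have hbijN : Function.Bijective fun u : N => u • a := PermLib.smul_bijective_of_regular (hreg a)
  have hinjN : ∀ u v : N, (u : G) • a = (v : G) • a → u = v := fun u v e => hbijN.1 e
  have heqv : ∀ g : G, g • a = a → ∀ u : N, (cj g u : G) • a = g • (u : G) • a := by
    intro g hg u
    show (g * (u : G) * g⁻¹) • a = _
    rw [mul_smul, mul_smul, show g⁻¹ • a = a by rw [inv_smul_eq_iff, hg]]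
  obtain ⟨u₀, hu₀⟩ := hbijN.2 b
  have hu₀' : ((u₀ : N) : G) • a = b := hu₀
  have hu₀1 : (Additive.ofMul u₀ : A) ≠ 0 := by
    intro e
    have e' : u₀ = 1 := e
    rw [e', OneMemClass.coe_one, one_smul] at hu₀'
    exact hab hu₀'
  haveI : Finite A := inferInstanceAs (Finite N)
  haveI : IsMulCommutative P := SmallGroups.isMulCommutative_of_prime_card (by rw [hPc]; exact hp)
  obtain ⟨K, iK, iF, ψ₀, χ₀, hψ1, hψ⟩ := PermB.exists_field_of_irreducible (A := A) ρ
    (fun g h => by rw [← map_mul, ← map_mul, mul_comm' g h])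
    (fun M hM => by
      by_cases hbot : M = ⊥
      · exact Or.inl hbot
      right
      obtain ⟨m, hm, hm0⟩ : ∃ m ∈ M, m ≠ 0 := by
        by_contra hne
        push Not at hne
        exact hbot ((AddSubgroup.eq_bot_iff_forall _).2 hne)
      rw [AddSubgroup.eq_top_iff']
      intro z
      by_cases hz0 : z = 0
      · rw [hz0]; exact M.zero_mem
      have hne : ∀ v : A, v ≠ 0 → ((v.toMul : N) : G) • a ≠ a := fun v hv e => hv (by
        have h1 := hinjN v.toMul 1 (by rw [e, OneMemClass.coe_one, one_smul])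
        exact Additive.toMul.injective h1)
      obtain ⟨g, hg, hgm⟩ := hP.exists_smul (hne m hm0) (hne z hz0)
      have hga : g • a = a := hP.le hg
      have : ρ ⟨g, hg⟩ m = z := Additive.toMul.injective (hinjN _ _ (by
        show (cj g m.toMul : G) • a = _
        rw [heqv g hga, hgm]))
      rw [← this]
      exact hM ⟨g, hg⟩ m hm)
    (Additive.ofMul u₀) hu₀1
  have hKc : Fintype.card K = 2 ^ q := by
    rw [← Nat.card_eq_fintype_card, ← Nat.card_congr ψ₀.toEquiv]
    exact hNc.trans hrq
  haveI : Fintype (GaloisField 2 q) := Fintype.ofFinite _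
  have hFc : Fintype.card (GaloisField 2 q) = 2 ^ q := by
    rw [← Nat.card_eq_fintype_card, GaloisField.card 2 q hq.ne_zero]
  let E : K ≃+* GaloisField 2 q := FiniteField.ringEquivOfCardEq (hKc.trans hFc.symm)
  let ψ : A ≃+ GaloisField 2 q := ψ₀.trans E.toAddEquiv
  let χ : P →* GaloisField 2 q := E.toMonoidHom.comp χ₀
  have hψu₀ : ψ (Additive.ofMul u₀) = 1 := by
    show E (ψ₀ (Additive.ofMul u₀)) = 1
    rw [hψ1, map_one]
  have hψρ : ∀ (g : P) (v : A), ψ (ρ g v) = χ g * ψ v := fun g v => by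
    show E (ψ₀ (ρ g v)) = E (χ₀ g) * E (ψ₀ v)
    rw [hψ, map_mul]
  let e : α ≃ GaloisField 2 q :=
    ((Equiv.ofBijective _ hbijN).symm.trans Additive.ofMul).trans ψ.toEquiv
  have he : ∀ u : N, e ((u : G) • a) = ψ (Additive.ofMul u) := fun u => by
    show ψ (Additive.ofMul ((Equiv.ofBijective _ hbijN).symm ((u : G) • a))) = _
    have : (Equiv.ofBijective _ hbijN).symm ((u : G) • a) = u := (Equiv.symm_apply_eq _).2 rfl
    rw [this]
  let Φ : G →* Equiv.Perm (GaloisField 2 q) := (e.permCongrHom).toMonoidHom.comp G.subtype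
  have hΦ : ∀ (g : G) (y : α), Φ g (e y) = e (g • y) := fun g y => by
    show e ((g : Equiv.Perm α) (e.symm (e y))) = _
    rw [Equiv.symm_apply_apply]; rfl
  have hsurj : ∀ z, ∃ u : N, z = e ((u : G) • a) := fun z =>
    ⟨(ψ.symm z).toMul, by rw [he, ofMul_toMul, AddEquiv.apply_symm_apply]⟩
  have hΦN : ∀ (v : N) (z : GaloisField 2 q), Φ v z = z + ψ (Additive.ofMul v) := by
    intro v z
    obtain ⟨u, rfl⟩ := hsurj z
    rw [hΦ, ← mul_smul, ← Subgroup.coe_mul, he, he, ofMul_mul, map_add, add_comm]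
  have hΦst : ∀ g : G, g • a = a → ∀ u : N,
      Φ g (e ((u : G) • a)) = ψ (Additive.ofMul (cj g u)) := fun g hg u => by
    rw [hΦ, ← heqv g hg, he]
  have hΦP : ∀ (g : P) (z : GaloisField 2 q), Φ (g : G) z = χ g * z := by
    intro g z
    obtain ⟨u, rfl⟩ := hsurj z
    rw [hΦst _ (hP.le g.2), he, ← hψρ]
    rfl
  have hχne : ∀ g, χ g ≠ 0 := fun g h0 => by
    have h1 : χ g * χ g⁻¹ = 1 := by rw [← map_mul, mul_inv_cancel, map_one]
    rw [h0, zero_mul] at h1
    exact zero_ne_one h1
  have hΦinj : Function.Injective Φ :=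
    e.permCongrHom.injective.comp Subtype.val_injective
  have hχinj : Function.Injective χ := by
    intro g h hgh
    refine Subtype.ext (hΦinj (Equiv.ext fun z => ?_))
    rw [hΦP, hΦP, hgh]
  have hχsurj : ∀ z : GaloisField 2 q, z ≠ 0 → ∃ g, χ g = z := by
    let f : P → {z : GaloisField 2 q // z ≠ 0} := fun g => ⟨χ g, hχne g⟩
    have hf : Function.Bijective f := by
      rw [Nat.bijective_iff_injective_and_card]
      refine ⟨fun g h hgh => hχinj (congrArg Subtype.val hgh), ?_⟩
      rw [hPc, Nat.card_eq_fintype_card, Fintype.card_subtype_compl, Fintype.card_subtype_eq, hFc,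
        ← hrq]
      omega
    intro z hz0
    obtain ⟨g, hg⟩ := hf.2 ⟨z, hz0⟩
    exact ⟨g, congrArg Subtype.val hg⟩
  have hH2add : ∀ h ∈ ZData.H2 (G := G) a b, ∀ z z', Φ h (z + z') = Φ h z + Φ h z' := by
    intro h hh z z'
    have hha := (ZData.mem_H2.1 hh).1
    obtain ⟨u, rfl⟩ := hsurj z
    obtain ⟨v, rfl⟩ := hsurj z'
    have e1 : e ((u : G) • a) + e ((v : G) • a) = e (((u * v : N) : G) • a) := by
      rw [he, he, he, ofMul_mul, map_add]
    rw [e1, hΦst h hha, hΦst h hha, hΦst h hha, ← map_add, ← ofMul_mul]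
    congr 2
    exact Subtype.ext (by simp [cj, mul_assoc])
  have hH2one : ∀ h ∈ ZData.H2 (G := G) a b, Φ h 1 = 1 := by
    intro h hh
    obtain ⟨hha, hhb⟩ := ZData.mem_H2.1 hh
    have e1 : (1 : GaloisField 2 q) = e b := by rw [← hu₀', he, hψu₀]
    rw [e1, hΦ, hhb]
  have hH2mul : ∀ h ∈ ZData.H2 (G := G) a b, ∀ z z', Φ h (z * z') = Φ h z * Φ h z' := by
    intro h hh z z'
    have hha := (ZData.mem_H2.1 hh).1
    by_cases hz0 : z = 0
    · have h0 := hH2add h hh 0 0
      rw [add_zero] at h0
      rw [hz0, zero_mul, left_eq_add.1 h0, zero_mul]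
    obtain ⟨g, rfl⟩ := hχsurj z hz0
    have hg' : h * (g : G) * h⁻¹ ∈ P := hP.conj h hha _ g.2
    have key : ∀ w, Φ h (χ g * w) = χ ⟨_, hg'⟩ * Φ h w := by
      intro w
      rw [← hΦP g w, ← hΦP ⟨_, hg'⟩ (Φ h w), ← Equiv.Perm.mul_apply, ← map_mul,
        ← Equiv.Perm.mul_apply, ← map_mul]
      congr 2
      show h * (g : G) = h * g * h⁻¹ * h
      group
    have h1 := key 1
    rw [mul_one, hH2one h hh, mul_one] at h1
    rw [key z', h1]
  let rng : ZData.H2 (G := G) a b → (GaloisField 2 q ≃+* GaloisField 2 q) := fun h =>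
    { Φ (h : G) with map_mul' := hH2mul h h.2, map_add' := hH2add h h.2 }
  refine ⟨?_, e, fun g => ?_⟩
  · -- the order of the two point stabiliser
    let T : ZData.H2 (G := G) a b →* (GaloisField 2 q ≃ₐ[ZMod 2] GaloisField 2 q) :=
      { toFun := fun h => AlgEquiv.ofRingEquiv (f := rng h) (fun c => by
          have := RingHom.ext_iff.1 (Subsingleton.elim
            ((rng h).toRingHom.comp (algebraMap (ZMod 2) (GaloisField 2 q)))
            (algebraMap (ZMod 2) (GaloisField 2 q))) c
          simpa using this)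
        map_one' := AlgEquiv.ext fun z => by
          show Φ ((1 : ZData.H2 (G := G) a b) : G) z = z
          rw [OneMemClass.coe_one, map_one]; rfl
        map_mul' := fun h k => AlgEquiv.ext fun z => by
          show Φ ((h * k : ZData.H2 (G := G) a b) : G) z = Φ (h : G) (Φ (k : G) z)
          rw [Subgroup.coe_mul, map_mul]; rfl }
    have hT : Function.Injective T := fun h k hhk => Subtype.ext (hΦinj (Equiv.ext fun z =>
      (DFunLike.congr_fun hhk z : _)))
    have hdvd := Subgroup.card_dvd_of_injective T hT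
    rw [hH, IsGalois.card_aut_eq_finrank, GaloisField.finrank 2 hq.ne_zero] at hdvd
    exact (Nat.dvd_prime hq).1 hdvd
  · -- every element is semilinear
    show g ∈ (Cfsg.semiaffineGroup (GaloisField 2 q)).comap Φ
    set Sa := (Cfsg.semiaffineGroup (GaloisField 2 q)).comap Φ
    have hNle : ∀ v : N, (v : G) ∈ Sa := fun v =>
      ⟨1, ψ (Additive.ofMul v), RingEquiv.refl _, fun z => by simp [hΦN]⟩
    have hPle : ∀ v : P, (v : G) ∈ Sa := fun v =>
      ⟨Units.mk0 (χ v) (hχne v), 0, RingEquiv.refl _, fun z => by simp [hΦP]⟩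
    have hHle : ∀ h : ZData.H2 (G := G) a b, (h : G) ∈ Sa := fun h =>
      ⟨1, 0, rng h, fun z => by simp [rng]⟩
    obtain ⟨v, hv⟩ := hbijN.2 (g • a)
    have hv' : (v : G) • a = g • a := hv
    have hst : ((v : G)⁻¹ * g) • a = a := by rw [mul_smul, inv_smul_eq_iff, hv']
    obtain ⟨u, hu, k, hk, hg⟩ := hP.exists_mul hab.symm hst
    rw [show g = (v : G) * ((v : G)⁻¹ * g) by group, hg]
    exact Sa.mul_mem (hNle v) (Sa.mul_mem (hPle ⟨u, hu⟩) (hHle ⟨k, hk⟩))

end Cfsg.Agent.CharDeep.PP
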