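import Cfsg.Agent.CharDeep.PermPPlusOne

/-!
The classification of transitive groups of degree `p + 1` and small order.
-/

set_option autoImplicit false
set_option linter.unusedSectionVars false
set_option linter.style.haveILetI false

namespace Cfsg.Agent.CharDeep.PP

open MulAction
open Cfsg.Agent.PermB (ZData IsKernel)
open scoped MatrixGroups OnePoint

variable {α : Type*} [Fintype α] [DecidableEq α]

theorem sharp3_of_card {G Ω : Type*} [Group G] [MulAction G Ω] [Finite G] [Finite Ω]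
    (hz : ZData G Ω) {a b : Ω} (hab : a ≠ b)
    (hd : Nat.card (ZData.H2 (G := G) a b) + 2 = Nat.card Ω) : IsMultiplyPretransitive G Ω 3 := by
  classical
  refine ⟨fun s t => ?_⟩
  have hst : stabilizer G s = ⊥ := by
    rw [Subgroup.eq_bot_iff_forall]
    intro g hg
    have h : ∀ i, g • s i = s i := fun i => by
      have := DFunLike.congr_fun (mem_stabilizer_iff.1 hg) i
      simpa using this
    exact hz.three g (s.injective.ne (by decide : (0 : Fin 3) ≠ 1))
      (s.injective.ne (by decide : (1 : Fin 3) ≠ 2)) (s.injective.ne (by decide : (0 : Fin 3) ≠ 2))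
      (h 0) (h 1) (h 2)
  haveI : Fintype Ω := Fintype.ofFinite Ω
  have hbij : Function.Bijective (fun g : G => g • s) := by
    rw [Nat.bijective_iff_injective_and_card]
    refine ⟨fun g k e => ?_, ?_⟩
    · have : k⁻¹ * g ∈ stabilizer G s := by
        rw [mem_stabilizer_iff, mul_smul, inv_smul_eq_iff]; exact e
      rw [hst, Subgroup.mem_bot, inv_mul_eq_one] at this
      exact this.symm
    · rw [hz.card_group hab, Nat.card_eq_fintype_card (α := Fin 3 ↪ Ω), Fintype.card_embedding_eq,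
        Fintype.card_fin, ← Nat.card_eq_fintype_card]
      obtain ⟨m, hm⟩ : ∃ m, Nat.card Ω = m + 2 := ⟨_, hd.symm⟩
      rw [show Nat.card (ZData.H2 (G := G) a b) = m by omega, hm]
      simp [Nat.descFactorial_succ, Nat.succ_eq_add_one]
      ring
  exact hbij.2 t

theorem main {p d : ℕ} (hp : p.Prime) (hα : Fintype.card α = p + 1)
    (G : Subgroup (Equiv.Perm α)) [IsPretransitive G α] (hG : Nat.card G = (p + 1) * p * d)
    (hd : d < p) :
    (d = p - 1 ∧ Nonempty (G ≃* Matrix.ProjGenLinGroup (Fin 2) (ZMod p))) ∨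
      (2 * d = p - 1 ∧ Nonempty (G ≃* Matrix.ProjectiveSpecialLinearGroup (Fin 2) (ZMod p))) ∨
      (∃ q : ℕ, q.Prime ∧ p + 1 = 2 ^ q ∧ (d = 1 ∨ d = q) ∧ ∃ e : α ≃ GaloisField 2 q,
        ∀ g : G, (e.symm.trans (((g : Equiv.Perm α)).trans e)) ∈
          Cfsg.semiaffineGroup (GaloisField 2 q)) := by
  classical
  haveI := Fact.mk hp
  have hp2' := hp.two_le
  haveI : Nontrivial α := Fintype.one_lt_card_iff_nontrivial.1 (by omega)
  obtain ⟨a, b, hab⟩ := exists_pair_ne α
  obtain ⟨hz, ⟨P, hP, hPc⟩, hH⟩ := structure_pp hp hα G hG hd a b hab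
  have hNα : Nat.card α = p + 1 := by rw [Nat.card_eq_fintype_card, hα]
  have hd0 : 0 < d := hH ▸ Nat.card_pos
  have hfield : ∀ {K : Type} [Field K] [Fintype K], Fintype.card K + 1 = Nat.card α →
      Nonempty (K ≃+* ZMod p) := by
    intro K _ _ h
    exact ⟨FiniteField.ringEquivOfCardEq (by rw [ZMod.card]; omega)⟩
  by_cases hfull : d = p - 1
  · left
    refine ⟨hfull, ?_⟩
    haveI : IsMulCommutative P := SmallGroups.isMulCommutative_of_prime_card (by rw [hPc]; exact hp)
    rcases eq_or_ne p 2 with rfl | hp2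
    · obtain ⟨c, hca, hcb⟩ := PermB.exists_ne_ne (α := α) (by omega) a b
      obtain ⟨s, hsa, hsb⟩ := hz.two hab hab.symm
      have hsc : s • c = c := by
        by_contra hne
        have h1 : s • c ≠ a := fun e => hcb (MulAction.injective s (e.trans hsb.symm))
        have h2 : s • c ≠ b := fun e => hca (MulAction.injective s (e.trans hsa.symm))
        have := Finset.card_le_univ ({a, b, c, s • c} : Finset α)
        rw [Finset.card_insert_of_notMem, Finset.card_insert_of_notMem, Finset.card_pair (Ne.symm hne),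
          hα] at this
        · omega
        · simp [hcb.symm, h2.symm]
        · simp [hab, hca.symm, h1.symm]
      have hinv : ∀ h ∈ ZData.H2 (G := G) a b, s * h * s⁻¹ = h⁻¹ := by
        intro h hh
        have hbot : ZData.H2 (G := G) a b = ⊥ := Subgroup.eq_bot_of_card_eq _ (by omega)
        rw [hbot, Subgroup.mem_bot] at hh
        rw [hh]; group
      obtain ⟨K, iK, iF, hK, ⟨e⟩⟩ := PermB.exists_mulEquiv_pgl hz hP hab hca hcb inferInstance
        hsa hsb hsc hinv (by omega)
      obtain ⟨E⟩ := hfield hK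
      obtain ⟨e'⟩ := pgl_congr E
      exact ⟨e.trans e'⟩
    · obtain ⟨K, iK, iF, hK, ⟨e⟩⟩ := PermB.ZData.exists_mulEquiv_pgl_of_odd hz hp hp2 odd_one
        (by rw [pow_one]; exact hNα) (sharp3_of_card hz hab (by omega))
      obtain ⟨E⟩ := hfield hK
      obtain ⟨e'⟩ := pgl_congr E
      exact ⟨e.trans e'⟩
  have hp2 : p ≠ 2 := by rintro rfl; omega
  by_cases hreg : ∃ N : Subgroup G, N.Normal ∧ IsPretransitive N α ∧ ∀ a : α, stabilizer N a = ⊥
  · obtain ⟨N, hNn, hNt, hNs⟩ := hreg
    exact Or.inr (Or.inr (semiaffine_case hp hp2 hα G hG hd N hNs))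
  by_cases hd1 : d = 1
  · exfalso
    subst hd1
    haveI := hz.isMultiplyPretransitive
    have hsharp : ∀ x : Fin 2 ↪ α, stabilizer G x = ⊥ := by
      intro x
      rw [Subgroup.eq_bot_iff_forall]
      intro g hg
      have hx : x 0 ≠ x 1 := x.injective.ne (by decide)
      have hmem : g ∈ ZData.H2 (G := G) (x 0) (x 1) := ZData.mem_H2.2
        ⟨DFunLike.congr_fun (mem_stabilizer_iff.1 hg) (0 : Fin 2),
         DFunLike.congr_fun (mem_stabilizer_iff.1 hg) (1 : Fin 2)⟩
      have hbot : ZData.H2 (G := G) (x 0) (x 1) = ⊥ :=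
        Subgroup.eq_bot_of_card_eq _ ((hz.card_H2_eq hab hx).trans hH)
      rwa [hbot, Subgroup.mem_bot] at hmem
    obtain ⟨r, j, hr, -, -, h⟩ := Cfsg.Agent.S0680.result G hsharp (by omega)
    haveI := Fact.mk hr
    obtain ⟨Q⟩ : Nonempty (Sylow r G) := inferInstance
    obtain ⟨h1, -, -, h2, h3, -⟩ := h ⟨hr⟩ Q
    exact hreg ⟨Q, h1, h2, h3⟩
  right; left
  have hfix : ∃ g : G, g ≠ 1 ∧ ∃ a b : α, a ≠ b ∧ g • a = a ∧ g • b = b := by
    have : Nontrivial (ZData.H2 (G := G) a b) := Finite.one_lt_card_iff_nontrivial.1 (by omega)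
    obtain ⟨⟨g, hg⟩, hg1⟩ := exists_ne (1 : ZData.H2 (G := G) a b)
    exact ⟨g, fun e => hg1 (Subtype.ext e), a, b, hab, (ZData.mem_H2.1 hg).1, (ZData.mem_H2.1 hg).2⟩
  have hZ : Cfsg.IsZassenhausGroup G α := by
    refine ⟨inferInstance, hz.isMultiplyPretransitive, fun g x y z h1 h2 h3 => hz.three g h1 h2 h3,
      hfix, fun N hNn hNt => ?_⟩
    by_contra hne
    push Not at hne
    exact hreg ⟨N, hNn, hNt, hne⟩
  have hPc' : IsMulCommutative P := SmallGroups.isMulCommutative_of_prime_card (by rw [hPc]; exact hp)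
  have h2d : 2 * d = p - 1 := by
    have h1 := ZA.kernel_small hZ hP hab hPc'
    obtain ⟨k, hk⟩ := ZA.card_H2_dvd hz hP hab
    rw [hH, hNα] at h1 hk
    rcases k with _ | _ | _ | k
    · omega
    · omega
    · omega
    · exfalso; rw [hk] at h1; nlinarith
  refine ⟨h2d, ?_⟩
  rcases ZA.abelian_kernel hZ hP hab hPc' with ⟨h3, -⟩ | ⟨K, iK, iF, -, hK, ⟨e⟩⟩
  · exfalso
    have := hz.card_H2_of_sharp3 (by omega) h3 hab
    omega
  · obtain ⟨E⟩ := hfield hK
    obtain ⟨e'⟩ := Linear.psl_congr E (Fin 2)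
    exact ⟨e.trans e'⟩

end Cfsg.Agent.CharDeep.PP
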