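import Mathlib
import Cfsg.Agent.CharDeep.ZassInduced
import Cfsg.Agent.CharDeep.FrobCoh
import Cfsg.Agent.Char.Orthogonality
import Cfsg.Agent.Zassenhaus.Even

/-!
Characters and classes of a point stabiliser of a Zassenhaus group.
-/

set_option autoImplicit false
set_option linter.unusedSectionVars false
set_option linter.style.haveILetI false

noncomputable section

namespace Cfsg.Agent.CharDeep.ZF

open MulAction Finset
open scoped Classical ComplexConjugate BigOperators
open Cfsg.Agent Cfsg.Agent.CharInd Cfsg.Agent.OddChar43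

variable {G α : Type*} [Group G] [MulAction G α] [Fintype G] [Fintype α]

open Cfsg.Agent.PermB (ZData)

/-- The constant one on a subgroup, zero outside. -/
def oneOn {L : Type*} [Group L] (K : Subgroup L) : L → ℂ := fun u => if u ∈ K then 1 else 0

/-- The indicator function of the identity. -/
def delta (L : Type*) [Group L] : L → ℂ := fun u => if u = 1 then 1 else 0

theorem inner_delta {L : Type*} [Group L] [Fintype L] (f : L → ℂ) :
    Cfsg.classInner (delta L) f = (Nat.card L : ℂ)⁻¹ * conj (f 1) := by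
  simp [Cfsg.classInner, delta, ite_mul]

/-- The linear characters trivial on a subgroup. -/
def Lin {L : Type*} [Group L] [Fintype L] (K : Subgroup L) : Finset (L →* ℂˣ) :=
  haveI : Finite (L →* ℂˣ) := Char.monoidHom_complex_finite
  (Set.toFinite {f : L →* ℂˣ | ∀ u ∈ K, f u = 1}).toFinset

theorem mem_Lin {L : Type*} [Group L] [Fintype L] {K : Subgroup L} {f : L →* ℂˣ} :
    f ∈ Lin K ↔ ∀ u ∈ K, f u = 1 := by
  simp [Lin]

variable (hz : ZData G α) {a b : α} (hab : a ≠ b)
  {N : Subgroup G} (hN : PermB.IsKernel N a)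
  {K : Subgroup (stabilizer G a)} [K.Normal] (hK : ∀ u : stabilizer G a, u ∈ K ↔ (u : G) ∈ N)

include hK hN in
theorem card_K : Nat.card K = Nat.card N :=
  Nat.card_congr
    { toFun := fun x => ⟨x.1.1, (hK x.1).1 x.2⟩
      invFun := fun u => ⟨⟨u.1, hN.le u.2⟩, (hK _).2 u.2⟩
      left_inv := fun x => rfl
      right_inv := fun u => rfl }

include hz hab hN hK in
theorem card_K_add_one : Nat.card K + 1 = Nat.card α := by
  rw [card_K hN hK, hN.card_add_one hab.symm]

include hz hab hN hK in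
theorem index_K : K.index = Nat.card (ZData.H2 (G := G) a b) := by
  have h1 := K.card_mul_index
  have h2 := hz.card_stabilizer hab
  have h3 := card_K_add_one hz hab hN hK
  rw [h2, ← h3, Nat.add_sub_cancel] at h1
  exact Nat.eq_of_mul_eq_mul_left Nat.card_pos h1

include hz hab hN hK in
theorem cent_le (n : stabilizer G a) (hn : n ∈ K) (hn1 : n ≠ 1) :
    Subgroup.centralizer ({n} : Set (stabilizer G a)) ≤ K := by
  intro x hx
  by_contra hxK
  obtain ⟨d, hda, hd⟩ : ∃ d, d ≠ a ∧ (x : G) • d = d := by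
    by_contra hne
    push Not at hne
    exact hxK ((hK x).2 ((hz.mem_kernel_iff hN hab).2 ⟨x.2, Or.inr hne⟩))
  have hc := Subgroup.mem_centralizer_singleton_iff.1 hx
  have h1 : (x : G) * n * (x : G)⁻¹ = n := by
    rw [mul_inv_eq_iff_eq_mul, ← Subgroup.coe_mul, ← Subgroup.coe_mul, hc]
  have := hN.eq_one_of_commute hz hda (ZData.mem_H2.2 ⟨x.2, hd⟩) ((hK n).1 hn)
    (fun e => hn1 (Subtype.ext e)) h1
  exact hxK ((hK x).2 (this ▸ N.one_mem))

include hN hK in
theorem kerTI : KerTI (stabilizer G a) K := by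
  intro g hg t ht hgt
  obtain ⟨u, hu, rfl⟩ := ht
  obtain ⟨w, hw, hwe⟩ := hgt
  simp only [Subgroup.coe_subtype] at hwe ⊢
  by_contra hu1
  apply hg
  have hwN : g * (u : G) * g⁻¹ ∈ N := by rw [← hwe]; exact (hK w).1 hw
  have hne : g * (u : G) * g⁻¹ ≠ 1 := fun e => hu1 (conj_eq_one_iff.1 e)
  rw [mem_stabilizer_iff]
  by_contra hga
  refine hne (hN.eq_one hwN hga ?_)
  rw [mul_smul, inv_smul_smul, mul_smul, show (u : G) • a = a from u.2]

include hz hab hN hK in
/-- A character induced from the kernel, induced to the group and restricted back. -/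
theorem res_ind_supp (x : stabilizer G a → ℂ) (hcl : Cfsg.IsClassFunction (stabilizer G a) x)
    (h0 : ∀ u, u ∉ K → x u = 0) :
    (fun u : stabilizer G a => Cfsg.indFun (stabilizer G a) x (u : G)) =
      x + ((Nat.card K : ℂ) * x 1) • delta (stabilizer G a) := by
  haveI := hz.isPretransitive
  choose g hg using fun c => IsPretransitive.exists_smul_eq (M := G) a c
  funext u
  rw [ZC.indFun_stabilizer_eq a g hg hcl]
  by_cases hu : u = 1
  · subst hu
    have he : ∀ c, Cfsg.extendByZero (stabilizer G a) x ((g c)⁻¹ * ((1 : stabilizer G a) : G) * g c) = x 1 := by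
      intro c
      rw [Subgroup.coe_one, mul_one, inv_mul_cancel, CharInd.extendByZero_mem _ _ (stabilizer G a).one_mem]
      rfl
    rw [Finset.sum_congr rfl fun c _ => he c, Finset.sum_const, Finset.card_univ, nsmul_eq_mul,
      ← Nat.card_eq_fintype_card, ← card_K_add_one hz hab hN hK]
    simp [delta]
    ring
  · rw [Finset.sum_eq_single a]
    · have hga : g a ∈ stabilizer G a := hg a
      rw [show (g a)⁻¹ * (u : G) * g a = (g a)⁻¹ * u * ((g a)⁻¹)⁻¹ by group,
        CharInd.extendByZero_conj_mem _ hcl ((stabilizer G a).inv_mem hga), CharInd.extendByZero_coe]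
      simp [delta, hu]
    · intro c _ hca
      by_cases hmem : (g c)⁻¹ * (u : G) * g c ∈ stabilizer G a
      · rw [CharInd.extendByZero_mem _ _ hmem]
        refine h0 _ fun hKu => ?_
        have hne : (g c)⁻¹ * (u : G) * g c ≠ 1 := fun e => hu (Subtype.ext (by
          calc (u : G) = g c * ((g c)⁻¹ * (u : G) * g c) * (g c)⁻¹ := by group
            _ = 1 := by rw [e, mul_one, mul_inv_cancel]))
        refine hne (hN.eq_one ((hK ⟨_, hmem⟩).1 hKu) (y := (g c)⁻¹ • a) (fun e => hca ?_) ?_)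
        · rw [inv_smul_eq_iff, hg] at e
          exact e.symm
        · rw [mul_smul, mul_smul, smul_inv_smul, show (u : G) • a = a from u.2]
      · exact CharInd.extendByZero_notMem _ _ hmem
    · exact fun h => absurd (Finset.mem_univ _) h

variable (hsw : ZC.SwapInvol G α)

include hz hab hN hK hsw in
/-- A linear character induced to the group and restricted back. -/
theorem res_ind_lin (f : stabilizer G a →* ℂˣ) (hf : f ∈ Lin K) :
    (fun u : stabilizer G a => Cfsg.indFun (stabilizer G a) (fun v => (f v : ℂ)) (u : G)) =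
      (fun u => (f u : ℂ)) + (fun u => (f⁻¹ u : ℂ)) - oneOn K
        + (Nat.card K : ℂ) • delta (stabilizer G a) := by
  funext u
  rw [ZC.indFun_linear_apply hz hab hsw hN f (fun v hv => mem_Lin.1 hf v ((hK v).2 hv)),
    ← card_K_add_one hz hab hN hK]
  have hinv : (f⁻¹ u : ℂ) = conj (f u : ℂ) := by
    rw [MonoidHom.inv_apply, Units.val_inv_eq_inv_val]
    refine Complex.inv_eq_conj (Complex.norm_eq_one_of_pow_eq_one (n := orderOf u) ?_ (orderOf_pos u).ne')
    rw [← Units.val_pow_eq_pow_val, ← map_pow, pow_orderOf_eq_one, map_one, Units.val_one]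
  simp only [Pi.add_apply, Pi.sub_apply, Pi.smul_apply, smul_eq_mul, oneOn, delta]
  by_cases hu : u = 1
  · subst hu
    simp [K.one_mem]
    ring
  · rw [if_neg hu, if_neg hu, mul_zero, add_zero]
    by_cases huK : u ∈ K
    · rw [if_pos ((hK u).1 huK), if_pos huK, hinv, mem_Lin.1 hf u huK]
      simp
    · rw [if_neg (fun h => huK ((hK u).2 h)), if_neg huK, hinv, sub_zero]

section Stab

variable (hcomm : ∀ x y : G, x ∈ ZData.H2 (G := G) a b → y ∈ ZData.H2 (G := G) a b → x * y = y * x)

include hz hab hN hK hcomm in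
theorem card_Lin : (Lin K).card = K.index := by
  have hc : ∀ x y : stabilizer G a ⧸ K, x * y = y * x := by
    intro x y
    obtain ⟨x, rfl⟩ := QuotientGroup.mk_surjective x
    obtain ⟨y, rfl⟩ := QuotientGroup.mk_surjective y
    obtain ⟨u, hu, k, hk, hx⟩ := hN.exists_mul hab.symm (show (x : G) • a = a from x.2)
    obtain ⟨v, hv, l, hl, hy⟩ := hN.exists_mul hab.symm (show (y : G) • a = a from y.2)
    have ex : x = ⟨u, hN.le hu⟩ * ⟨k, (ZData.mem_H2.1 hk).1⟩ := Subtype.ext hx
    have ey : y = ⟨v, hN.le hv⟩ * ⟨l, (ZData.mem_H2.1 hl).1⟩ := Subtype.ext hy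
    have eu : ((⟨u, hN.le hu⟩ : stabilizer G a) : stabilizer G a ⧸ K) = 1 :=
      (QuotientGroup.eq_one_iff _).2 ((hK _).2 hu)
    have ev : ((⟨v, hN.le hv⟩ : stabilizer G a) : stabilizer G a ⧸ K) = 1 :=
      (QuotientGroup.eq_one_iff _).2 ((hK _).2 hv)
    rw [ex, ey, QuotientGroup.mk_mul, QuotientGroup.mk_mul, eu, ev, one_mul, one_mul,
      ← QuotientGroup.mk_mul, ← QuotientGroup.mk_mul]
    exact congrArg _ (Subtype.ext (hcomm k l hk hl))
  let e : {f : stabilizer G a →* ℂˣ // ∀ u ∈ K, f u = 1} ≃ (stabilizer G a ⧸ K →* ℂˣ) :=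
    { toFun := fun f => QuotientGroup.lift K f.1 (fun u hu => f.2 u hu)
      invFun := fun g => ⟨g.comp (QuotientGroup.mk' K), fun u hu => by
        simp [(QuotientGroup.eq_one_iff u).2 hu]⟩
      left_inv := fun f => Subtype.ext (MonoidHom.ext fun u => rfl)
      right_inv := fun g => MonoidHom.ext fun q => by
        obtain ⟨q, rfl⟩ := QuotientGroup.mk_surjective q
        rfl }
  haveI : Finite (stabilizer G a →* ℂˣ) := Char.monoidHom_complex_finite
  rw [← Nat.card_eq_finsetCard,
    Nat.card_congr ((Equiv.subtypeEquivRight fun f => mem_Lin).trans e), Char.card_monoidHom_complex]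
  have hbot : commutator (stabilizer G a ⧸ K) = ⊥ := by
    rw [commutator_def, Subgroup.commutator_eq_bot_iff_le_centralizer]
    intro x _
    rw [Subgroup.mem_centralizer_iff]
    exact fun y _ => hc y x
  rw [hbot, Subgroup.index_bot]
  rfl

include hz hab hN hK hcomm in
/-- The irreducible characters of the stabiliser are the linear ones and the induced ones. -/
theorem irr_cases (he : 2 ≤ K.index) :
    (∀ χ : stabilizer G a → ℂ, Cfsg.IsIrrCharacter (stabilizer G a) χ →
      (∃ f ∈ Lin K, χ = fun u => (f u : ℂ)) ∨ χ ∈ iiaF (stabilizer G a) K ⊥) ∧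
    Nat.card (Cfsg.IrrCharacter (stabilizer G a)) = (iiaF (stabilizer G a) K ⊥).card + K.index := by
  have hC : ∀ n ∈ K, n ≠ 1 → Subgroup.centralizer ({n} : Set (stabilizer G a)) ≤ K :=
    cent_le hz hab hN hK
  haveI : Finite (Cfsg.IrrCharacter (stabilizer G a)) := CharInd.finite_irrCharacter
  letI := Fintype.ofFinite (Cfsg.IrrCharacter (stabilizer G a))
  set X := iiaF (stabilizer G a) K ⊥
  let toC : (stabilizer G a →* ℂˣ) ↪ (stabilizer G a → ℂ) := ⟨_, Char.monoidHom_coe_injective⟩
  set A := (Lin K).map toC ∪ X with hA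
  have hirr : ∀ x ∈ A, Cfsg.IsIrrCharacter (stabilizer G a) x := by
    intro x hx
    rcases Finset.mem_union.1 hx with h | h
    · obtain ⟨f, -, rfl⟩ := Finset.mem_map.1 h
      exact Char.isIrrCharacter_monoidHom f
    · exact irr_of_iia hC ((mem_iiaF _ K).1 h)
  have hdis : Disjoint ((Lin K).map toC) X := Finset.disjoint_left.2 fun x hx hxX => by
    obtain ⟨f, -, rfl⟩ := Finset.mem_map.1 hx
    obtain ⟨h1, h2⟩ := apply_one_dd _ K ((mem_iiaF _ K).1 hxX)
    have h3 : K.index * dd (stabilizer G a) K (toC f) = 1 := by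
      have : ((f 1 : ℂˣ) : ℂ) = (K.index : ℂ) * (dd (stabilizer G a) K (toC f) : ℂ) := h1
      rw [map_one, Units.val_one] at this
      exact_mod_cast this.symm
    have := Nat.eq_one_of_mul_eq_one_right h3
    omega
  set B : Finset (Cfsg.IrrCharacter (stabilizer G a)) :=
    A.attach.map ⟨fun x : {x // x ∈ A} => (⟨x.1, hirr x.1 x.2⟩ : Cfsg.IrrCharacter (stabilizer G a)), fun x y e => Subtype.ext (congrArg (fun t : Cfsg.IrrCharacter (stabilizer G a) => (t : stabilizer G a → ℂ)) e)⟩
      with hB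
  have hBsum : ∑ χ ∈ B, (χ : stabilizer G a → ℂ) 1 ^ 2 = (Nat.card (stabilizer G a) : ℂ) := by
    rw [hB, Finset.sum_map]
    show ∑ x ∈ A.attach, (x : stabilizer G a → ℂ) 1 ^ 2 = _
    rw [Finset.sum_attach A (fun x => x 1 ^ 2), hA, Finset.sum_union hdis, Finset.sum_map]
    have e1 : ∑ f ∈ Lin K, toC f 1 ^ 2 = (K.index : ℂ) := by
      rw [Finset.sum_congr rfl (g := fun _ => (1 : ℂ)) fun f _ => by
        show ((f 1 : ℂˣ) : ℂ) ^ 2 = 1
        rw [map_one, Units.val_one, one_pow]]
      simp [card_Lin hz hab hN hK hcomm]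
    have e2 : ∑ x ∈ X, x 1 ^ 2 = (K.index : ℂ) * ((K.index * ∑ x ∈ X, dd (stabilizer G a) K x ^ 2 : ℕ) : ℂ) := by
      push_cast
      rw [Finset.mul_sum, Finset.mul_sum]
      refine Finset.sum_congr rfl fun x hx => ?_
      rw [(apply_one_dd _ K ((mem_iiaF _ K).1 hx)).1]
      ring
    have e3 := weight_dd (stabilizer G a) K hC ⊥
    rw [Subgroup.relIndex_bot_left] at e3
    rw [e1, e2, ← K.card_mul_index, ← e3]
    push_cast
    ring
  have huniv : B = Finset.univ := by
    by_contra hne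
    obtain ⟨χ, hχ⟩ : ∃ χ, χ ∉ B := by
      by_contra! hall
      exact hne (Finset.eq_univ_iff_forall.2 hall)
    have hsplit := Finset.sum_add_sum_compl B (fun χ : Cfsg.IrrCharacter (stabilizer G a) =>
      (χ : stabilizer G a → ℂ) 1 ^ 2)
    rw [hBsum, Char.sum_irr_degree_sq, add_eq_left] at hsplit
    have hnat : ∑ ψ ∈ Bᶜ, degNat (ψ : stabilizer G a → ℂ) ^ 2 = 0 := by
      apply Nat.cast_injective (R := ℂ)
      rw [Nat.cast_zero, ← hsplit]
      push_cast
      exact Finset.sum_congr rfl fun ψ _ => by rw [← degNat_eq (Char.isCharacter_of_irr ψ.2)]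
    have h0 := (Finset.sum_eq_zero_iff.1 hnat) χ (Finset.mem_compl.2 hχ)
    obtain ⟨n, hn, hn'⟩ := Char.irr_one_pos χ.2
    have hd := degNat_eq (Char.isCharacter_of_irr χ.2)
    rw [hn', Nat.cast_inj] at hd
    rw [← hd] at h0
    exact hn.ne' (pow_eq_zero_iff two_ne_zero |>.1 h0)
  constructor
  · intro χ hχ
    have := huniv.symm ▸ Finset.mem_univ (⟨χ, hχ⟩ : Cfsg.IrrCharacter (stabilizer G a))
    obtain ⟨x, -, hx⟩ := Finset.mem_map.1 this
    have hxe : x.1 = χ := congrArg Subtype.val hx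
    rcases Finset.mem_union.1 x.2 with h | h
    · obtain ⟨f, hf, hfe⟩ := Finset.mem_map.1 h
      exact Or.inl ⟨f, hf, by rw [← hxe, ← hfe]; rfl⟩
    · exact Or.inr (hxe ▸ h)
  · rw [Nat.card_eq_fintype_card, ← Finset.card_univ, ← huniv, hB, Finset.card_map,
      Finset.card_attach, hA, Finset.card_union_of_disjoint hdis, Finset.card_map,
      card_Lin hz hab hN hK hcomm, add_comm]

end Stab

include hz hab hN hK hsw in
/-- The group has more classes than the stabiliser. -/
theorem classes_lt (hodd : Odd (Nat.card (ZData.H2 (G := G) a b)))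
    (hlt : Nat.card (ZData.H2 (G := G) a b) + 1 < Nat.card K) :
    Nat.card (ConjClasses (stabilizer G a)) + 1 ≤ Nat.card (ConjClasses G) := by
  let P : ConjClasses (stabilizer G a) → Prop := fun C => ∃ u ∈ K, ConjClasses.mk u = C
  let Q : ConjClasses G → Prop := fun C => ∀ g : G, ConjClasses.mk g = C → g ∉ N
  have hav := ZC.card_le_classes_avoiding hz hab hodd hsw hN (h := Nat.card K)
    (card_K_add_one hz hab hN hK).symm hlt
  set e := Nat.card (ZData.H2 (G := G) a b)
  have hin : Nat.card {C // P C} ≤ Nat.card {C // ¬ Q C} := by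
    let ψ : {C // P C} → {C // ¬ Q C} := fun C => ⟨ConjClasses.map (stabilizer G a).subtype C.1, fun h => by
      obtain ⟨u, hu, hC⟩ := C.2
      exact h (u : G) (by rw [← hC]; rfl) ((hK u).1 hu)⟩
    refine Nat.card_le_card_of_injective ψ ?_
    rintro ⟨C, u, hu, rfl⟩ ⟨D, v, hv, rfl⟩ h
    have h' : ConjClasses.mk (u : G) = ConjClasses.mk (v : G) := congrArg Subtype.val h
    obtain ⟨c, hc⟩ := isConj_iff.1 (ConjClasses.mk_eq_mk_iff_isConj.1 h')
    by_cases hu1 : u = 1
    · subst hu1
      have : v = 1 := Subtype.ext (by rw [← hc, Subgroup.coe_one, mul_one, mul_inv_cancel])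
      subst this
      rfl
    · have hcL : c ∈ stabilizer G a := by
        by_contra hcn
        refine hu1 (Subtype.ext (kerTI hN hK c hcn _ ((mem_map_coe (stabilizer G a) K u).2 hu) ?_))
        rw [hc]
        exact (mem_map_coe (stabilizer G a) K v).2 hv
      exact Subtype.ext (ConjClasses.mk_eq_mk_iff_isConj.2 (isConj_iff.2 ⟨⟨c, hcL⟩, Subtype.ext hc⟩))
  have hout : Nat.card {C // ¬ P C} + 1 ≤ e := by
    let E := {k : ZData.H2 (G := G) a b // k ≠ 1}
    let φ : E → {C // ¬ P C} := fun k => ⟨ConjClasses.mk ⟨(k.1 : G), (ZData.mem_H2.1 k.1.2).1⟩, by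
      rintro ⟨u, hu, hC⟩
      obtain ⟨c, hc⟩ := isConj_iff.1 (ConjClasses.mk_eq_mk_iff_isConj.1 hC)
      have hk : (⟨(k.1 : G), (ZData.mem_H2.1 k.1.2).1⟩ : stabilizer G a) ∈ K :=
        hc ▸ (inferInstance : K.Normal).conj_mem u hu c
      exact k.2 (Subtype.ext (hN.eq_one ((hK _).1 hk) hab.symm (ZData.mem_H2.1 k.1.2).2))⟩
    have hφ : Function.Surjective φ := by
      rintro ⟨C, hC⟩
      obtain ⟨x, rfl⟩ := ConjClasses.mk_surjective C
      have hxK : x ∉ K := fun h => hC ⟨x, h, rfl⟩
      obtain ⟨d, hda, hd⟩ : ∃ d, d ≠ a ∧ (x : G) • d = d := by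
        by_contra hne
        push Not at hne
        exact hxK ((hK x).2 ((hz.mem_kernel_iff hN hab).2 ⟨x.2, Or.inr hne⟩))
      obtain ⟨u, hu, hub⟩ := hN.exists_smul hab.symm hda
      have hmem : u⁻¹ * (x : G) * u ∈ ZData.H2 (G := G) a b := ZData.mem_H2.2
        ⟨by rw [mul_smul, mul_smul, hN.le hu, show (x : G) • a = a from x.2, inv_smul_eq_iff, hN.le hu],
         by rw [mul_smul, mul_smul, hub, hd, inv_smul_eq_iff, hub]⟩
      refine ⟨⟨⟨_, hmem⟩, fun e' => hxK ?_⟩, Subtype.ext ?_⟩
      · have e2 : u⁻¹ * (x : G) * u = 1 := congrArg Subtype.val e'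
        have : (x : G) = 1 := by
          calc (x : G) = u * (u⁻¹ * x * u) * u⁻¹ := by group
            _ = 1 := by rw [e2, mul_one, mul_inv_cancel]
        rw [show x = 1 from Subtype.ext this]
        exact K.one_mem
      · refine ConjClasses.mk_eq_mk_iff_isConj.2 (isConj_iff.2 ⟨⟨u, hN.le hu⟩, Subtype.ext ?_⟩)
        show u * (u⁻¹ * (x : G) * u) * u⁻¹ = x
        group
    have h1 := Nat.card_le_card_of_surjective φ hφ
    have h2 : Nat.card E + 1 = e := by
      show Nat.card E + 1 = Nat.card (ZData.H2 (G := G) a b)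
      rw [← Nat.card_congr (Equiv.sumCompl (fun k : ZData.H2 (G := G) a b => k = 1)),
        Nat.card_sum, Nat.card_unique (α := {k : ZData.H2 (G := G) a b // k = 1}), add_comm]
    omega
  have hav' : e ≤ Nat.card {C // Q C} := hav
  rw [← Nat.card_congr (Equiv.sumCompl P), ← Nat.card_congr (Equiv.sumCompl Q), Nat.card_sum,
    Nat.card_sum]
  omega

end Cfsg.Agent.CharDeep.ZF
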