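import Mathlib
import Cfsg.Agent.CharDeep.ZassFeitSetup

/-!
A simple Zassenhaus group has no coherent kernel of large order.
-/

set_option autoImplicit false
set_option linter.unusedSectionVars false
set_option linter.style.haveILetI false

noncomputable section

namespace Cfsg.Agent.CharDeep.ZF

open MulAction Finset
open scoped Classical ComplexConjugate BigOperators
open Cfsg.Agent Cfsg.Agent.CharInd Cfsg.Agent.OddChar43
open Cfsg.Agent.PermB (ZData)

variable {G α : Type*} [Group G] [MulAction G α] [Fintype G] [Fintype α]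

/-- Bessel's inequality for irreducible characters and integral coefficients. -/
theorem bessel {φ : G → ℂ} (T : Finset (G → ℂ)) (hT : ∀ t ∈ T, Cfsg.IsIrrCharacter G t)
    (b : (G → ℂ) → ℤ) (hb : ∀ t ∈ T, Cfsg.classInner φ t = (b t : ℂ)) (n : ℤ)
    (hn : Cfsg.classInner φ φ = (n : ℂ)) : ∑ t ∈ T, b t ^ 2 ≤ n := by
  set ψ := ∑ t ∈ T, (b t : ℂ) • t with hψ
  have h1 : Cfsg.classInner φ ψ = ((∑ t ∈ T, b t ^ 2 : ℤ) : ℂ) := by
    rw [hψ, ci_sum_right]
    push_cast
    refine Finset.sum_congr rfl fun t ht => ?_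
    rw [CharInd.classInner_smul_right, hb t ht, map_intCast]
    ring
  have h2 : Cfsg.classInner ψ ψ = ((∑ t ∈ T, b t ^ 2 : ℤ) : ℂ) := by
    rw [hψ, ci_sum_left]
    push_cast
    refine Finset.sum_congr rfl fun t ht => ?_
    rw [CharInd.classInner_smul_left, ci_sum_right, Finset.sum_eq_single t]
    · rw [CharInd.classInner_smul_right, irr_self (hT t ht), map_intCast]
      ring
    · intro u hu hne
      rw [CharInd.classInner_smul_right, irr_ne (hT t ht) (hT u hu) hne.symm, mul_zero]
    · exact fun h => absurd ht h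
  have h3 := ci_self_re_nonneg (φ - ψ)
  rw [CharInd.classInner_sub_left, CharInd.classInner_sub_right, CharInd.classInner_sub_right, hn,
    h1, h2, ← CharInd.classInner_swap φ ψ, h1, map_intCast] at h3
  simp only [Complex.sub_re, Complex.intCast_re] at h3
  have : (0 : ℝ) ≤ ((n - ∑ t ∈ T, b t ^ 2 : ℤ) : ℝ) := by push_cast; push_cast at h3; linarith
  exact sub_nonneg.1 (by exact_mod_cast this)

/-- A character is at least the sum of constituents of multiplicity one. -/
theorem deg_bound {Θ : G → ℂ} (hΘ : Cfsg.IsCharacter G Θ) (T : Finset (G → ℂ))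
    (hT : ∀ t ∈ T, Cfsg.IsIrrCharacter G t) (h1 : ∀ t ∈ T, Cfsg.classInner Θ t = 1) :
    ∑ t ∈ T, degNat t ≤ degNat Θ := by
  haveI : Finite (Cfsg.IrrCharacter G) := CharInd.finite_irrCharacter
  letI := Fintype.ofFinite (Cfsg.IrrCharacter G)
  obtain ⟨n, hn⟩ := CharInd.isCharacter_coef hΘ
  have hdeg : degNat Θ = ∑ ξ, n ξ * degNat (ξ : G → ℂ) := by
    apply Nat.cast_injective (R := ℂ)
    rw [← degNat_eq hΘ]
    conv_lhs => rw [hn]
    rw [Finset.sum_apply]
    push_cast
    refine Finset.sum_congr rfl fun ξ _ => ?_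
    rw [Pi.smul_apply, smul_eq_mul, degNat_eq (Char.isCharacter_of_irr ξ.2)]
  let j : {t // t ∈ T} ↪ Cfsg.IrrCharacter G :=
    ⟨fun t => ⟨t.1, hT t.1 t.2⟩, fun t u e =>
      Subtype.ext (congrArg (fun s : Cfsg.IrrCharacter G => (s : G → ℂ)) e)⟩
  have hone : ∀ t : {t // t ∈ T}, n (j t) = 1 := by
    intro t
    have e := h1 t.1 t.2
    rw [hn] at e
    have := (CharInd.classInner_irrSum (fun ξ => (n ξ : ℂ)) (j t)).symm.trans e
    exact_mod_cast this
  calc ∑ t ∈ T, degNat t = ∑ ξ ∈ T.attach.map j, n ξ * degNat (ξ : G → ℂ) := by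
        rw [Finset.sum_map, ← Finset.sum_attach]
        exact Finset.sum_congr rfl fun t _ => by rw [hone t, one_mul]; rfl
    _ ≤ _ := hdeg ▸ Finset.sum_le_sum_of_subset (Finset.subset_univ _)

variable (hz : ZData G α) {a b : α} (hab : a ≠ b)
  {N : Subgroup G} (hN : PermB.IsKernel N a)
  {K : Subgroup (stabilizer G a)} [K.Normal] (hK : ∀ u : stabilizer G a, u ∈ K ↔ (u : G) ∈ N)
  (hsw : ZC.SwapInvol G α)

include hz hab hN hK hsw in
theorem lin_inner {f f' : stabilizer G a →* ℂˣ} (hf : f ∈ Lin K) (hf' : f' ∈ Lin K) :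
    Cfsg.classInner
        (fun u : stabilizer G a => Cfsg.indFun (stabilizer G a) (fun v => (f v : ℂ)) (u : G))
        (fun u => (f' u : ℂ)) =
      (if f = f' then 1 else 0) + (if f⁻¹ = f' then 1 else 0) := by
  rw [res_ind_lin hz hab hN hK hsw f hf, CharInd.classInner_add_left, CharInd.classInner_sub_left,
    CharInd.classInner_add_left, CharInd.classInner_smul_left, inner_delta,
    irr_ortho (Char.isIrrCharacter_monoidHom f) (Char.isIrrCharacter_monoidHom f'),
    irr_ortho (Char.isIrrCharacter_monoidHom f⁻¹) (Char.isIrrCharacter_monoidHom f')]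
  have h1 : Cfsg.classInner (oneOn K) (fun u => (f' u : ℂ)) =
      (Nat.card (stabilizer G a) : ℂ)⁻¹ * (Nat.card K : ℂ) := by
    simp only [Cfsg.classInner, oneOn]
    congr 1
    rw [Finset.sum_congr rfl (g := fun u => if u ∈ K then (1 : ℂ) else 0) (fun u _ => by
      by_cases hu : u ∈ K
      · rw [if_pos hu, mem_Lin.1 hf' u hu]; simp
      · rw [if_neg hu, zero_mul])]
    rw [Finset.sum_boole, Nat.card_eq_fintype_card, Fintype.card_subtype]
  rw [h1, map_one, Units.val_one, map_one]
  have e1 : ∀ p q : stabilizer G a →* ℂˣ,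
      ((fun u => (p u : ℂ)) = fun u => (q u : ℂ)) ↔ p = q :=
    fun p q => Char.monoidHom_coe_injective.eq_iff
  simp only [e1]
  ring

include hz hab hN hK hsw in
theorem supp_lin_inner {x : stabilizer G a → ℂ}
    (hx : x ∈ iiaF (stabilizer G a) K ⊥) (hxlin : ∀ f ∈ Lin K, x ≠ fun u => (f u : ℂ))
    {f : stabilizer G a →* ℂˣ} (hf : f ∈ Lin K) :
    Cfsg.classInner x
        (fun u : stabilizer G a => Cfsg.indFun (stabilizer G a) (fun v => (f v : ℂ)) (u : G)) =
      (dd (stabilizer G a) K x : ℂ) := by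
  have hC : ∀ n ∈ K, n ≠ 1 → Subgroup.centralizer ({n} : Set (stabilizer G a)) ≤ K :=
    cent_le hz hab hN hK
  rw [mem_iiaF] at hx
  have hx' := irr_of_iia hC hx
  have hfi : f⁻¹ ∈ Lin K := mem_Lin.2 fun u hu => by
    rw [MonoidHom.inv_apply, mem_Lin.1 hf u hu, inv_one]
  have hone : Cfsg.classInner x (oneOn K) = 0 := by
    have : Cfsg.classInner x (oneOn K) =
        Cfsg.classInner x (fun u => (((1 : stabilizer G a →* ℂˣ) u : ℂˣ) : ℂ)) := by
      simp only [Cfsg.classInner, oneOn]
      congr 1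
      refine Finset.sum_congr rfl fun u _ => ?_
      by_cases hu : u ∈ K
      · rw [if_pos hu]; simp
      · rw [if_neg hu, supp_K hx hu]; simp
    rw [this, irr_ne hx' (Char.isIrrCharacter_monoidHom _) (hxlin 1 (mem_Lin.2 fun u _ => rfl))]
  rw [res_ind_lin hz hab hN hK hsw f hf, CharInd.classInner_add_right, CharInd.classInner_sub_right,
    CharInd.classInner_add_right, CharInd.classInner_smul_right,
    irr_ne hx' (Char.isIrrCharacter_monoidHom f) (hxlin f hf),
    irr_ne hx' (Char.isIrrCharacter_monoidHom f⁻¹) (hxlin f⁻¹ hfi), hone,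
    ← CharInd.classInner_swap (delta _) x, inner_delta, (apply_one_dd _ K hx).1,
    ← K.card_mul_index]
  have h1 : (Nat.card K : ℂ) ≠ 0 := Nat.cast_ne_zero.2 Nat.card_pos.ne'
  have h2 : (K.index : ℂ) ≠ 0 := Nat.cast_ne_zero.2 Subgroup.index_ne_zero_of_finite
  simp only [map_mul, map_inv₀, Complex.conj_natCast, Complex.conj_conj, Nat.cast_mul]
  field_simp
  ring

variable (hcomm : ∀ x y : G, x ∈ ZData.H2 (G := G) a b → y ∈ ZData.H2 (G := G) a b → x * y = y * x)
  (hodd : Odd (Nat.card (ZData.H2 (G := G) a b)))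

include hz hab hN hK hsw hcomm hodd in
/-- The contradiction from coherence. -/
theorem coh_false (he3 : 3 ≤ K.index) (hbig : 2 * K.index + 1 < Nat.card K)
    {x₀ : stabilizer G a → ℂ} {ν : (stabilizer G a → ℂ) → (G → ℂ)}
    (hcoh : IsCoh (stabilizer G a) K (iiaF (stabilizer G a) K ⊥) x₀ ν) : False := by
  have hC : ∀ n ∈ K, n ≠ 1 → Subgroup.centralizer ({n} : Set (stabilizer G a)) ≤ K :=
    cent_le hz hab hN hK
  obtain ⟨hcases, hirrL⟩ := irr_cases hz hab hN hK hcomm (by omega)
  have hcl := classes_lt hz hab hN hK hsw hodd (by rw [← index_K hz hab hN hK]; omega)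
  rw [← Char.card_irr_eq_card_conjClasses, ← Char.card_irr_eq_card_conjClasses, hirrL] at hcl
  have hLamCard := card_Lin hz hab hN hK hcomm
  set Λ := Lin K with hΛdef
  set X := iiaF (stabilizer G a) K ⊥ with hXdef
  have hXi : ∀ x ∈ X, x ∈ Cfsg.inducedIrrAbove K ⊥ := fun x hx => (mem_iiaF _ K).1 hx
  have hXirr : ∀ x ∈ X, Cfsg.IsIrrCharacter (stabilizer G a) x := fun x hx => irr_of_iia hC (hXi x hx)
  -- degrees
  have hW := weight_dd (stabilizer G a) K hC ⊥
  rw [Subgroup.relIndex_bot_left] at hW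
  set M := ∑ x ∈ X, dd (stabilizer G a) K x ^ 2 with hMdef
  have hM : 3 ≤ M := by
    by_contra hlt
    have : K.index * M ≤ K.index * 2 := Nat.mul_le_mul_left _ (by omega)
    omega
  have hx0 := hcoh.base_mem
  have hd0 := hcoh.base_deg
  have hXlin : ∀ x ∈ X, ∀ f ∈ Λ, x ≠ fun u => (f u : ℂ) := by
    intro x hx f _ e
    obtain ⟨h1, h2⟩ := apply_one_dd _ K (hXi x hx)
    rw [e] at h1 h2
    simp only [map_one, Units.val_one] at h1
    have h3 : K.index * dd (stabilizer G a) K (fun u => (f u : ℂ)) = 1 := by exact_mod_cast h1.symm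
    have := Nat.eq_one_of_mul_eq_one_right h3
    omega
  have hKpos : (0 : ℝ) < (Nat.card K : ℝ) := by exact_mod_cast Nat.card_pos
  -- the induced linear characters
  let F : (stabilizer G a →* ℂˣ) → (G → ℂ) := fun f =>
    Cfsg.indFun (stabilizer G a) (fun v => (f v : ℂ))
  have hFchar : ∀ f, Cfsg.IsCharacter G (F f) := fun f =>
    CharInd.isCharacter_indFun _ (Char.isCharacter_of_irr (Char.isIrrCharacter_monoidHom f))
  have hFcf : ∀ f, Cfsg.IsClassFunction G (F f) := fun f => CharInd.indFun_isClassFunction _ _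
  have hF1 : ∀ f ∈ Λ, F f 1 = ((Nat.card K + 1 : ℕ) : ℂ) := by
    intro f hf
    have := congrFun (res_ind_lin hz hab hN hK hsw f hf) 1
    simp only [Pi.add_apply, Pi.sub_apply, Pi.smul_apply, map_one, Units.val_one, oneOn,
      if_pos K.one_mem, delta, if_pos, smul_eq_mul, mul_one, Subgroup.coe_one] at this
    rw [show F f 1 = Cfsg.indFun (stabilizer G a) (fun v => (f v : ℂ)) 1 from rfl, this]
    push_cast
    ring
  have hFF : ∀ f ∈ Λ, ∀ f' ∈ Λ, Cfsg.classInner (F f) (F f') =
      (if f = f' then 1 else 0) + (if f⁻¹ = f' then 1 else 0) := by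
    intro f hf f' hf'
    rw [CharInd.classInner_indFun_right _ _ (hFcf f)]
    exact lin_inner hz hab hN hK hsw hf hf'
  have hxF : ∀ x ∈ X, ∀ f ∈ Λ, Cfsg.classInner x (fun u : stabilizer G a => F f (u : G)) =
      (dd (stabilizer G a) K x : ℂ) := fun x hx f hf =>
    supp_lin_inner hz hab hN hK hsw hx (hXlin x hx) hf
  have h1Λ : (1 : stabilizer G a →* ℂˣ) ∈ Λ := mem_Lin.2 fun u _ => rfl
  -- trivial and Steinberg
  set one : G → ℂ := fun _ => 1 with honedef
  have hone : Cfsg.IsIrrCharacter G one := CharInd.irr_one_const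
  have honeL : (fun u : stabilizer G a => one (u : G)) =
      fun u => (((1 : stabilizer G a →* ℂˣ) u : ℂˣ) : ℂ) := by funext u; simp [honedef]
  have hFone : ∀ f ∈ Λ, Cfsg.classInner (F f) one = if f = 1 then 1 else 0 := by
    intro f _
    rw [CharInd.classInner_indFun_left _ _ (Char.irr_isClassFunction hone), honeL,
      irr_ortho (Char.isIrrCharacter_monoidHom f) (Char.isIrrCharacter_monoidHom 1)]
    simp only [Char.monoidHom_coe_injective.eq_iff]
  set St : G → ℂ := F 1 - one with hStdef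
  have hSt1 : St 1 = (Nat.card K : ℂ) := by
    rw [hStdef, Pi.sub_apply, hF1 1 h1Λ, honedef]
    push_cast
    ring
  have hSt : Cfsg.IsIrrCharacter G St := by
    refine CharInd.genChar_norm_one_pos
      (CharInd.genChar_sub (CharInd.genChar_of_isCharacter (hFchar 1)) (CharInd.genChar_irr hone)) ?_ ?_
    · rw [hStdef, CharInd.classInner_sub_left, CharInd.classInner_sub_right,
        CharInd.classInner_sub_right, hFF 1 h1Λ 1 h1Λ, ← CharInd.classInner_swap (F 1) one,
        hFone 1 h1Λ, irr_self hone]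
      rw [if_pos (rfl : (1 : stabilizer G a →* ℂˣ) = 1), if_pos (show (1 : stabilizer G a →* ℂˣ)⁻¹ = 1 from
        MonoidHom.ext fun _ => inv_one), map_one]
      ring
    · rw [hSt1, Complex.natCast_re]; exact hKpos
  set FS := (Λ.erase 1).image F with hFSdef
  have hFirr : ∀ f ∈ Λ, f ≠ 1 → Cfsg.IsIrrCharacter G (F f) := fun f hf hf1 =>
    ZC.indFun_linear_irr hz hab hodd hsw hN f (fun u hu => mem_Lin.1 hf u ((hK u).2 hu)) hf1
  have hFS : ∀ t ∈ FS, ∃ f ∈ Λ, f ≠ 1 ∧ F f = t := fun t ht => by
    obtain ⟨f, hf, rfl⟩ := Finset.mem_image.1 ht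
    exact ⟨f, (Finset.mem_erase.1 hf).2, (Finset.mem_erase.1 hf).1, rfl⟩
  have hfib : K.index - 1 ≤ 2 * FS.card := by
    rw [← hLamCard, ← Finset.card_erase_of_mem h1Λ]
    refine Finset.card_le_mul_card_image _ 2 fun t ht => ?_
    obtain ⟨f₀, hf₀, hf₀1, rfl⟩ := hFS t ht
    refine le_trans (Finset.card_le_card (t := {f₀, f₀⁻¹}) fun f hf => ?_) Finset.card_le_two
    obtain ⟨hf', hfe⟩ := Finset.mem_filter.1 hf
    have e := hFF f₀ hf₀ f (Finset.mem_erase.1 hf').2
    rw [hfe, irr_self (hFirr f₀ hf₀ hf₀1)] at e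
    rw [Finset.mem_insert, Finset.mem_singleton]
    by_contra hcon
    push Not at hcon
    rw [if_neg hcon.1.symm, if_neg hcon.2.symm, add_zero] at e
    exact one_ne_zero e
  set P : Finset (G → ℂ) := insert one (insert St FS) with hPdef
  have hPirr : ∀ p ∈ P, Cfsg.IsIrrCharacter G p := by
    intro p hp
    rcases Finset.mem_insert.1 hp with rfl | hp
    · exact hone
    rcases Finset.mem_insert.1 hp with rfl | hp
    · exact hSt
    obtain ⟨f, hf, hf1, rfl⟩ := hFS p hp
    exact hFirr f hf hf1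
  have hStFS : St ∉ FS := fun h => by
    obtain ⟨f, hf, -, e⟩ := hFS St h
    have := congrFun e 1
    rw [hF1 f hf, hSt1, Nat.cast_inj] at this
    omega
  have honeP : one ∉ insert St FS := fun h => by
    rcases Finset.mem_insert.1 h with e | h
    · have := congrFun e 1
      rw [hSt1, show one 1 = ((1 : ℕ) : ℂ) by simp [honedef], Nat.cast_inj] at this
      omega
    · obtain ⟨f, hf, -, e⟩ := hFS one h
      have := congrFun e 1
      rw [hF1 f hf, show one 1 = ((1 : ℕ) : ℂ) by simp [honedef], Nat.cast_inj] at this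
      omega
  -- induced differences
  have hrel : ∀ x ∈ X, ∀ (ψ : G → ℂ), Cfsg.IsClassFunction G ψ →
      Cfsg.classInner (ν x) ψ - (dd (stabilizer G a) K x : ℂ) * Cfsg.classInner (ν x₀) ψ =
        Cfsg.classInner x (fun u : stabilizer G a => ψ (u : G)) -
          (dd (stabilizer G a) K x : ℂ) * Cfsg.classInner x₀ (fun u : stabilizer G a => ψ (u : G)) := by
    intro x hx ψ hψ
    rw [← CharInd.classInner_smul_left, ← CharInd.classInner_sub_left, hcoh.rel x hx,
      CharInd.classInner_indFun_left _ _ hψ, CharInd.classInner_sub_left, CharInd.classInner_smul_left]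
  have hνP : ∀ x ∈ X, ∀ p ∈ P, Cfsg.classInner (ν x) p =
      (dd (stabilizer G a) K x : ℂ) * Cfsg.classInner (ν x₀) p := by
    intro x hx p hp
    have hF : ∀ f ∈ Λ, Cfsg.classInner (ν x) (F f) =
        (dd (stabilizer G a) K x : ℂ) * Cfsg.classInner (ν x₀) (F f) := by
      intro f hf
      have := hrel x hx (F f) (hFcf f)
      rw [hxF x hx f hf, hxF x₀ hx0 f hf, hd0, Nat.cast_one, mul_one, sub_self] at this
      exact sub_eq_zero.1 this
    have h1' : Cfsg.classInner (ν x) one =
        (dd (stabilizer G a) K x : ℂ) * Cfsg.classInner (ν x₀) one := by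
      have := hrel x hx one (Char.irr_isClassFunction hone)
      rw [honeL, irr_ne (hXirr x hx) (Char.isIrrCharacter_monoidHom 1) (hXlin x hx 1 h1Λ),
        irr_ne (hXirr x₀ hx0) (Char.isIrrCharacter_monoidHom 1) (hXlin x₀ hx0 1 h1Λ), mul_zero,
        sub_zero] at this
      exact sub_eq_zero.1 this
    rcases Finset.mem_insert.1 hp with rfl | hp
    · exact h1'
    rcases Finset.mem_insert.1 hp with rfl | hp
    · rw [hStdef, CharInd.classInner_sub_right, CharInd.classInner_sub_right, hF 1 h1Λ, h1']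
      ring
    obtain ⟨f, hf, -, rfl⟩ := hFS p hp
    exact hF f hf
  -- the irreducible parts
  let σ : (stabilizer G a → ℂ) → (G → ℂ) := fun x =>
    if Cfsg.IsIrrCharacter G (ν x) then ν x else -ν x
  have hσirr : ∀ x ∈ X, Cfsg.IsIrrCharacter G (σ x) := by
    intro x hx
    simp only [σ]
    split_ifs with h
    · exact h
    · exact (hcoh.signed x hx).resolve_left h
  have hσeq : ∀ x, ν x = σ x ∨ ν x = -σ x := by
    intro x
    simp only [σ]
    split_ifs
    · exact Or.inl rfl
    · exact Or.inr (neg_neg _).symm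
  have hνirr : ∀ x ∈ X, ∀ t, Cfsg.IsIrrCharacter G t → t ≠ σ x → Cfsg.classInner (ν x) t = 0 := by
    intro x hx t ht hne
    rcases hσeq x with e | e <;> rw [e]
    · exact irr_ne (hσirr x hx) ht hne.symm
    · rw [show -σ x = (-1 : ℂ) • σ x by simp, CharInd.classInner_smul_left,
        irr_ne (hσirr x hx) ht hne.symm, mul_zero]
  have hσne : ∀ x ∈ X, Cfsg.classInner (ν x) (σ x) ≠ 0 := by
    intro x hx
    rcases hσeq x with e | e <;> rw [e]
    · rw [irr_self (hσirr x hx)]; exact one_ne_zero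
    · rw [show -σ x = (-1 : ℂ) • σ x by simp, CharInd.classInner_smul_left, irr_self (hσirr x hx)]
      norm_num
  have hσinj : ∀ x ∈ X, ∀ y ∈ X, σ x = σ y → x = y := by
    intro x hx y hy e
    by_contra hne
    have h1 := hcoh.ortho x hx y hy
    rw [if_neg hne] at h1
    rcases hσeq y with e' | e'
    · rw [e', ← e] at h1; exact hσne x hx h1
    · rw [e', ← e, show -σ x = (-1 : ℂ) • σ x by simp, CharInd.classInner_smul_right] at h1
      exact hσne x hx (by simpa using h1)
  set NS := X.image σ with hNSdef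
  have hdisPN : ∀ x ∈ X, σ x ∉ P := by
    intro x hx hxP
    have h1 := hνP x hx (σ x) hxP
    have h2 : Cfsg.classInner (ν x₀) (σ x) ≠ 0 := fun e => hσne x hx (by rw [h1, e, mul_zero])
    have hall : ∀ y ∈ X, y = x := by
      intro y hy
      by_contra hne
      have h3 := hνP y hy (σ x) hxP
      rw [hνirr y hy (σ x) (hPirr _ hxP) (fun e => hne (hσinj y hy x hx e.symm))] at h3
      exact mul_ne_zero (Nat.cast_ne_zero.2 (apply_one_dd _ K (hXi y hy)).2.ne') h2 h3.symm
    have hX1 : X = {x₀} := Finset.eq_singleton_iff_unique_mem.2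
      ⟨hx0, fun y hy => (hall y hy).trans (hall x₀ hx0).symm⟩
    rw [hMdef, hX1, Finset.sum_singleton, hd0] at hM
    omega
  -- the column of the base character
  set φ : G → ℂ := Cfsg.indFun (stabilizer G a) x₀ with hφdef
  have hφcf : Cfsg.IsClassFunction G φ := CharInd.indFun_isClassFunction _ _
  have hφgen : Cfsg.IsGeneralizedCharacter G φ :=
    CharInd.genChar_of_isCharacter (CharInd.isCharacter_indFun _ (Char.isCharacter_of_irr (hXirr x₀ hx0)))
  have hx01 : x₀ 1 = (K.index : ℂ) := by
    rw [(apply_one_dd _ K (hXi x₀ hx0)).1, hd0, Nat.cast_one, mul_one]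
  have hresφ := res_ind_supp hz hab hN hK x₀ (Char.irr_isClassFunction (hXirr x₀ hx0))
    (fun u hu => supp_K (hXi x₀ hx0) hu)
  have hφz : ∀ z : stabilizer G a → ℂ, Cfsg.classInner (fun u : stabilizer G a => φ (u : G)) z =
      Cfsg.classInner x₀ z + conj (z 1) := by
    intro z
    rw [hφdef, hresφ, CharInd.classInner_add_left, CharInd.classInner_smul_left, inner_delta, hx01,
      ← K.card_mul_index]
    have h1 : (Nat.card K : ℂ) ≠ 0 := Nat.cast_ne_zero.2 Nat.card_pos.ne'
    have h2 : (K.index : ℂ) ≠ 0 := Nat.cast_ne_zero.2 Subgroup.index_ne_zero_of_finite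
    push_cast
    field_simp
  have hφφ : Cfsg.classInner φ φ = ((1 + K.index : ℤ) : ℂ) := by
    conv_lhs => arg 2; rw [hφdef]
    rw [CharInd.classInner_indFun_right _ _ hφcf, hφz, irr_self (hXirr x₀ hx0), hx01,
      Complex.conj_natCast]
    push_cast
    ring
  have hφF : ∀ f ∈ Λ, Cfsg.classInner φ (F f) = 1 := by
    intro f hf
    rw [hφdef, CharInd.classInner_indFun_left _ _ (hFcf f), hxF x₀ hx0 f hf, hd0, Nat.cast_one]
  have hφone : Cfsg.classInner φ one = 0 := by
    rw [hφdef, CharInd.classInner_indFun_left _ _ (Char.irr_isClassFunction hone), honeL,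
      irr_ne (hXirr x₀ hx0) (Char.isIrrCharacter_monoidHom 1) (hXlin x₀ hx0 1 h1Λ)]
  obtain ⟨t₀, ht₀⟩ := isGen_ci_int hφgen (OddChar.signed_isGeneralized (hcoh.signed x₀ hx0))
  have hφν : ∀ y ∈ X, Cfsg.classInner φ (ν y) =
      (((dd (stabilizer G a) K y : ℤ) * (t₀ - 1) + if y = x₀ then 1 else 0 : ℤ) : ℂ) := by
    intro y hy
    have e : Cfsg.classInner φ (ν y - (dd (stabilizer G a) K y : ℂ) • ν x₀) =
        Cfsg.classInner (fun u : stabilizer G a => φ (u : G))
          (y - (dd (stabilizer G a) K y : ℂ) • x₀) := by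
      rw [hcoh.rel y hy, CharInd.classInner_indFun_right _ _ hφcf]
    rw [CharInd.classInner_sub_right, CharInd.classInner_smul_right, ht₀, hφz,
      CharInd.classInner_sub_right, CharInd.classInner_smul_right,
      irr_ortho (hXirr x₀ hx0) (hXirr y hy), irr_self (hXirr x₀ hx0), Pi.sub_apply, Pi.smul_apply,
      smul_eq_mul, hx01, (apply_one_dd _ K (hXi y hy)).1, Complex.conj_natCast, sub_eq_iff_eq_add] at e
    rw [e]
    by_cases hy0 : y = x₀
    · rw [if_pos hy0, if_pos hy0.symm]; simp [map_mul]; ring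
    · rw [if_neg hy0, if_neg (Ne.symm hy0)]; simp [map_mul]; ring
  haveI : Finite (Cfsg.IrrCharacter G) := CharInd.finite_irrCharacter
  letI := Fintype.ofFinite (Cfsg.IrrCharacter G)
  set All : Finset (G → ℂ) := (Finset.univ : Finset (Cfsg.IrrCharacter G)).map
    ⟨fun χ : Cfsg.IrrCharacter G => (χ : G → ℂ), fun χ ψ e => Subtype.ext e⟩ with hAlldef
  have hAllirr : ∀ t ∈ All, Cfsg.IsIrrCharacter G t := fun t ht => by
    obtain ⟨χ, -, rfl⟩ := Finset.mem_map.1 ht
    exact χ.2
  have hmemAll : ∀ t, Cfsg.IsIrrCharacter G t → t ∈ All := fun t ht =>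
    Finset.mem_map.2 ⟨⟨t, ht⟩, Finset.mem_univ _, rfl⟩
  have hAllcard : All.card = Nat.card (Cfsg.IrrCharacter G) := by
    rw [hAlldef, Finset.card_map, Finset.card_univ, Nat.card_eq_fintype_card]
  have hex : ∀ t, ∃ n : ℤ, Cfsg.IsIrrCharacter G t → Cfsg.classInner φ t = (n : ℂ) := by
    intro t
    by_cases ht : Cfsg.IsIrrCharacter G t
    · obtain ⟨n, hn⟩ := isGen_ci_int hφgen (CharInd.genChar_irr ht)
      exact ⟨n, fun _ => hn⟩
    · exact ⟨0, fun h => absurd h ht⟩
  choose β hβ using hex
  set Γ := All \ (P ∪ NS) with hΓdef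
  have hΓ : ∀ t ∈ Γ, β t ≠ 0 := by
    intro t ht h0
    obtain ⟨htA, htn⟩ := Finset.mem_sdiff.1 ht
    rw [Finset.mem_union, not_or] at htn
    have htirr := hAllirr t htA
    have htν : ∀ x ∈ X, Cfsg.classInner t (ν x) = 0 := fun x hx => by
      rw [← CharInd.classInner_swap (ν x) t, hνirr x hx t htirr
        (fun e => htn.2 (e ▸ Finset.mem_image_of_mem σ hx)), map_zero]
    have htφ : Cfsg.classInner t φ = 0 := by
      rw [← CharInd.classInner_swap φ t, hβ t htirr, h0, Int.cast_zero, map_zero]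
    have htP : ∀ p ∈ P, Cfsg.classInner t p = 0 := fun p hp =>
      irr_ne htirr (hPirr p hp) fun e => htn.1 (e ▸ hp)
    have htcf := Char.irr_isClassFunction htirr
    have hres : (fun u : stabilizer G a => t (u : G)) = 0 := by
      refine Char.eq_zero_of_classInner_irr_eq_zero (fun u v => htcf (u : G) (v : G)) fun χ => ?_
      rcases hcases _ χ.2 with ⟨f, hf, e⟩ | hX'
      · rw [e, ← CharInd.classInner_indFun_right _ _ htcf]
        by_cases hf1 : f = 1
        · subst hf1
          rw [show Cfsg.indFun (stabilizer G a) (fun v => (((1 : stabilizer G a →* ℂˣ) v : ℂˣ) : ℂ)) =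
            one + St by rw [hStdef]; abel, CharInd.classInner_add_right,
            htP one (Finset.mem_insert_self _ _),
            htP St (Finset.mem_insert_of_mem (Finset.mem_insert_self _ _)), add_zero]
        · exact htP _ (Finset.mem_insert_of_mem (Finset.mem_insert_of_mem
            (Finset.mem_image_of_mem F (Finset.mem_erase.2 ⟨hf1, hf⟩))))
      · rw [← CharInd.classInner_indFun_right _ _ htcf]
        have e := hcoh.rel _ hX'
        rw [CharInd.indFun_sub, CharInd.indFun_smul, eq_sub_iff_add_eq] at e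
        rw [← e, CharInd.classInner_add_right, CharInd.classInner_sub_right,
          CharInd.classInner_smul_right, CharInd.classInner_smul_right, htν _ hX', htν _ hx0, ← hφdef,
          htφ]
        ring
    exact OddChar.signed_one_ne_zero (Or.inl htirr) (congrFun hres 1)
  have hTsub : P ∪ NS ⊆ All := by
    intro t ht
    rcases Finset.mem_union.1 ht with h | h
    · exact hmemAll t (hPirr t h)
    · obtain ⟨x, hx, rfl⟩ := Finset.mem_image.1 h
      exact hmemAll _ (hσirr x hx)
  have hdis : Disjoint P NS := Finset.disjoint_left.2 fun p hp hpN => by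
    obtain ⟨x, hx, rfl⟩ := Finset.mem_image.1 hpN
    exact hdisPN x hx hp
  have hNScard : NS.card = X.card := Finset.card_image_of_injOn hσinj
  have hPcard : P.card = FS.card + 2 := by
    rw [hPdef, Finset.card_insert_of_notMem honeP, Finset.card_insert_of_notMem hStFS]
  have hΓcard : (K.index : ℤ) - 1 - FS.card ≤ Γ.card := by
    have h1 : Γ.card = All.card - (P ∪ NS).card := Finset.card_sdiff_of_subset hTsub
    rw [Finset.card_union_of_disjoint hdis, hPcard, hNScard, hAllcard] at h1
    omega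
  set c := t₀ - 1 with hc
  have hβP : ∑ t ∈ P, β t ^ 2 = (FS.card : ℤ) + 1 := by
    have e1 : β one = 0 := by
      have := hβ one hone
      rw [hφone] at this
      exact_mod_cast this.symm
    have e2 : β St = 1 := by
      have := hβ St hSt
      rw [hStdef, CharInd.classInner_sub_right, hφone, hφF 1 h1Λ, sub_zero] at this
      rw [← hStdef] at this
      exact_mod_cast this.symm
    rw [hPdef, Finset.sum_insert honeP, Finset.sum_insert hStFS, e1, e2,
      Finset.sum_congr rfl (g := fun _ => (1 : ℤ)) fun t ht => by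
        obtain ⟨f, hf, hf1, rfl⟩ := hFS t ht
        have := hβ _ (hFirr f hf hf1)
        rw [hφF f hf] at this
        rw [show β (F f) = 1 by exact_mod_cast this.symm, one_pow]]
    simp
    ring
  have hβN : ∑ t ∈ NS, β t ^ 2 = c ^ 2 * (M : ℤ) + 2 * c + 1 := by
    rw [hNSdef, Finset.sum_image hσinj]
    have e : ∀ y ∈ X, β (σ y) ^ 2 = c ^ 2 * (dd (stabilizer G a) K y : ℤ) ^ 2 +
        (if y = x₀ then 2 * c + 1 else 0) := by
      intro y hy
      have h1 := hβ _ (hσirr y hy)
      have h2 := hφν y hy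
      set v : ℤ := (dd (stabilizer G a) K y : ℤ) * (t₀ - 1) + if y = x₀ then 1 else 0 with hv
      have h3 : β (σ y) ^ 2 = v ^ 2 := by
        rcases hσeq y with e' | e'
        · rw [e', h1] at h2
          rw [Int.cast_inj.1 h2]
        · rw [e', show -σ y = (-1 : ℂ) • σ y by simp, CharInd.classInner_smul_right, h1] at h2
          simp only [map_neg, map_one] at h2
          have : -β (σ y) = v := by exact_mod_cast (by linear_combination h2 : (-(β (σ y) : ℂ)) = v)
          rw [← this, neg_sq]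
      rw [h3, hv, ← hc]
      by_cases hy0 : y = x₀
      · rw [if_pos hy0, if_pos hy0, hy0, hd0]; push_cast; ring
      · rw [if_neg hy0, if_neg hy0]; ring
    rw [Finset.sum_congr rfl e, Finset.sum_add_distrib, ← Finset.mul_sum, Finset.sum_ite_eq',
      if_pos hx0, hMdef]
    push_cast
    ring
  have hineq : ((FS.card : ℤ) + 1) + (c ^ 2 * (M : ℤ) + 2 * c + 1) + Γ.card ≤ 1 + K.index := by
    have hb := bessel All hAllirr β (fun t ht => hβ t (hAllirr t ht)) _ hφφ
    rw [← Finset.union_sdiff_of_subset hTsub, Finset.sum_union (Finset.disjoint_sdiff),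
      Finset.sum_union hdis, hβP, hβN] at hb
    have hg : (Γ.card : ℤ) ≤ ∑ t ∈ Γ, β t ^ 2 := by
      rw [Finset.card_eq_sum_ones, Nat.cast_sum, Nat.cast_one]
      exact Finset.sum_le_sum fun t ht => by
        have := sq_pos_of_ne_zero (hΓ t ht)
        omega
    linarith
  have hc0 : c = 0 := by
    have h3 : c ^ 2 * (M : ℤ) + 2 * c ≤ 0 := by linarith
    by_contra hne
    have h4 : (3 : ℤ) * c ^ 2 ≤ c ^ 2 * M := by
      rw [mul_comm]; exact mul_le_mul_of_nonneg_left (by exact_mod_cast hM) (sq_nonneg c)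
    rcases lt_or_gt_of_ne hne with hneg | hpos
    · nlinarith
    · nlinarith
  -- the base character extends
  set θ : G → ℂ := ν x₀ with hθdef
  have hθcf : Cfsg.IsClassFunction G θ := by
    rcases hσeq x₀ with e | e <;> rw [hθdef, e]
    · exact Char.irr_isClassFunction (hσirr x₀ hx0)
    · exact fun g h => congrArg Neg.neg (Char.irr_isClassFunction (hσirr x₀ hx0) g h)
  have hθP : ∀ p ∈ P, Cfsg.classInner θ p = 0 := fun p hp =>
    hνirr x₀ hx0 p (hPirr p hp) fun e => hdisPN x₀ hx0 (e ▸ hp)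
  have hθφ : Cfsg.classInner θ φ = 1 := by
    rw [← CharInd.classInner_swap φ θ, ht₀, show t₀ = 1 by omega]
    simp
  have hθres : (fun u : stabilizer G a => θ (u : G)) = x₀ := by
    rw [← sub_eq_zero]
    refine Char.eq_zero_of_classInner_irr_eq_zero (fun u v => ?_) fun χ => ?_
    · simp only [Pi.sub_apply, Char.irr_isClassFunction (hXirr x₀ hx0) u v]
      congr 1
      exact hθcf (u : G) (v : G)
    · rw [CharInd.classInner_sub_left]
      rcases hcases _ χ.2 with ⟨f, hf, e⟩ | hX'
      · rw [e, irr_ne (hXirr x₀ hx0) (Char.isIrrCharacter_monoidHom f) (hXlin x₀ hx0 f hf), sub_zero,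
          ← CharInd.classInner_indFun_right _ _ hθcf]
        by_cases hf1 : f = 1
        · subst hf1
          rw [show Cfsg.indFun (stabilizer G a) (fun v => (((1 : stabilizer G a →* ℂˣ) v : ℂˣ) : ℂ)) =
            one + St by rw [hStdef]; abel, CharInd.classInner_add_right,
            hθP one (Finset.mem_insert_self _ _),
            hθP St (Finset.mem_insert_of_mem (Finset.mem_insert_self _ _)), add_zero]
        · exact hθP _ (Finset.mem_insert_of_mem (Finset.mem_insert_of_mem
            (Finset.mem_image_of_mem F (Finset.mem_erase.2 ⟨hf1, hf⟩))))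
      · rw [← CharInd.classInner_indFun_right _ _ hθcf]
        have e := hcoh.rel _ hX'
        rw [CharInd.indFun_sub, CharInd.indFun_smul, eq_sub_iff_add_eq] at e
        rw [← e, CharInd.classInner_add_right, CharInd.classInner_sub_right,
          CharInd.classInner_smul_right, CharInd.classInner_smul_right, ← hφdef, hθφ, hθdef,
          hcoh.ortho x₀ hx0 _ hX', hcoh.ortho x₀ hx0 x₀ hx0, irr_ortho (hXirr x₀ hx0) χ.2, if_pos rfl]
        ring
  have hθ1 : θ 1 = (K.index : ℂ) := by
    have := congrFun hθres 1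
    rw [hx01] at this
    simpa using this
  have hθirr : Cfsg.IsIrrCharacter G θ :=
    CharInd.genChar_norm_one_pos (OddChar.signed_isGeneralized (hcoh.signed x₀ hx0))
      (by rw [hcoh.ortho x₀ hx0 x₀ hx0, if_pos rfl])
      (by rw [hθ1, Complex.natCast_re]; exact_mod_cast (show 0 < K.index by omega))
  set Θ : G → ℂ := θ * fun g => conj (θ g) with hΘdef
  have hΘ : Cfsg.IsCharacter G Θ :=
    Char.isCharacter_mul (Char.isCharacter_of_irr hθirr) (Char.isCharacter_conjFun (Char.isCharacter_of_irr hθirr))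
  have hΘ1 : degNat Θ = K.index * K.index := by
    have := degNat_eq hΘ
    rw [hΘdef, Pi.mul_apply, hθ1, Complex.conj_natCast] at this
    exact_mod_cast this.symm
  have hΘone : Cfsg.classInner Θ one = 1 := by
    rw [← irr_self hθirr]
    simp only [Cfsg.classInner, hΘdef, honedef, Pi.mul_apply, map_one, mul_one]
  have hΘF : ∀ f ∈ Λ, Cfsg.classInner Θ (F f) = 1 := by
    intro f hf
    rw [CharInd.classInner_indFun_right _ _ (Char.isCharacter_isClassFunction hΘ),
      ← irr_self (hXirr x₀ hx0)]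
    simp only [Cfsg.classInner]
    congr 1
    refine Finset.sum_congr rfl fun u _ => ?_
    rw [hΘdef, Pi.mul_apply, show θ (u : G) = x₀ u from congrFun hθres u]
    by_cases hu : u ∈ K
    · rw [mem_Lin.1 hf u hu]; simp
    · rw [supp_K (hXi x₀ hx0) hu]; simp
  have hdeg := deg_bound hΘ (insert one FS) (fun t ht => hPirr t (by
      rcases Finset.mem_insert.1 ht with rfl | ht
      · exact Finset.mem_insert_self _ _
      · exact Finset.mem_insert_of_mem (Finset.mem_insert_of_mem ht))) (fun t ht => by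
      rcases Finset.mem_insert.1 ht with rfl | ht
      · exact hΘone
      · obtain ⟨f, hf, -, rfl⟩ := hFS t ht
        exact hΘF f hf)
  rw [Finset.sum_insert (fun h => honeP (Finset.mem_insert_of_mem h)), hΘ1,
    Finset.sum_congr rfl (g := fun _ => Nat.card K + 1) (fun t ht => by
      obtain ⟨f, hf, -, rfl⟩ := hFS t ht
      have := degNat_eq (hFchar f)
      rw [hF1 f hf] at this
      exact_mod_cast this.symm),
    Finset.sum_const, smul_eq_mul,
    show degNat one = 1 by
      have := degNat_eq (Char.isCharacter_of_irr hone)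
      rw [show one 1 = ((1 : ℕ) : ℂ) by simp [honedef]] at this
      exact_mod_cast this.symm] at hdeg
  -- the final estimate
  have hM3 : 3 * K.index + 1 ≤ Nat.card K := by
    rw [← hW, mul_comm 3]; exact Nat.add_le_add_right (Nat.mul_le_mul_left _ hM) 1
  have hfinal : (K.index - 1) * (3 * K.index + 2) ≤ 2 * (FS.card * (Nat.card K + 1)) := by
    rw [← mul_assoc]; exact Nat.mul_le_mul hfib (by omega)
  obtain ⟨k, hk⟩ : ∃ k, K.index = k + 3 := ⟨K.index - 3, by omega⟩
  rw [hk] at hfinal hdeg
  simp only [show k + 3 - 1 = k + 2 by omega] at hfinal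
  nlinarith

end Cfsg.Agent.CharDeep.ZF
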