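import Mathlib
import Cfsg.Agent.CharDeep.ZassFeit
import Cfsg.Agent.Zassenhaus.Normal
import Cfsg.Agent.S0878

/-!
The inequality of Feit for Zassenhaus groups with two point stabilisers of odd order.
-/

set_option autoImplicit false
set_option linter.unusedSectionVars false
set_option linter.style.haveILetI false

noncomputable section

namespace Cfsg.Agent.CharDeep.ZF

open MulAction
open scoped Classical
open Cfsg.Agent Cfsg.Agent.OddChar43
open Cfsg.Agent.PermB (ZData)

universe u v

/-- The conclusion. -/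
def Concl {G : Type u} [Group G] (e : ℕ) (H : Subgroup G) : Prop :=
  Nat.card H - 1 ≤ 2 * e ∨
    (IsPGroup 2 H ∧ (∃ u v : H, u * v ≠ v * u) ∧ (commutator H).index ≤ 4 * e ^ 2 + 1)

theorem commutator_index_congr {A : Type*} [Group A] {B : Type*} [Group B] (f : A ≃* B) :
    (commutator A).index = (commutator B).index := by
  have h : (commutator A).map (f : A →* B) = commutator B := by
    rw [commutator_def, commutator_def, Subgroup.map_commutator,
      Subgroup.map_top_of_surjective (f : A →* B) f.surjective]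
  rw [← h, Subgroup.index_map_equiv]

theorem concl_of_equiv {G : Type u} [Group G] {M : Type u} [Group M] {e e' : ℕ} (hle : e' ≤ e)
    {H : Subgroup G} {H' : Subgroup M} (f : H' ≃* H) (h : Concl e' H') : Concl e H := by
  rcases h with h | ⟨h1, ⟨u, v, h2⟩, h3⟩
  · left
    rw [← Nat.card_congr f.toEquiv]
    exact h.trans (Nat.mul_le_mul_left _ hle)
  · refine Or.inr ⟨IsPGroup.of_equiv h1 f, ⟨f u, f v, fun e => h2 (f.injective ?_)⟩, ?_⟩
    · rw [map_mul, map_mul, e]
    · rw [← commutator_index_congr f]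
      exact h3.trans (Nat.add_le_add_right (Nat.mul_le_mul_left _ (Nat.pow_le_pow_left hle 2)) 1)

theorem concl_simple {G : Type u} {α : Type v} [Group G] [Fintype G] [MulAction G α] [Fintype α]
    [IsSimpleGroup G] (hZ : Cfsg.IsZassenhausGroup G α) {a b : α} (hab : a ≠ b)
    (hodd : Odd (Nat.card (ZData.H2 (G := G) a b))) (H : Subgroup G)
    (hle : H ≤ stabilizer G a) (hcard : Nat.card H + 1 = Fintype.card α)
    (hfix : ∀ u ∈ H, u ≠ 1 → ∀ c : α, u • c = c → c = a) :
    Concl (Nat.card (ZData.H2 (G := G) a b)) H := by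
  have hz := PermB.zData_of_isZassenhausGroup hZ
  have h3 := PermB.three_le_card_of_isZassenhausGroup hZ
  have hN := isKernel_of_hyp hz h3 hle (by rw [Nat.card_eq_fintype_card (α := α)]; exact hcard) hfix
  by_cases hsmall : Nat.card H - 1 ≤ 2 * Nat.card (ZData.H2 (G := G) a b)
  · exact Or.inl hsmall
  have hsw := ZC.swapInvol_of_simple hZ
  have hcyc := (Zassenhaus.isCyclic_H2 hZ hab).1
  have hcomm : ∀ x y : G, x ∈ ZData.H2 (G := G) a b → y ∈ ZData.H2 (G := G) a b → x * y = y * x := by
    intro x y hx hy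
    obtain ⟨g, hg⟩ := hcyc.exists_generator
    obtain ⟨i, hi⟩ := Subgroup.mem_zpowers_iff.1 (hg ⟨x, hx⟩)
    obtain ⟨j, hj⟩ := Subgroup.mem_zpowers_iff.1 (hg ⟨y, hy⟩)
    have ex : (g : G) ^ i = x := congrArg Subtype.val hi
    have ey : (g : G) ^ j = y := congrArg Subtype.val hj
    rw [← ex, ← ey]
    exact (Commute.zpow_zpow_self (g : G) i j).eq
  let K : Subgroup (stabilizer G a) := H.subgroupOf (stabilizer G a)
  have hK : ∀ u : stabilizer G a, u ∈ K ↔ (u : G) ∈ H := fun u => Subgroup.mem_subgroupOf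
  haveI : K.Normal :=
    ⟨fun u hu g => Subgroup.mem_subgroupOf.2 (hN.conj g g.2 u (Subgroup.mem_subgroupOf.1 hu))⟩
  have hKH : Nat.card K = Nat.card H := card_K hN hK
  have hKe := index_K hz hab hN hK
  rw [← hKe] at hsmall hodd ⊢
  have he3 : 3 ≤ K.index := by
    obtain ⟨g, hg, c, d, hcd, hgc, hgd⟩ := hZ.2.2.2.1
    obtain ⟨x, hx, hx1⟩ := nontrivial_H2 hz hg hcd hgc hgd hab
    haveI : Nontrivial (ZData.H2 (G := G) a b) :=
      ⟨⟨⟨x, hx⟩, 1, fun e => hx1 (congrArg Subtype.val e)⟩⟩
    have h2 : 1 < K.index := by rw [hKe]; exact Finite.one_lt_card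
    obtain ⟨k, hk⟩ := hodd
    omega
  have hbig : 2 * K.index + 1 < Nat.card K := by rw [hKH]; omega
  have hC : ∀ n ∈ K, n ≠ 1 → Subgroup.centralizer ({n} : Set (stabilizer G a)) ≤ K :=
    cent_le hz hab hN hK
  have hTI : KerTI (stabilizer G a) K := kerTI hN hK
  have hKL : K < ⊤ := lt_top_iff_ne_top.2 fun e => by rw [e, Subgroup.index_top] at he3; omega
  haveI : Group.IsNilpotent K := kernel_isNilpotent K hKL hC
  have hK1 : K ≠ ⊥ := fun e => by rw [e, Subgroup.card_bot] at hbig; omega
  have hodd' : Odd (Nat.card (ZData.H2 (G := G) a b)) := hKe ▸ hodd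
  have hfalse : ∀ {x₀ : stabilizer G a → ℂ} {ν : (stabilizer G a → ℂ) → (G → ℂ)},
      IsCoh (stabilizer G a) K (iiaF (stabilizer G a) K ⊥) x₀ ν → False :=
    fun h => coh_false hz hab hN hK hsw hcomm hodd' he3 hbig h
  have hmapK : K.map (stabilizer G a).subtype = H := Subgroup.map_subgroupOf_eq_of_le hle
  by_cases heven : Even (Nat.card K)
  swap
  · exfalso
    have hoddL : Odd (Nat.card (stabilizer G a)) := by
      rw [← K.card_mul_index]
      exact (Nat.not_even_iff_odd.1 heven).mul hodd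
    have hnorm : Subgroup.normalizer (K.map (stabilizer G a).subtype : Set G) = stabilizer G a := by
      rw [hmapK]
      exact (Cfsg.Agent.S0878.result hZ a H hle hcard hfix).2
    obtain ⟨x₀, ν, h⟩ := exists_coh_odd hC hTI hoddL hK1 hKL hnorm
    exact hfalse h
  by_cases hpp : ∃ p m : ℕ, p.Prime ∧ Nat.card K = p ^ m
  swap
  · exfalso
    obtain ⟨x₀, ν, h⟩ :=
      exists_coh hC hTI he3 hK1 (big_of_two_primes hC hpp) (Or.inr (Or.inr hpp))
    exact hfalse h
  obtain ⟨p, m, hp, hpm⟩ := hpp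
  have hp2 : p = 2 := ((Nat.prime_dvd_prime_iff_eq Nat.prime_two hp).1
    (Nat.prime_two.dvd_of_dvd_pow (hpm ▸ heven.two_dvd))).symm
  subst hp2
  have hmapc : (commutator ↥K).map K.subtype = ⁅K, K⁆ := by
    rw [commutator_def, Subgroup.map_commutator, ← MonoidHom.range_eq_map, Subgroup.range_subtype]
  have hidx : (⁅K, K⁆).relIndex K = (commutator H).index := by
    rw [← commutator_index_congr (Subgroup.subgroupOfEquivOfLe hle), Subgroup.relIndex, ← hmapc,
      Subgroup.subgroupOf, Subgroup.comap_map_eq_self_of_injective K.subtype_injective]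
  by_cases hab' : ∀ u v : H, u * v = v * u
  · exfalso
    have hbot : ⁅K, K⁆ = ⊥ := by
      rw [Subgroup.commutator_eq_bot_iff_le_centralizer]
      intro x hx
      rw [Subgroup.mem_centralizer_iff]
      intro y hy
      exact Subtype.ext (congrArg Subtype.val (hab' ⟨(y : G), (hK y).1 hy⟩ ⟨(x : G), (hK x).1 hx⟩) :)
    have hlt : K.index + 1 < (⁅K, K⁆).relIndex K := by
      rw [hbot, Subgroup.relIndex_bot_left]; omega
    obtain ⟨x₀, ν, h⟩ := exists_coh hC hTI he3 hK1 hlt (Or.inl hbot)
    exact hfalse h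
  by_cases hidx' : (commutator H).index ≤ 4 * K.index ^ 2 + 1
  · refine Or.inr ⟨IsPGroup.of_card (n := m) (hKH ▸ hpm), ?_, hidx'⟩
    push Not at hab'
    exact hab'
  exfalso
  have hlt : K.index + 1 < (⁅K, K⁆).relIndex K := by
    rw [hidx]; nlinarith [Nat.lt_of_not_le hidx']
  obtain ⟨x₀, ν, h⟩ :=
    exists_coh hC hTI he3 hK1 hlt (Or.inr (Or.inl (by rw [hidx]; exact Nat.lt_of_not_le hidx')))
  exact hfalse h

theorem concl_all {α : Type v} [Fintype α] : ∀ (n : ℕ) (G : Type u) [Group G] [Fintype G]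
    [MulAction G α], Nat.card G = n → Cfsg.IsZassenhausGroup G α → ∀ {a b : α}, a ≠ b →
    Odd (Nat.card (ZData.H2 (G := G) a b)) → ∀ (H : Subgroup G), H ≤ stabilizer G a →
    Nat.card H + 1 = Fintype.card α → (∀ u ∈ H, u ≠ 1 → ∀ c : α, u • c = c → c = a) →
    Concl (Nat.card (ZData.H2 (G := G) a b)) H := by
  intro n
  induction n using Nat.strong_induction_on with
  | _ n ih =>
    intro G _ _ _ hn hZ a b hab hodd H hle hcard hfix
    by_cases hsimp : ∀ M : Subgroup G, M.Normal → M = ⊥ ∨ M = ⊤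
    · haveI : Nontrivial G := by
        obtain ⟨g, hg, -⟩ := hZ.2.2.2.1
        exact ⟨⟨g, 1, hg⟩⟩
      haveI : IsSimpleGroup G := ⟨hsimp⟩
      exact concl_simple hZ hab hodd H hle hcard hfix
    push Not at hsimp
    obtain ⟨M, hMn, hM1, hM2⟩ := hsimp
    haveI := hMn
    have hZM := Zassenhaus.normal_isZassenhaus hZ M hM1
    have hz := PermB.zData_of_isZassenhausGroup hZ
    have hzM := PermB.zData_of_isZassenhausGroup hZM
    have h3 := PermB.three_le_card_of_isZassenhausGroup hZ
    have hN := isKernel_of_hyp hz h3 hle (by rw [Nat.card_eq_fintype_card (α := α)]; exact hcard) hfix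
    have hsub : Subtype.val '' (ZData.frobSet (G := M) a) ⊆ ZData.frobSet (G := G) a := by
      rintro _ ⟨x, ⟨hx, hx'⟩, rfl⟩
      refine ⟨hx, ?_⟩
      rcases hx' with rfl | h
      · exact Or.inl rfl
      · exact Or.inr h
    have himg : Subtype.val '' (ZData.frobSet (G := M) a) = ZData.frobSet (G := G) a := by
      refine Set.eq_of_subset_of_ncard_le hsub ?_ (Set.toFinite _)
      rw [Set.ncard_image_of_injective _ Subtype.val_injective, hz.ncard_frobSet hab,
        hzM.ncard_frobSet hab]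
    have hHM : H ≤ M := fun u hu => by
      have hm := (hz.mem_kernel_iff hN hab).1 hu
      rw [← himg] at hm
      obtain ⟨x, -, rfl⟩ := hm
      exact x.2
    have hdvd : Nat.card (ZData.H2 (G := M) a b) ∣ Nat.card (ZData.H2 (G := G) a b) := by
      let f : ZData.H2 (G := M) a b →* ZData.H2 (G := G) a b :=
        { toFun := fun x => ⟨((x : M) : G), x.2⟩
          map_one' := rfl
          map_mul' := fun _ _ => rfl }
      exact Subgroup.card_dvd_of_injective f fun x y e =>
        Subtype.ext (Subtype.ext (congrArg (fun t : ZData.H2 (G := G) a b => (t : G)) e))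
    have hlt : Nat.card M < n := by
      rw [← hn]
      exact Nat.lt_of_le_of_ne (Subgroup.card_le_card_group M) fun e =>
        hM2 (Subgroup.eq_top_of_card_eq M e)
    refine concl_of_equiv (Nat.le_of_dvd Nat.card_pos hdvd) (Subgroup.subgroupOfEquivOfLe hHM)
      (ih _ hlt M rfl hZM hab (hodd.of_dvd_nat hdvd) (H.subgroupOf M) ?_ ?_ ?_)
    · intro x hx
      exact hle hx
    · rw [Nat.card_congr (Subgroup.subgroupOfEquivOfLe hHM).toEquiv]
      exact hcard
    · intro x hx hx1 c hc
      exact hfix _ hx (fun e => hx1 (Subtype.ext e)) c hc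

end Cfsg.Agent.CharDeep.ZF
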