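import Cfsg.Agent.CharDeep.ZassAbelian
import Cfsg.Agent.S0347

/-!
Finite simple Zassenhaus groups.
-/

set_option autoImplicit false
set_option linter.unusedSectionVars false
set_option linter.style.haveILetI false

namespace Cfsg.Agent.CharDeep.ZS

open MulAction
open Cfsg.Agent.PermB (ZData IsKernel)

variable {G Ω : Type*} [Group G] [MulAction G Ω] [Finite G] [Finite Ω]

theorem simple_abelian [IsSimpleGroup G] (hZ : Cfsg.IsZassenhausGroup G Ω) {N : Subgroup G}
    {a b : Ω} (hN : IsKernel N a) (hab : a ≠ b) (hNc : IsMulCommutative N) :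
    ∃ (F : Type) (_ : Field F) (_ : Fintype F),
      Nonempty (G ≃* Matrix.ProjectiveSpecialLinearGroup (Fin 2) F) := by
  classical
  have hz := PermB.zData_of_isZassenhausGroup hZ
  have h3 := PermB.three_le_card_of_isZassenhausGroup hZ
  rcases ZA.abelian_kernel hZ hN hab hNc with ⟨hsharp, -⟩ | ⟨K, iK, iF, -, -, h⟩
  swap
  · exact ⟨K, iK, iF, h⟩
  have hd := hz.card_H2_of_sharp3 h3 hsharp hab
  have hodd : Odd (Nat.card (ZData.H2 (G := G) a b)) := by
    refine (Nat.even_or_odd _).resolve_left fun he => ?_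
    have := Zassenhaus.two_mul_card_H2 hZ hab he
    have : 0 < Nat.card (ZData.H2 (G := G) a b) := Nat.card_pos
    omega
  obtain ⟨-, v, hv, hva, hvb, hinv⟩ := Zassenhaus.isCyclic_H2 hZ hab
  have hvv : v * v = 1 := by rw [← pow_two, ← hv, pow_orderOf_eq_one]
  have hv1 : v ≠ 1 := fun e => by rw [e, orderOf_one] at hv; omega
  obtain ⟨-, hpar⟩ := hz.card_fixedBy_involution hvv hv1
  obtain ⟨c, hc⟩ : ∃ c : Ω, v • c = c := by
    rcases isEmpty_or_nonempty (fixedBy Ω v) with he | ⟨⟨c, hc⟩⟩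
    · exfalso
      rw [Nat.card_of_isEmpty] at hpar
      obtain ⟨k, hk⟩ := hodd
      omega
    · exact ⟨c, hc⟩
  have hca : c ≠ a := fun e => by subst e; exact hab (hc.symm.trans hva)
  have hcb : c ≠ b := fun e => by subst e; exact hab (hvb.symm.trans hc)
  obtain ⟨K, iK, iF, hK, ⟨e⟩⟩ :=
    PermB.exists_mulEquiv_pgl hz hN hab hca hcb hNc hva hvb hc hinv hd
  have heven : Fintype.card K % 2 = 0 := by
    obtain ⟨k, hk⟩ := hodd
    omega
  have hchar : ringChar K = 2 := FiniteField.even_card_iff_char_two.2 heven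
  have hsurj : Function.Surjective
      (Matrix.ProjectiveSpecialLinearGroup.toPGL (n := Fin 2) (R := K)) := by
    refine Matrix.ProjectiveSpecialLinearGroup.toPGL_surj_of_roots fun r => ?_
    obtain ⟨x, hx⟩ := FiniteField.isSquare_of_char_two hchar (r : K)
    have hx0 : x ≠ 0 := fun h0 => r.ne_zero (by rw [hx, h0, zero_mul])
    exact ⟨Units.mk0 x hx0, Units.ext (by simp [sq, hx])⟩
  exact ⟨K, iK, iF, ⟨e.trans (MulEquiv.ofBijective _
    ⟨Matrix.ProjectiveSpecialLinearGroup.toPGL_injective, hsurj⟩).symm⟩⟩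

theorem simple_zassenhaus [IsSimpleGroup G] (hZ : Cfsg.IsZassenhausGroup G Ω) :
    (∃ (F : Type) (_ : Field F) (_ : Fintype F),
      Nonempty (G ≃* Matrix.ProjectiveSpecialLinearGroup (Fin 2) F)) ∨ Cfsg.IsSuzuki G := by
  classical
  have hz := PermB.zData_of_isZassenhausGroup hZ
  have h3 := PermB.three_le_card_of_isZassenhausGroup hZ
  obtain ⟨-, -, a, b, hab, -, -⟩ := hZ.2.2.2.1
  obtain ⟨N, hN⟩ := hz.exists_kernel hab
  by_cases hbig : Nat.card Ω - 2 ≤ 2 * Nat.card (ZData.H2 (G := G) a b)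
  · exact Or.inl (simple_abelian hZ hN hab (hN.elementary hz hab.symm h3 hbig).1)
  have hodd : Odd (Nat.card (ZData.H2 (G := G) a b)) :=
    (Nat.even_or_odd _).resolve_left fun he => hbig (hz.card_sub_two_le_two_mul hab h3 he)
  letI := Fintype.ofFinite Ω
  have hΩ : Fintype.card Ω = Nat.card Ω := Fintype.card_eq_nat_card
  have hc := hN.card_add_one hab.symm
  rcases Cfsg.Agent.S0885.result hZ hab (Nat.card N) _ (by omega) rfl hodd N hN.le (by omega)
    (fun u hu hu1 c hc => by_contra fun hne => hu1 (hN.eq_one hu hne hc)) with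
    h | ⟨h2, hna, -⟩
  · exfalso
    have e : Nat.card ↥(stabilizer G a ⊓ stabilizer G b : Subgroup G) =
      Nat.card (ZData.H2 (G := G) a b) := rfl
    omega
  · exact Or.inr (Cfsg.Agent.S0347.result hZ a N hN.le
      ⟨fun u hu g => hN.conj (g : G) g.2 (u : G) hu⟩ h2 hna hN.reg)

end Cfsg.Agent.CharDeep.ZS
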